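/-
(B,N)-pairs: an element commuting with an element of `B` that fixes no chamber of the big cell lies in a conjugate
of a proper parabolic subgroup, by the vanishing of the alternating sum of parabolic permutation characters.
-/
import Cfsg.Agent.Lib.BNSt.BigCell

set_option autoImplicit false

namespace Cfsg.Agent.Lib.BNSt

open Cfsg Cfsg.Agent.Lib.BN

variable {G : Type*} [Group G] [Finite G]

/-- Counting modulo `p` the fixed points of an element on the fixed points of a commuting element. -/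
lemma dvd_card_fixedBy {K : Subgroup G} {t b : G} (hc : Commute t b) {p : ℕ} [hp : Fact p.Prime] (hb : orderOf b = p)
    (hfree : ∀ g : G, g * b * g⁻¹ ∉ K) : p ∣ Nat.card (MulAction.fixedBy (G ⧸ K) t) := by
  classical
  haveI : Fintype (G ⧸ K) := Fintype.ofFinite _
  haveI : Fintype (MulAction.fixedBy (G ⧸ K) t) := Fintype.ofFinite _
  let f : Function.End (MulAction.fixedBy (G ⧸ K) t) := fun x => ⟨b • x.1, by
    have h1 : t • x.1 = x.1 := x.2
    show t • b • x.1 = b • x.1
    rw [smul_smul, hc.eq, mul_smul, h1]⟩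
  have hpow : ∀ (k : ℕ) (x : MulAction.fixedBy (G ⧸ K) t), ((f ^ k) x).1 = b ^ k • x.1 := by
    intro k x
    induction k with
    | zero =>
      rw [pow_zero (f), _root_.pow_zero, one_smul]
      rfl
    | succ k ih =>
      rw [pow_succ', Function.End.mul_def]
      show b • ((f ^ k) x).1 = _
      rw [ih, smul_smul, pow_succ']
  have hf : f ^ p ^ 1 = 1 := by
    funext x
    apply Subtype.ext
    rw [pow_one, hpow, ← hb, pow_orderOf_eq_one, one_smul]
    rfl
  have h1 := Equiv.Perm.card_fixedPoints_modEq hf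
  have h2 : IsEmpty (Function.fixedPoints f) := by
    refine ⟨fun x => ?_⟩
    have h3 : f x.1 = x.1 := x.2
    have h4 : b • x.1.1 = x.1.1 := congrArg Subtype.val h3
    obtain ⟨g, hg⟩ := QuotientGroup.mk_surjective x.1.1
    rw [← hg] at h4
    have h5 := QuotientGroup.eq.1 h4.symm
    apply hfree g⁻¹
    have e : g⁻¹ * b * g⁻¹⁻¹ = g⁻¹ * (b • g) := by
      simp [mul_assoc]
    rw [e]
    exact h5
  rw [Fintype.card_eq_zero_iff.2 h2] at h1
  rw [Nat.card_eq_fintype_card]
  exact (Nat.modEq_zero_iff_dvd).1 h1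

variable {P : BNPair G} {ι : Type*} [DecidableEq ι] {A : Finset ι} {r : ι → G}

/-- An element of prime order commuting with an element of `B` without fixed chambers in the big cell
lies in a conjugate of a proper parabolic subgroup. -/
theorem exists_conj_parabolic (h : IsGens P A r) {t b : G} (ht : t ∈ P.B)
    (hfree : ∀ D : G ⧸ P.B, t • D = D → ¬ IsW0 P (lblQ D)) (hc : Commute t b) {p : ℕ} (hp : p.Prime) (hb : orderOf b = p) :
    ∃ J ∈ A.powerset, J ≠ A ∧ ∃ g : G, g * b * g⁻¹ ∈ P.parabolic (r '' (J : Set ι)) := by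
  classical
  by_contra hno
  push Not at hno
  haveI : Fact p.Prime := ⟨hp⟩
  have h0 : stB P A r t = 0 := by
    rw [stB_on_B h ht]
    have : IsEmpty {D : G ⧸ P.B // t • D = D ∧ IsW0 P (lblQ D)} := ⟨fun x => hfree x.1 x.2.1 x.2.2⟩
    simp
  have hdiv : ∀ J ∈ A.powerset.erase A, (p : ℤ) ∣ (-1 : ℤ) ^ J.card * (Nat.card (MulAction.fixedBy (G ⧸ P.parabolic (r '' (J : Set ι))) t) : ℤ) := by
    intro J hJ
    obtain ⟨hne, hJ'⟩ := Finset.mem_erase.1 hJ
    refine Dvd.dvd.mul_left ?_ _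
    exact_mod_cast dvd_card_fixedBy hc hb (hno J hJ' hne)
  have htop : P.parabolic (r '' (A : Set ι)) = ⊤ := by
    have h2 : r '' (A : Set ι) = P.S := by
      apply Set.Subset.antisymm
      · rintro _ ⟨i, hi, rfl⟩
        exact h.mem i hi
      · intro s hs
        obtain ⟨i, hi, rfl⟩ := h.surj s hs
        exact ⟨i, hi, rfl⟩
    show P.B ⊔ Subgroup.closure (r '' (A : Set ι)) = ⊤
    rw [h2]
    exact sup_closure_S_eq_top
  have hone : Nat.card (MulAction.fixedBy (G ⧸ P.parabolic (r '' (A : Set ι))) t) = 1 := by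
    rw [Nat.card_eq_one_iff_unique]
    rw [htop]
    haveI : Subsingleton (G ⧸ (⊤ : Subgroup G)) := QuotientGroup.subsingleton_quotient_top
    refine ⟨inferInstance, ⟨⟨QuotientGroup.mk 1, ?_⟩⟩⟩
    exact Subsingleton.elim _ _
  have hZ : (∑ J ∈ A.powerset, (-1 : ℤ) ^ J.card * (Nat.card (MulAction.fixedBy (G ⧸ P.parabolic (r '' (J : Set ι))) t) : ℤ)) = 0 := by
    have h3 : ((∑ J ∈ A.powerset, (-1 : ℤ) ^ J.card * (Nat.card (MulAction.fixedBy (G ⧸ P.parabolic (r '' (J : Set ι))) t) : ℤ) : ℤ) : ℂ) = 0 := by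
      rw [← h0]
      unfold stB fixedPointCharacter
      push_cast
      rfl
    exact_mod_cast h3
  rw [← Finset.add_sum_erase _ _ (Finset.mem_powerset.2 (subset_refl A)), hone] at hZ
  have h4 := Finset.dvd_sum hdiv
  have h5 : (p : ℤ) ∣ (-1 : ℤ) ^ A.card := by
    have h6 : (-1 : ℤ) ^ A.card * ((1 : ℕ) : ℤ) = -∑ J ∈ A.powerset.erase A, (-1 : ℤ) ^ J.card * (Nat.card (MulAction.fixedBy (G ⧸ P.parabolic (r '' (J : Set ι))) t) : ℤ) := by
      linarith
    rw [Nat.cast_one, mul_one] at h6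
    rw [h6]
    exact (dvd_neg).2 h4
  have h7 : (p : ℤ) ∣ 1 := by
    rcases neg_one_pow_eq_or ℤ A.card with h8 | h8
    · rwa [h8] at h5
    · rw [h8] at h5
      exact (dvd_neg).1 h5
  have h8 := Int.natCast_dvd_natCast.1 (by simpa using h7 : (p : ℤ) ∣ ((1 : ℕ) : ℤ))
  exact hp.one_lt.ne' (Nat.dvd_one.1 h8)

end Cfsg.Agent.Lib.BNSt
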