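/-
`F₄(q)`, `q` odd: involutions of `N` are conjugate into `H`.
-/
import Cfsg.Agent.Lib.Coll.F4OddT

set_option autoImplicit false

namespace Cfsg.Agent.Lib.Coll.F4Odd

open Cfsg.Lie Cfsg.Agent.Lib.Chev Cfsg.Agent.Lib.Coll.G2Odd Cfsg.Agent.Lib.Coll.OddGen

theorem hF : digF4.tbl.Good2 chevF4 := good3F4.toGood2

lemma lt24 : 24 < chevF4.nroots := by decide +kernel
lemma lt25 : 25 < chevF4.nroots := by decide +kernel
lemma lt27 : 27 < chevF4.nroots := by decide +kernel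
lemma lt33 : 33 < chevF4.nroots := by decide +kernel
lemma r0 : 0 < chevF4.rank := by decide +kernel
lemma r1 : 1 < chevF4.rank := by decide +kernel
lemma r2 : 2 < chevF4.rank := by decide +kernel
lemma r3 : 3 < chevF4.rank := by decide +kernel
lemma n48 : chevF4.nroots = 48 := by decide +kernel
lemma rank4 : chevF4.rank = 4 := by decide +kernel

variable {F : Type*} [Field F]

/-- A general element of the diagonal subgroup. -/
noncomputable def mH4 (c0 c1 c2 c3 : F) (h0 : c0 ≠ 0) (h1 : c1 ≠ 0) (h2 : c2 ≠ 0) (h3 : c3 ≠ 0) : GL chevF4.Idx F :=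
  hF.hU lt33 h0 * (hF.hU lt27 h1 * (hF.hU lt25 h2 * hF.hU lt24 h3))

lemma H_coords4 {g : GL chevF4.Idx F} (hg : g ∈ chevF4.diagonalSubgroup F) :
    ∃ (c0 c1 c2 c3 : F) (h0 : c0 ≠ 0) (h1 : c1 ≠ 0) (h2 : c2 ≠ 0) (h3 : c3 ≠ 0), g = mH4 c0 c1 c2 c3 h0 h1 h2 h3 := by
  obtain ⟨c, hc, e⟩ := hF.H_form hg
  refine ⟨c 0, c 1, c 2, c 3, hc 0 r0, hc 1 r1, hc 2 r2, hc 3 r3, ?_⟩
  apply Units.ext
  rw [e]
  have er : List.range chevF4.rank = [0, 1, 2, 3] := by decide +kernel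
  have e0 : chevF4.simple 0 = 33 := by decide +kernel
  have e1 : chevF4.simple 1 = 27 := by decide +kernel
  have e2 : chevF4.simple 2 = 25 := by decide +kernel
  have e3 : chevF4.simple 3 = 24 := by decide +kernel
  rw [er]
  simp only [List.flatMap_cons, List.flatMap_nil, List.append_nil, e0, e1, e2, e3, wordMat_append]
  rfl

/-- The character of an element of the diagonal subgroup. -/
noncomputable def chi4 (c0 c1 c2 c3 : F) (s : ℕ) : F :=
  c0 ^ chevF4.pairing 33 s * (c1 ^ chevF4.pairing 27 s * (c2 ^ chevF4.pairing 25 s * c3 ^ chevF4.pairing 24 s))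

lemma mH4_conj {c0 c1 c2 c3 : F} (h0 : c0 ≠ 0) (h1 : c1 ≠ 0) (h2 : c2 ≠ 0) (h3 : c3 ≠ 0) {s : ℕ} (hs : s < chevF4.nroots) (t : F) :
    mH4 c0 c1 c2 c3 h0 h1 h2 h3 * hF.xU hs t * (mH4 c0 c1 c2 c3 h0 h1 h2 h3)⁻¹ = hF.xU hs (chi4 c0 c1 c2 c3 s * t) := by
  unfold mH4 chi4
  have e : ∀ x y z : GL chevF4.Idx F, (x * y) * z * (x * y)⁻¹ = x * (y * z * y⁻¹) * x⁻¹ := by
    intro x y z
    group
  rw [e, e, e, hF.hU_conj_x, hF.hU_conj_x, hF.hU_conj_x, hF.hU_conj_x]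
  apply hF.xU_congr _ _ rfl
  simp only [mul_assoc]

lemma split_c {c : F} (hc : c ≠ 0) {a b b' : ℤ} (h : (a - b - b') % 2 = 0) :
    c ^ a = c ^ b * c ^ b' * (c ^ ((a - b - b') / 2) * c ^ ((a - b - b') / 2)) := by
  rw [← zpow_add₀ hc, ← zpow_add₀ hc, ← zpow_add₀ hc]
  congr 1
  omega

lemma comb4 (a0 a1 a2 a3 b0 b1 b2 b3 c0 c1 c2 c3 e0 e1 e2 e3 : F) (h0 : a0 = b0 * c0 * (e0 * e0)) (h1 : a1 = b1 * c1 * (e1 * e1))
    (h2 : a2 = b2 * c2 * (e2 * e2)) (h3 : a3 = b3 * c3 * (e3 * e3)) :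
    a0 * (a1 * (a2 * a3)) = (b0 * (b1 * (b2 * b3))) * (c0 * (c1 * (c2 * c3))) * ((e0 * (e1 * (e2 * e3))) * (e0 * (e1 * (e2 * e3)))) := by
  rw [h0, h1, h2, h3]
  ring

/-- The validity of a step of the descent. -/
abbrev EOk (e : Ent) : Prop :=
  (∀ j ∈ e.l, j < chevF4.rank) ∧ (∀ j ∈ e.nx, j < chevF4.rank) ∧ (∀ j ∈ e.m, j < chevF4.rank) ∧ e.i < chevF4.rank ∧ e.r < chevF4.nroots ∧
  wperm digF4.tbl e.m (chevF4.simple e.i) = e.r ∧
  (∀ q, q < chevF4.nroots → wperm digF4.tbl ((e.m ++ e.i :: e.m.reverse) ++ e.l) q = wperm digF4.tbl e.nx q) ∧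
  wperm digF4.tbl e.l e.r = chevF4.neg e.r ∧ e.aux < chevF4.nroots ∧
  ((e.mode = 0 ∧ wperm digF4.tbl e.l (wperm digF4.tbl e.l e.aux) = e.aux ∧
     (chevF4.pairing 33 (chevF4.neg e.r) - chevF4.pairing 33 e.aux - chevF4.pairing 33 (wperm digF4.tbl e.l e.aux)) % 2 = 0 ∧
     (chevF4.pairing 27 (chevF4.neg e.r) - chevF4.pairing 27 e.aux - chevF4.pairing 27 (wperm digF4.tbl e.l e.aux)) % 2 = 0 ∧
     (chevF4.pairing 25 (chevF4.neg e.r) - chevF4.pairing 25 e.aux - chevF4.pairing 25 (wperm digF4.tbl e.l e.aux)) % 2 = 0 ∧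
     (chevF4.pairing 24 (chevF4.neg e.r) - chevF4.pairing 24 e.aux - chevF4.pairing 24 (wperm digF4.tbl e.l e.aux)) % 2 = 0 ∧
     sgnL digF4.tbl e.l e.r * sgnL digF4.tbl e.l (wperm digF4.tbl e.l e.aux) * sgnL digF4.tbl e.l e.aux = 1) ∨
   (e.mode = 1 ∧ wperm digF4.tbl e.l e.aux = chevF4.neg e.aux ∧
     chevF4.pairing e.aux (chevF4.neg e.r) = 2 * ((chevF4.pairing e.aux (chevF4.neg e.r) - 1) / 2) + 1 ∧
     chevF4.pairing e.aux e.r = -(2 * ((chevF4.pairing e.aux (chevF4.neg e.r) - 1) / 2) + 1)))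

/-- The check of the descent table. -/
noncomputable def chainB : List Ent → List (List ℕ) → Bool
  | [], _ => true
  | e :: es, seen => decide (EOk e) && decide (e.nx ∈ seen) && chainB es (e.l :: seen)

theorem chain_ok : chainB Tab [[]] = true := by decide +kernel

/-- The property proved along the table. -/
def Q (F : Type*) [Field F] (l : List ℕ) : Prop :=
  ∀ h ∈ chevF4.diagonalSubgroup F, (h * hF.nProd l) * (h * hF.nProd l) = 1 →
    ∃ g ∈ chevF4.group F, g * (h * hF.nProd l) * g⁻¹ ∈ chevF4.diagonalSubgroup F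

lemma Q_nil : Q F [] := by
  intro h hh _
  refine ⟨1, Subgroup.one_mem _, ?_⟩
  rw [hF.nProd_nil, mul_one, one_mul, inv_one, mul_one]
  exact hh

lemma step [Fintype F] (hOdd : Odd (Fintype.card F)) {e : Ent} (he : EOk e) (hnx : Q F e.nx) : Q F e.l := by
  obtain ⟨hl, hnxI, hm, hi, hr, em, enx, er, haux, hmode⟩ := he
  intro h hh hsq
  have h2t := two_ne hOdd
  have key : ∃ g ∈ chevF4.group F, ∃ h₂ ∈ chevF4.diagonalSubgroup F, g * (h * hF.nProd e.l) * g⁻¹ = h₂ * hF.nProd e.nx := by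
    rcases hmode with ⟨_, eγ, hp0, hp1, hp2, hp3, hsign⟩ | ⟨_, es, ek, ek'⟩
    · obtain ⟨c0, c1, c2, c3, h0, h1, h2, h3, rfl⟩ := H_coords4 hh
      refine step_g hF rank1F4 h2t hl hnxI hm hi hr em enx hh (χ := chi4 c0 c1 c2 c3) (fun s hs t => mH4_conj h0 h1 h2 h3 hs t) hsq er haux eγ
        (ρ := c0 ^ ((chevF4.pairing 33 (chevF4.neg e.r) - chevF4.pairing 33 e.aux - chevF4.pairing 33 (wperm digF4.tbl e.l e.aux)) / 2) *
          (c1 ^ ((chevF4.pairing 27 (chevF4.neg e.r) - chevF4.pairing 27 e.aux - chevF4.pairing 27 (wperm digF4.tbl e.l e.aux)) / 2) *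
          (c2 ^ ((chevF4.pairing 25 (chevF4.neg e.r) - chevF4.pairing 25 e.aux - chevF4.pairing 25 (wperm digF4.tbl e.l e.aux)) / 2) *
           c3 ^ ((chevF4.pairing 24 (chevF4.neg e.r) - chevF4.pairing 24 e.aux - chevF4.pairing 24 (wperm digF4.tbl e.l e.aux)) / 2))))
        ?_ ?_ hsign
      · exact mul_ne_zero (zpow_ne_zero _ h0) (mul_ne_zero (zpow_ne_zero _ h1) (mul_ne_zero (zpow_ne_zero _ h2) (zpow_ne_zero _ h3)))
      · exact comb4 _ _ _ _ _ _ _ _ _ _ _ _ _ _ _ _ (split_c h0 hp0) (split_c h1 hp1) (split_c h2 hp2) (split_c h3 hp3)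
    · exact step_s hF hOdd rank1F4 hl hnxI hm hi hr em enx hh hsq er haux es ek ek'
  obtain ⟨g₁, hg₁, h₂, hh₂, e₂⟩ := key
  have hsq' : (h₂ * hF.nProd e.nx) * (h₂ * hF.nProd e.nx) = 1 := by
    rw [← e₂]
    exact conj_sq_one hsq
  obtain ⟨g₂, hg₂, hm₂⟩ := hnx h₂ hh₂ hsq'
  refine ⟨g₂ * g₁, Subgroup.mul_mem _ hg₂ hg₁, ?_⟩
  have e3 : (g₂ * g₁) * (h * hF.nProd e.l) * (g₂ * g₁)⁻¹ = g₂ * (g₁ * (h * hF.nProd e.l) * g₁⁻¹) * g₂⁻¹ := by group
  rw [e3, e₂]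
  exact hm₂

lemma chain_sound [Fintype F] (hOdd : Odd (Fintype.card F)) : ∀ (es : List Ent) (seen : List (List ℕ)), chainB es seen = true →
    (∀ l ∈ seen, Q F l) → ∀ e ∈ es, Q F e.l
  | [], _, _, _, e, he => absurd he (by simp)
  | e :: es, seen, hc, hs, e', he' => by
    simp only [chainB, Bool.and_eq_true, decide_eq_true_eq] at hc
    obtain ⟨⟨h1, h2⟩, h3⟩ := hc
    have hq : Q F e.l := step hOdd h1 (hs _ h2)
    rcases List.mem_cons.1 he' with rfl | h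
    · exact hq
    · refine chain_sound hOdd es _ h3 (fun l hl => ?_) e' h
      rcases List.mem_cons.1 hl with rfl | h'
      · exact hq
      · exact hs _ h'

/-- The words of the descent table. -/
def InvW : List (List ℕ) := [] :: Tab.map Ent.l

lemma Q_all [Fintype F] (hOdd : Odd (Fintype.card F)) {w : List ℕ} (hw : w ∈ InvW) : Q F w := by
  rcases List.mem_cons.1 hw with rfl | h
  · exact Q_nil
  · obtain ⟨e, he, rfl⟩ := List.mem_map.1 h
    refine chain_sound hOdd Tab [[]] chain_ok ?_ e he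
    intro l hl
    rw [List.mem_singleton.1 hl]
    exact Q_nil

end Cfsg.Agent.Lib.Coll.F4Odd
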