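/-
`F₄(q)`, `q` odd: the kernel checks of the tables of the Weyl group.
-/
import Cfsg.Agent.Lib.Coll.F4OddA

set_option autoImplicit false

namespace Cfsg.Agent.Lib.Coll.F4Odd

open Cfsg.Lie Cfsg.Agent.Lib.Chev Cfsg.Agent.Lib.Coll.G2Odd Cfsg.Agent.Lib.Coll.OddGen

/-- The digits of a key. -/
def dg (k r : ℕ) : ℕ := k / 48 ^ r % 48

/-- The key of a function. -/
def encF (f : ℕ → ℕ) : ℕ := ((List.range 48).map f).foldr (fun a acc => a + 48 * acc) 0

/-- The key of a word. -/
noncomputable def keyOf (l : List ℕ) : ℕ := encF (wperm digF4.tbl l)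

/-- The key of a product. -/
noncomputable def stepK (k i : ℕ) : ℕ := encF (fun r => digF4.tbl.refl i (dg k r))

/-- The key of the identity. -/
def K0 : ℕ := 500475413673933081365947375170236541986752187176686144151623853470025469964919344

theorem K0_mem : ∀ k ∈ [K0], k ∈ PT := by decide +kernel

theorem K0_dg : ∀ r, r < 48 → dg K0 r = r := by decide +kernel

theorem PT_step' : ∀ k ∈ PT, ∀ i, i < 4 → PTt.find (stepK k i) = true := by decide +kernel

theorem PT_step : ∀ k ∈ PT, ∀ i, i < 4 → stepK k i ∈ PT :=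
  fun k hk i hi => KT.find_sound _ _ (PT_step' k hk i hi)

theorem PT_inv : ∀ k ∈ PT, (∀ r, r < 48 → dg k (dg k r) = r) → k ∈ InvK := by decide +kernel

theorem InvW_keys : InvW.map keyOf = InvK := by decide +kernel

theorem InvW_idx : ∀ w ∈ InvW, ∀ i ∈ w, i < chevF4.rank := by decide +kernel

end Cfsg.Agent.Lib.Coll.F4Odd
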