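/-
`F₄(q)`, `q` odd: the kernel checks of the tables of the Weyl group, continued.
-/
import Cfsg.Agent.Lib.Coll.F4OddK

set_option autoImplicit false

namespace Cfsg.Agent.Lib.Coll.F4Odd

open Cfsg.Lie Cfsg.Agent.Lib.Chev Cfsg.Agent.Lib.Coll.G2Odd Cfsg.Agent.Lib.Coll.OddGen

/-- The roots with the same involution. -/
def R24 : List ℕ := [23, 24]

theorem R24_par : ∀ r ∈ R24, ∀ s, s < chevF4.nroots → (chevF4.pairing r s - chevF4.pairing 24 s) % 2 = 0 := by decide +kernel

theorem Lt24_R : ∀ l ∈ Lt24, wperm digF4.tbl l 24 ∈ R24 := by decide +kernel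

theorem Lt24_idx : ∀ l ∈ Lt24, ∀ i ∈ l, i < chevF4.rank := by decide +kernel

theorem Lt24_par : ∀ l ∈ Lt24, ∀ s, s < chevF4.nroots → (chevF4.pairing (wperm digF4.tbl l 24) s - chevF4.pairing 24 s) % 2 = 0 :=
  fun l hl s hs => R24_par _ (Lt24_R l hl) s hs

theorem Lt24_keys : Lt24.map keyOf = Lv24 := by decide +kernel

theorem Lv24_nodup : Lv24.Nodup := by decide +kernel

theorem PT_24 : ∀ k ∈ PT, (∀ r, r < 48 → (chevF4.pairing 24 (dg k r) - chevF4.pairing 24 r) % 2 = 0) → k ∈ Lv24 := by decide +kernel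

theorem Lt24_exp : Lt24.map (fun l => (Rl digF4.tbl chevF4 24 l).length) = List.replicate 1 0 ++ List.replicate 4 1 ++ List.replicate 8 2 ++ List.replicate 12 3 ++ List.replicate 15 4 ++ List.replicate 16 5 ++ List.replicate 15 6 ++ List.replicate 12 7 ++ List.replicate 8 8 ++ List.replicate 4 9 ++ List.replicate 1 10 := by decide +kernel

theorem S0_24 : (S0 chevF4 24).length = 10 := by decide +kernel

end Cfsg.Agent.Lib.Coll.F4Odd
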