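/-
`F₄(q)`, `q` odd: the kernel checks of the tables of the Weyl group, continued.
-/
import Cfsg.Agent.Lib.Coll.F4OddK2

set_option autoImplicit false

namespace Cfsg.Agent.Lib.Coll.F4Odd

open Cfsg.Lie Cfsg.Agent.Lib.Chev Cfsg.Agent.Lib.Coll.G2Odd Cfsg.Agent.Lib.Coll.OddGen

/-- The roots with the same involution. -/
def R27 : List ℕ := [3, 18, 19, 20, 27, 28, 29, 44]

theorem R27_par : ∀ r ∈ R27, ∀ s, s < chevF4.nroots → (chevF4.pairing r s - chevF4.pairing 27 s) % 2 = 0 := by decide +kernel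

theorem Lt27_R : ∀ l ∈ Lt27, wperm digF4.tbl l 27 ∈ R27 := by decide +kernel

theorem Lt27_idx : ∀ l ∈ Lt27, ∀ i ∈ l, i < chevF4.rank := by decide +kernel

theorem Lt27_par : ∀ l ∈ Lt27, ∀ s, s < chevF4.nroots → (chevF4.pairing (wperm digF4.tbl l 27) s - chevF4.pairing 27 s) % 2 = 0 :=
  fun l hl s hs => R27_par _ (Lt27_R l hl) s hs

theorem Lv27_nodup : Lv27.Nodup := by decide +kernel

theorem S0_27 : (S0 chevF4 27).length = 16 := by decide +kernel


end Cfsg.Agent.Lib.Coll.F4Odd
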