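/-
`F₄(q)`, `q` odd: the kernel checks of the tables of the Weyl group, continued.
-/
import Cfsg.Agent.Lib.Coll.F4OddK3

set_option autoImplicit false

namespace Cfsg.Agent.Lib.Coll.F4Odd

open Cfsg.Lie Cfsg.Agent.Lib.Chev Cfsg.Agent.Lib.Coll.G2Odd Cfsg.Agent.Lib.Coll.OddGen

/-- The parities of the pairings. -/
def B27 : ℕ := 2190433353600

theorem B27_eq : ∀ s, s < 48 → chevF4.pairing 27 s % 2 = ((B27 / 2 ^ s % 2 : ℕ) : ℤ) := by decide +kernel

theorem PT_27' : ∀ k ∈ PT, (∀ r, r < 48 → B27 / 2 ^ (dg k r) % 2 = B27 / 2 ^ r % 2) → k ∈ Lv27 := by decide +kernel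

theorem PT_27 : ∀ k ∈ PT, (∀ r, r < 48 → (chevF4.pairing 27 (dg k r) - chevF4.pairing 27 r) % 2 = 0) → k ∈ Lv27 := by
  intro k hk hp
  refine PT_27' k hk (fun r hr => ?_)
  have h1 := B27_eq _ (show dg k r < 48 from Nat.mod_lt _ (by norm_num))
  have h2 := B27_eq r hr
  have h3 := hp r hr
  omega

end Cfsg.Agent.Lib.Coll.F4Odd
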