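/-
`F₄(q)`, `q` odd: the kernel checks of the tables of the Weyl group, continued.
-/
import Cfsg.Agent.Lib.Coll.F4OddK4

set_option autoImplicit false

namespace Cfsg.Agent.Lib.Coll.F4Odd

open Cfsg.Lie Cfsg.Agent.Lib.Chev Cfsg.Agent.Lib.Coll.G2Odd Cfsg.Agent.Lib.Coll.OddGen

theorem Lt27_keys : Lt27.map keyOf = Lv27 := by decide +kernel

end Cfsg.Agent.Lib.Coll.F4Odd
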