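/-
`F₄(q)`, `q` odd: the kernel checks of the tables of the Weyl group, continued.
-/
import Cfsg.Agent.Lib.Coll.F4OddK5

set_option autoImplicit false

namespace Cfsg.Agent.Lib.Coll.F4Odd

open Cfsg.Lie Cfsg.Agent.Lib.Chev Cfsg.Agent.Lib.Coll.G2Odd Cfsg.Agent.Lib.Coll.OddGen

theorem Lt27_exp : Lt27.map (fun l => (Rl digF4.tbl chevF4 27 l).length) = List.replicate 1 0 ++ List.replicate 4 1 ++ List.replicate 9 2 ++ List.replicate 16 3 ++ List.replicate 24 4 ++ List.replicate 32 5 ++ List.replicate 39 6 ++ List.replicate 44 7 ++ List.replicate 46 8 ++ List.replicate 44 9 ++ List.replicate 39 10 ++ List.replicate 32 11 ++ List.replicate 24 12 ++ List.replicate 16 13 ++ List.replicate 9 14 ++ List.replicate 4 15 ++ List.replicate 1 16 := by decide +kernel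

end Cfsg.Agent.Lib.Coll.F4Odd
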