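/-
`F₄(q)`, `q` odd: the involutions of `N` and of `H`.
-/
import Cfsg.Agent.Lib.Coll.F4OddK6

set_option autoImplicit false

namespace Cfsg.Agent.Lib.Coll.F4Odd

open Cfsg.Lie Cfsg.Agent.Lib.Chev Cfsg.Agent.Lib.Coll.G2Odd Cfsg.Agent.Lib.Coll.OddGen

lemma dg_lt (k r : ℕ) : dg k r < 48 := Nat.mod_lt _ (by norm_num)

lemma digits (L : List ℕ) (hL : ∀ a ∈ L, a < 48) (r : ℕ) :
    (L.foldr (fun a acc => a + 48 * acc) 0) / 48 ^ r % 48 = L.getD r 0 := by
  induction L generalizing r with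
  | nil => simp
  | cons a t ih =>
    have ha := hL a (by simp)
    rw [List.foldr_cons]
    cases r with
    | zero =>
      simp only [pow_zero, Nat.div_one, List.getD_cons_zero]
      omega
    | succ r =>
      have e : (a + 48 * t.foldr (fun a acc => a + 48 * acc) 0) / 48 ^ (r + 1) = (t.foldr (fun a acc => a + 48 * acc) 0) / 48 ^ r := by
        rw [pow_succ', ← Nat.div_div_eq_div_mul]
        congr 1
        omega
      rw [e, ih (fun b hb => hL b (List.mem_cons_of_mem _ hb))]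
      simp

lemma dg_enc {f : ℕ → ℕ} (hf : ∀ s, s < 48 → f s < 48) {r : ℕ} (hr : r < 48) : dg (encF f) r = f r := by
  unfold dg encF
  rw [digits _ (by
    intro a ha
    obtain ⟨s, hs, rfl⟩ := List.mem_map.1 ha
    exact hf s (List.mem_range.1 hs))]
  rw [List.getD_eq_getElem _ _ (by simpa using hr)]
  simp

lemma canon (l : List ℕ) (hl : ∀ i ∈ l, i < chevF4.rank) : ∃ k ∈ PT, ∀ r, r < 48 → wperm digF4.tbl l r = dg k r := by
  induction l with
  | nil => exact ⟨K0, K0_mem K0 (by simp), fun r hr => (K0_dg r hr).symm⟩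
  | cons i l ih =>
    obtain ⟨k, hk, e⟩ := ih (fun j hj => hl j (List.mem_cons_of_mem _ hj))
    have hi' := hl i (by simp)
    have hi : i < 4 := by
      rw [rank4] at hi'
      exact hi'
    refine ⟨stepK k i, PT_step k hk i hi, fun r hr => ?_⟩
    rw [wperm_cons, e r hr, stepK, dg_enc _ hr]
    intro s _
    have h1 := hF.refl_lt' (s := dg k s) hi' (by rw [n48]; exact dg_lt k s)
    rw [n48] at h1
    exact h1

lemma keyOf_dg {w : List ℕ} (hw : ∀ i ∈ w, i < chevF4.rank) {r : ℕ} (hr : r < 48) : dg (keyOf w) r = wperm digF4.tbl w r := by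
  refine dg_enc (fun s hs => ?_) hr
  have h1 := hF.wperm_lt hw (r := s) (by rw [n48]; exact hs)
  rw [n48] at h1
  exact h1

variable {F : Type*} [Field F]

/-- Involutions of `N` are conjugate into `H`. -/
theorem N_to_H [Fintype F] (hOdd : Odd (Fintype.card F)) {n : GL chevF4.Idx F} (hn : n ∈ chevF4.monomialSubgroup F)
    (hsq : n * n = 1) : ∃ g ∈ chevF4.group F, g * n * g⁻¹ ∈ chevF4.diagonalSubgroup F := by
  obtain ⟨h, hh, l, hl, rfl⟩ := hF.N_form hn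
  obtain ⟨k, hk, ev⟩ := canon l hl
  have hinv : ∀ r, r < 48 → dg k (dg k r) = r := by
    intro r hr
    have h1 := perm_invol hF hh hl hsq (r := r) (by rw [n48]; exact hr)
    have h3 : wperm digF4.tbl l r < 48 := by
      have h2 := hF.wperm_lt hl (r := r) (by rw [n48]; exact hr)
      rw [n48] at h2
      exact h2
    rw [← ev r hr, ← ev _ h3]
    exact h1
  have hkI := PT_inv k hk hinv
  rw [← InvW_keys] at hkI
  obtain ⟨w, hw, rfl⟩ := List.mem_map.1 hkI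
  have hwi := InvW_idx w hw
  obtain ⟨z, hz, ez⟩ := over_perm (F := F) hF hl hwi (fun r hr => by
    have hr' : r < 48 := by
      rw [n48] at hr
      exact hr
    rw [ev r hr', keyOf_dg hwi hr'])
  have e0 : h * hF.nProd l = (h * z) * hF.nProd w := by rw [ez, mul_assoc]
  rw [e0] at hsq ⊢
  exact Q_all hOdd hw _ (Subgroup.mul_mem _ hh hz) hsq

lemma neg1_par (hn : (-1 : F) ≠ 0) {a b : ℤ} (h : (a - b) % 2 = 0) : (-1 : F) ^ a = (-1 : F) ^ b := by
  obtain ⟨k, hk⟩ := Int.dvd_of_emod_eq_zero h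
  have e : a = b + 2 * k := by omega
  rw [e, zpow_add₀ hn, zpow_mul]
  simp

lemma mH4_coe {c0 c1 c2 c3 : F} (h0 : c0 ≠ 0) (h1 : c1 ≠ 0) (h2 : c2 ≠ 0) (h3 : c3 ≠ 0) :
    ((mH4 c0 c1 c2 c3 h0 h1 h2 h3 : GL chevF4.Idx F) : Matrix chevF4.Idx chevF4.Idx F) = diagM chevF4 F (chi4 c0 c1 c2 c3) := by
  unfold mH4
  rw [Units.val_mul, Units.val_mul, Units.val_mul, hF.hU_coe, hF.hU_coe, hF.hU_coe, hF.hU_coe, hF.hMat_eq lt33 h0, hF.hMat_eq lt27 h1,
    hF.hMat_eq lt25 h2, hF.hMat_eq lt24 h3, diagM_mul, diagM_mul, diagM_mul]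
  rfl

lemma neg1_ne' : (-1 : F) ≠ 0 := neg_ne_zero.2 one_ne_zero

lemma mH4_eq {c0 c1 c2 c3 : F} (h0 : c0 ≠ 0) (h1 : c1 ≠ 0) (h2 : c2 ≠ 0) (h3 : c3 ≠ 0) (e0 e1 e2 e3 : ℤ)
    (hc0 : c0 = (-1) ^ e0) (hc1 : c1 = (-1) ^ e1) (hc2 : c2 = (-1) ^ e2) (hc3 : c3 = (-1) ^ e3) {r : ℕ} (hr : r < chevF4.nroots)
    (hpar : ∀ s, s < chevF4.nroots → (e0 * chevF4.pairing 33 s + (e1 * chevF4.pairing 27 s + (e2 * chevF4.pairing 25 s + e3 * chevF4.pairing 24 s)) - chevF4.pairing r s) % 2 = 0) :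
    mH4 c0 c1 c2 c3 h0 h1 h2 h3 = hF.hU hr neg1_ne' := by
  apply Units.ext
  rw [mH4_coe, hF.hU_coe, hF.hMat_eq hr neg1_ne']
  apply Tbl.Good2.diagM_congr
  intro s hs
  show chi4 c0 c1 c2 c3 s = (-1 : F) ^ chevF4.pairing r s
  unfold chi4
  rw [hc0, hc1, hc2, hc3, ← zpow_mul, ← zpow_mul, ← zpow_mul, ← zpow_mul, ← zpow_add₀ neg1_ne', ← zpow_add₀ neg1_ne', ← zpow_add₀ neg1_ne']
  exact neg1_par neg1_ne' (hpar s hs)

lemma caseX {c0 c1 c2 c3 : F} (h0 : c0 ≠ 0) (h1 : c1 ≠ 0) (h2 : c2 ≠ 0) (h3 : c3 ≠ 0) (e0 e1 e2 e3 : ℤ)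
    (hc0 : c0 = (-1) ^ e0) (hc1 : c1 = (-1) ^ e1) (hc2 : c2 = (-1) ^ e2) (hc3 : c3 = (-1) ^ e3) {r tgt : ℕ} {x : List ℕ}
    (hx : ∀ i ∈ x, i < chevF4.rank) (hr : r < chevF4.nroots) (htgt : tgt < chevF4.nroots) (ew : wperm digF4.tbl x tgt = r)
    (hpar : ∀ s, s < chevF4.nroots → (e0 * chevF4.pairing 33 s + (e1 * chevF4.pairing 27 s + (e2 * chevF4.pairing 25 s + e3 * chevF4.pairing 24 s)) - chevF4.pairing r s) % 2 = 0) :
    ∃ g ∈ chevF4.group F, g * mH4 c0 c1 c2 c3 h0 h1 h2 h3 * g⁻¹ = tt hF htgt := by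
  refine ⟨(hF.nProd x)⁻¹, Subgroup.inv_mem _ (hF.N_le_group (hF.nProd_mem_N hx)), ?_⟩
  rw [mH4_eq h0 h1 h2 h3 e0 e1 e2 e3 hc0 hc1 hc2 hc3 hr hpar]
  subst ew
  have e := nProd_conj_hU' (F := F) hF hx htgt neg1_ne'
  have e' : hF.hU hr (neg1_ne' (F := F)) = hF.nProd x * tt hF htgt * (hF.nProd x)⁻¹ := e.symm
  rw [e']
  group

lemma hU_1 {r : ℕ} (hr : r < chevF4.nroots) (h1 : (1 : F) ≠ 0) : hF.hU hr h1 = 1 := by
  apply Units.ext
  rw [hF.hU_coe, hF.hMat_eq hr h1]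
  simp only [one_zpow, Units.val_one]
  exact diagM_one

lemma lt37 : 37 < chevF4.nroots := by decide +kernel
lemma lt44 : 44 < chevF4.nroots := by decide +kernel
lemma lt46 : 46 < chevF4.nroots := by decide +kernel
lemma lt47 : 47 < chevF4.nroots := by decide +kernel

lemma chi_sq {c0 c1 c2 c3 : F} (h0 : c0 ≠ 0) (h1 : c1 ≠ 0) (h2 : c2 ≠ 0) (h3 : c3 ≠ 0)
    (hsq : mH4 c0 c1 c2 c3 h0 h1 h2 h3 * mH4 c0 c1 c2 c3 h0 h1 h2 h3 = 1) {s : ℕ} (hs : s < chevF4.nroots) :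
    chi4 c0 c1 c2 c3 s * chi4 c0 c1 c2 c3 s = 1 := by
  have key := conj_conj_of_sq (hF.xU hs (1 : F)) hsq
  rw [mH4_conj h0 h1 h2 h3 hs, mH4_conj h0 h1 h2 h3 hs] at key
  have e := xU_inj hF hs key
  rw [mul_one] at e
  exact e

lemma chi_eval (c0 c1 c2 c3 : F) {s : ℕ} {a b c d : ℤ} (e0 : chevF4.pairing 33 s = a) (e1 : chevF4.pairing 27 s = b)
    (e2 : chevF4.pairing 25 s = c) (e3 : chevF4.pairing 24 s = d) :
    chi4 c0 c1 c2 c3 s = c0 ^ a * (c1 ^ b * (c2 ^ c * c3 ^ d)) := by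
  unfold chi4
  rw [e0, e1, e2, e3]

/-- The involutions of `H`. -/
theorem caseH4 {c0 c1 c2 c3 : F} (h0 : c0 ≠ 0) (h1 : c1 ≠ 0) (h2 : c2 ≠ 0) (h3 : c3 ≠ 0)
    (hsq : mH4 c0 c1 c2 c3 h0 h1 h2 h3 * mH4 c0 c1 c2 c3 h0 h1 h2 h3 = 1) (hne : mH4 c0 c1 c2 c3 h0 h1 h2 h3 ≠ 1) :
    (∃ g ∈ chevF4.group F, g * mH4 c0 c1 c2 c3 h0 h1 h2 h3 * g⁻¹ = tt hF lt27) ∨
    (∃ g ∈ chevF4.group F, g * mH4 c0 c1 c2 c3 h0 h1 h2 h3 * g⁻¹ = tt hF lt24) := by
  have s44 := chi_sq h0 h1 h2 h3 hsq lt44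
  have s47 := chi_sq h0 h1 h2 h3 hsq lt47
  have s37 := chi_sq h0 h1 h2 h3 hsq lt37
  have s46 := chi_sq h0 h1 h2 h3 hsq lt46
  rw [chi_eval c0 c1 c2 c3 (a := 1) (b := 0) (c := 0) (d := 0) (by decide +kernel) (by decide +kernel) (by decide +kernel) (by decide +kernel)] at s44
  rw [chi_eval c0 c1 c2 c3 (a := 0) (b := 0) (c := 0) (d := 1) (by decide +kernel) (by decide +kernel) (by decide +kernel) (by decide +kernel)] at s47
  rw [chi_eval c0 c1 c2 c3 (a := 0) (b := 1) (c := 0) (d := -1) (by decide +kernel) (by decide +kernel) (by decide +kernel) (by decide +kernel)] at s37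
  rw [chi_eval c0 c1 c2 c3 (a := 0) (b := 0) (c := 1) (d := -1) (by decide +kernel) (by decide +kernel) (by decide +kernel) (by decide +kernel)] at s46
  simp only [zpow_zero, zpow_one, one_mul, mul_one, zpow_neg] at s44 s47 s37 s46
  have e0 : c0 * c0 = 1 := s44
  have e3 : c3 * c3 = 1 := s47
  have e1 : c1 * c1 = 1 := by
    have e4 : c3⁻¹ * c3⁻¹ = 1 := by
      rw [← mul_inv, e3, inv_one]
    have e5 : c1 * c3⁻¹ * (c1 * c3⁻¹) = (c1 * c1) * (c3⁻¹ * c3⁻¹) := by ring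
    rw [e5, e4, mul_one] at s37
    exact s37
  have e2 : c2 * c2 = 1 := by
    have e4 : c3⁻¹ * c3⁻¹ = 1 := by
      rw [← mul_inv, e3, inv_one]
    have e5 : c2 * c3⁻¹ * (c2 * c3⁻¹) = (c2 * c2) * (c3⁻¹ * c3⁻¹) := by ring
    rw [e5, e4, mul_one] at s46
    exact s46
  rcases mul_self_eq_one_iff.1 e0 with rfl | rfl <;> rcases mul_self_eq_one_iff.1 e1 with rfl | rfl <;>
    rcases mul_self_eq_one_iff.1 e2 with rfl | rfl <;> rcases mul_self_eq_one_iff.1 e3 with rfl | rfl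
  · exfalso
    apply hne
    unfold mH4
    rw [hU_1, hU_1, hU_1, hU_1]
    simp
  · exact Or.inr (caseX h0 h1 h2 h3 0 0 0 1 (by simp) (by simp) (by simp) (by simp) (r := 23) (x := [3]) (by decide +kernel) (by decide +kernel) lt24 (by decide +kernel) (by decide +kernel))
  · exact Or.inr (caseX h0 h1 h2 h3 0 0 1 0 (by simp) (by simp) (by simp) (by simp) (r := 22) (x := [2, 3, 2]) (by decide +kernel) (by decide +kernel) lt24 (by decide +kernel) (by decide +kernel))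
  · exact Or.inr (caseX h0 h1 h2 h3 0 0 1 1 (by simp) (by simp) (by simp) (by simp) (r := 21) (x := [2, 3]) (by decide +kernel) (by decide +kernel) lt24 (by decide +kernel) (by decide +kernel))
  · exact Or.inl (caseX h0 h1 h2 h3 0 1 0 0 (by simp) (by simp) (by simp) (by simp) (r := 3) (x := [0, 1, 2, 3, 1, 2, 0, 1]) (by decide +kernel) (by decide +kernel) lt27 (by decide +kernel) (by decide +kernel))
  · exact Or.inr (caseX h0 h1 h2 h3 0 1 0 1 (by simp) (by simp) (by simp) (by simp) (r := 15) (x := [2, 1, 2, 3]) (by decide +kernel) (by decide +kernel) lt24 (by decide +kernel) (by decide +kernel))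
  · exact Or.inr (caseX h0 h1 h2 h3 0 1 1 0 (by simp) (by simp) (by simp) (by simp) (r := 17) (x := [1, 2, 3, 2]) (by decide +kernel) (by decide +kernel) lt24 (by decide +kernel) (by decide +kernel))
  · exact Or.inr (caseX h0 h1 h2 h3 0 1 1 1 (by simp) (by simp) (by simp) (by simp) (r := 16) (x := [1, 2, 3]) (by decide +kernel) (by decide +kernel) lt24 (by decide +kernel) (by decide +kernel))
  · exact Or.inl (caseX h0 h1 h2 h3 1 0 0 0 (by simp) (by simp) (by simp) (by simp) (r := 8) (x := [2, 3, 1, 2, 0, 1]) (by decide +kernel) (by decide +kernel) lt27 (by decide +kernel) (by decide +kernel))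
  · exact Or.inr (caseX h0 h1 h2 h3 1 0 0 1 (by simp) (by simp) (by simp) (by simp) (r := 2) (x := [1, 2, 0, 1, 2, 3]) (by decide +kernel) (by decide +kernel) lt24 (by decide +kernel) (by decide +kernel))
  · exact Or.inr (caseX h0 h1 h2 h3 1 0 1 0 (by simp) (by simp) (by simp) (by simp) (r := 0) (x := [3, 2, 1, 2, 0, 1, 2, 3]) (by decide +kernel) (by decide +kernel) lt24 (by decide +kernel) (by decide +kernel))
  · exact Or.inr (caseX h0 h1 h2 h3 1 0 1 1 (by simp) (by simp) (by simp) (by simp) (r := 1) (x := [2, 1, 2, 0, 1, 2, 3]) (by decide +kernel) (by decide +kernel) lt24 (by decide +kernel) (by decide +kernel))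
  · exact Or.inl (caseX h0 h1 h2 h3 1 1 0 0 (by simp) (by simp) (by simp) (by simp) (r := 7) (x := [1, 2, 3, 1, 2, 0, 1]) (by decide +kernel) (by decide +kernel) lt27 (by decide +kernel) (by decide +kernel))
  · exact Or.inr (caseX h0 h1 h2 h3 1 1 0 1 (by simp) (by simp) (by simp) (by simp) (r := 4) (x := [2, 0, 1, 2, 3]) (by decide +kernel) (by decide +kernel) lt24 (by decide +kernel) (by decide +kernel))
  · exact Or.inr (caseX h0 h1 h2 h3 1 1 1 0 (by simp) (by simp) (by simp) (by simp) (r := 6) (x := [0, 1, 2, 3, 2]) (by decide +kernel) (by decide +kernel) lt24 (by decide +kernel) (by decide +kernel))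
  · exact Or.inr (caseX h0 h1 h2 h3 1 1 1 1 (by simp) (by simp) (by simp) (by simp) (r := 5) (x := [0, 1, 2, 3]) (by decide +kernel) (by decide +kernel) lt24 (by decide +kernel) (by decide +kernel))

end Cfsg.Agent.Lib.Coll.F4Odd
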