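/-
`F₄(q)`, `q` odd: the two classes of involutions and their centralisers.
-/
import Cfsg.Agent.Lib.Coll.F4OddB

set_option autoImplicit false

namespace Cfsg.Agent.Lib.Coll.F4Odd

open Cfsg.Lie Cfsg.Agent.Lib.Chev Cfsg.Agent.Lib.Coll.G2Odd Cfsg.Agent.Lib.Coll.OddGen

lemma lt_ok_of {rt : ℕ} {Lt : List (List ℕ)} {Lv : List ℕ} (hidx : ∀ l ∈ Lt, ∀ i ∈ l, i < chevF4.rank)
    (hpar : ∀ l ∈ Lt, ∀ s, s < chevF4.nroots → (chevF4.pairing (wperm digF4.tbl l rt) s - chevF4.pairing rt s) % 2 = 0)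
    (hk : Lt.map keyOf = Lv) (hnd : Lv.Nodup)
    (hPT : ∀ k ∈ PT, (∀ r, r < 48 → (chevF4.pairing rt (dg k r) - chevF4.pairing rt r) % 2 = 0) → k ∈ Lv) :
    LtOk digF4.tbl chevF4 rt Lt where
  idx := hidx
  par := hpar
  dist := by
    have h1 : (Lt.map keyOf).Nodup := by
      rw [hk]
      exact hnd
    have h2 := List.pairwise_map.1 h1
    refine h2.imp ?_
    intro l l' hne
    by_contra hcon
    push Not at hcon
    apply hne
    unfold keyOf encF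
    congr 1
    exact List.map_congr_left (fun r hr => hcon r (by rw [n48]; exact List.mem_range.1 hr))
  comp := by
    intro l hl hp
    obtain ⟨k, hk', ev⟩ := canon l hl
    have hmem := hPT k hk' (fun r hr => by
      rw [← ev r hr]
      exact hp r (by rw [n48]; exact hr))
    rw [← hk] at hmem
    obtain ⟨l', hl', rfl⟩ := List.mem_map.1 hmem
    refine ⟨l', hl', fun r hr => ?_⟩
    have hr' : r < 48 := by
      rw [n48] at hr
      exact hr
    rw [ev r hr', keyOf_dg (hidx l' hl') hr']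

theorem ok27 : LtOk digF4.tbl chevF4 27 Lt27 := lt_ok_of Lt27_idx Lt27_par Lt27_keys Lv27_nodup PT_27

theorem ok24 : LtOk digF4.tbl chevF4 24 Lt24 := lt_ok_of Lt24_idx Lt24_par Lt24_keys Lv24_nodup PT_24

variable {F : Type*} [Field F]

lemma card_H4 [Fintype F] : Nat.card ↥(chevF4.diagonalSubgroup F) = (Fintype.card F - 1) ^ 4 := by
  have h3 : 1 * Nat.card ↥(chevF4.diagonalSubgroup F) = (Fintype.card F - 1) ^ 4 :=
    card_H_list (F := F) rfl (chevF4, 1) (by simp)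
  simpa using h3

lemma pow_sub2 (k : ℕ) : (k + 1) ^ 2 - 1 = k * (k + 2) := by
  have : (k + 1) ^ 2 = k * (k + 2) + 1 := by ring
  omega

lemma pow_sub4 (k : ℕ) : (k + 1) ^ 4 - 1 = k * ((k + 1) ^ 3 + (k + 1) ^ 2 + (k + 1) + 1) := by
  have : (k + 1) ^ 4 = k * ((k + 1) ^ 3 + (k + 1) ^ 2 + (k + 1) + 1) + 1 := by ring
  omega

lemma pow_sub6 (k : ℕ) : (k + 1) ^ 6 - 1 = k * ((k + 1) ^ 5 + (k + 1) ^ 4 + (k + 1) ^ 3 + (k + 1) ^ 2 + (k + 1) + 1) := by
  have : (k + 1) ^ 6 = k * ((k + 1) ^ 5 + (k + 1) ^ 4 + (k + 1) ^ 3 + (k + 1) ^ 2 + (k + 1) + 1) + 1 := by ring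
  omega

lemma pow_sub8 (k : ℕ) : (k + 1) ^ 8 - 1 = k * ((k + 1) ^ 7 + (k + 1) ^ 6 + (k + 1) ^ 5 + (k + 1) ^ 4 + (k + 1) ^ 3 + (k + 1) ^ 2 + (k + 1) + 1) := by
  have : (k + 1) ^ 8 = k * ((k + 1) ^ 7 + (k + 1) ^ 6 + (k + 1) ^ 5 + (k + 1) ^ 4 + (k + 1) ^ 3 + (k + 1) ^ 2 + (k + 1) + 1) + 1 := by ring
  omega

theorem card27 [Fintype F] (hOdd : Odd (Fintype.card F)) :
    Nat.card ↥(KC (F := F) hF lt27) = Fintype.card F ^ 16 * (Fintype.card F ^ 2 - 1) * (Fintype.card F ^ 4 - 1) * (Fintype.card F ^ 6 - 1) * (Fintype.card F ^ 8 - 1) := by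
  have h2 := two_ne hOdd
  rw [card_KC' hF lt27 h2 ok27, S0_27, card_H4]
  have e : (Lt27.map fun l => Fintype.card F ^ (Rl digF4.tbl chevF4 27 l).length) =
      (Lt27.map fun l => (Rl digF4.tbl chevF4 27 l).length).map (fun n => Fintype.card F ^ n) :=
    (List.map_map).symm
  rw [e, Lt27_exp]
  simp only [List.map_append, List.map_replicate, List.sum_append, List.sum_replicate, smul_eq_mul]
  obtain ⟨q, hq⟩ : ∃ q, q = Fintype.card F := ⟨_, rfl⟩
  rw [← hq]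
  have h1 : 1 ≤ q := by
    rw [hq]
    exact Fintype.card_pos
  obtain ⟨k, rfl⟩ : ∃ k, q = k + 1 := ⟨q - 1, by omega⟩
  rw [pow_sub2, pow_sub4, pow_sub6, pow_sub8]
  simp only [Nat.add_sub_cancel]
  ring

theorem card24 [Fintype F] (hOdd : Odd (Fintype.card F)) :
    Nat.card ↥(KC (F := F) hF lt24) = Fintype.card F ^ 10 * (Fintype.card F ^ 2 - 1) ^ 2 * (Fintype.card F ^ 4 - 1) * (Fintype.card F ^ 6 - 1) := by
  have h2 := two_ne hOdd
  rw [card_KC' hF lt24 h2 ok24, S0_24, card_H4]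
  have e : (Lt24.map fun l => Fintype.card F ^ (Rl digF4.tbl chevF4 24 l).length) =
      (Lt24.map fun l => (Rl digF4.tbl chevF4 24 l).length).map (fun n => Fintype.card F ^ n) :=
    (List.map_map).symm
  rw [e, Lt24_exp]
  simp only [List.map_append, List.map_replicate, List.sum_append, List.sum_replicate, smul_eq_mul]
  obtain ⟨q, hq⟩ : ∃ q, q = Fintype.card F := ⟨_, rfl⟩
  rw [← hq]
  have h1 : 1 ≤ q := by
    rw [hq]
    exact Fintype.card_pos
  obtain ⟨k, rfl⟩ : ∃ k, q = k + 1 := ⟨q - 1, by omega⟩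
  rw [pow_sub2, pow_sub4, pow_sub6]
  simp only [Nat.add_sub_cancel]
  ring

/-- The involution as an element of the group. -/
noncomputable def tS {rt : ℕ} (hrt : rt < chevF4.nroots) : ↥(chevF4.group F) :=
  ⟨tt hF hrt, hF.H_le_group (tt_mem hF hrt)⟩

lemma card_cenS {rt : ℕ} (hrt : rt < chevF4.nroots) :
    Nat.card (Subgroup.centralizer ({tS (F := F) hrt} : Set ↥(chevF4.group F))) = Nat.card ↥(KC (F := F) hF hrt) := by
  refine Nat.card_congr ⟨fun g => ⟨g.1.1, g.1.2, ?_⟩, fun g => ⟨⟨g.1, g.2.1⟩, ?_⟩, fun _ => rfl, fun _ => rfl⟩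
  · have e := Subgroup.mem_centralizer_singleton_iff.1 g.2
    have e1 : g.1.1 * tt hF hrt = tt hF hrt * g.1.1 := congrArg Subtype.val e
    rw [← e1]
    group
  · rw [Subgroup.mem_centralizer_singleton_iff]
    apply Subtype.ext
    show g.1 * tt hF hrt = tt hF hrt * g.1
    have e1 := g.2.2
    rw [mul_inv_eq_iff_eq_mul] at e1
    exact e1.symm

lemma tt_sq {rt : ℕ} (hrt : rt < chevF4.nroots) : tt (F := F) hF hrt * tt hF hrt = 1 := by
  apply Units.ext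
  rw [Units.val_mul, tt_coe, diagM_mul, Units.val_one]
  have e : (fun s => (-1 : F) ^ chevF4.pairing rt s * (-1 : F) ^ chevF4.pairing rt s) = fun _ => 1 := by
    funext s
    rw [← mul_zpow]
    simp
  rw [e]
  exact diagM_one

lemma tt_ne (h2 : (2 : F) ≠ 0) {rt s : ℕ} (hrt : rt < chevF4.nroots) (hs : s < chevF4.nroots) (hodd : chevF4.pairing rt s % 2 = 1) :
    tt (F := F) hF hrt ≠ 1 := by
  intro e
  have e1 := tt_conj (F := F) hF hrt hs (1 : F)
  rw [e, neg1O hodd] at e1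
  simp only [one_mul, inv_one, mul_one] at e1
  have e2 := xU_inj hF hs e1
  apply h2
  linear_combination e2

lemma order_tS (h2 : (2 : F) ≠ 0) {rt s : ℕ} (hrt : rt < chevF4.nroots) (hs : s < chevF4.nroots) (hodd : chevF4.pairing rt s % 2 = 1) :
    orderOf (tS (F := F) hrt) = 2 := by
  refine orderOf_eq_prime ?_ ?_
  · rw [pow_two]
    exact Subtype.ext (tt_sq hrt)
  · intro e
    exact tt_ne h2 hrt hs hodd (congrArg Subtype.val e)

lemma card_cen_conj {K : Type*} [Group K] {a b : K} (h : IsConj a b) :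
    Nat.card (Subgroup.centralizer ({a} : Set K)) = Nat.card (Subgroup.centralizer ({b} : Set K)) := by
  obtain ⟨c, rfl⟩ := isConj_iff.1 h
  refine Nat.card_congr ⟨fun g => ⟨c * g.1 * c⁻¹, ?_⟩, fun g => ⟨c⁻¹ * g.1 * c, ?_⟩, ?_, ?_⟩
  · rw [Subgroup.mem_centralizer_singleton_iff]
    have e : g.1 * a = a * g.1 := Subgroup.mem_centralizer_singleton_iff.1 g.2
    calc c * g.1 * c⁻¹ * (c * a * c⁻¹) = c * (g.1 * a) * c⁻¹ := by group
      _ = c * (a * g.1) * c⁻¹ := by rw [e]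
      _ = c * a * c⁻¹ * (c * g.1 * c⁻¹) := by group
  · rw [Subgroup.mem_centralizer_singleton_iff]
    have e : g.1 * (c * a * c⁻¹) = (c * a * c⁻¹) * g.1 := Subgroup.mem_centralizer_singleton_iff.1 g.2
    calc c⁻¹ * g.1 * c * a = c⁻¹ * (g.1 * (c * a * c⁻¹)) * c := by group
      _ = c⁻¹ * ((c * a * c⁻¹) * g.1) * c := by rw [e]
      _ = a * (c⁻¹ * g.1 * c) := by group
  · intro g
    apply Subtype.ext
    show c⁻¹ * (c * g.1 * c⁻¹) * c = g.1
    group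
  · intro g
    apply Subtype.ext
    show c * (c⁻¹ * g.1 * c) * c⁻¹ = g.1
    group

/-- The classes of involutions. -/
theorem inv_class [Fintype F] (hOdd : Odd (Fintype.card F)) {u : GL chevF4.Idx F} (hu : u ∈ chevF4.group F) (hsq : u * u = 1) (hne : u ≠ 1) :
    (∃ g ∈ chevF4.group F, g * u * g⁻¹ = tt hF lt27) ∨ (∃ g ∈ chevF4.group F, g * u * g⁻¹ = tt hF lt24) := by
  have hodd : ∀ v ∈ chevF4.posUnipotent F, Odd (orderOf v) := by
    intro v hv
    have e1 : orderOf v ∣ Nat.card (chevF4.posUnipotent F) := Subgroup.orderOf_dvd_natCard _ hv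
    rw [hF.card_U, Nat.card_eq_fintype_card] at e1
    exact Odd.of_dvd_nat (hOdd.pow) e1
  obtain ⟨g, hg, n, hn, e, hnn⟩ := inv_to_N hF hodd hu hsq
  obtain ⟨g', hg', hm⟩ := N_to_H hOdd hn hnn
  obtain ⟨c0, c1, c2, c3, h0, h1, h2, h3, em⟩ := H_coords4 hm
  have hsq' : mH4 c0 c1 c2 c3 h0 h1 h2 h3 * mH4 c0 c1 c2 c3 h0 h1 h2 h3 = 1 := by
    rw [← em]
    exact conj_sq_one hnn
  have hne' : mH4 c0 c1 c2 c3 h0 h1 h2 h3 ≠ 1 := by
    rw [← em, ← e]
    exact conj_ne_one (conj_ne_one hne)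
  rcases caseH4 h0 h1 h2 h3 hsq' hne' with ⟨g₂, hg₂, e₂⟩ | ⟨g₂, hg₂, e₂⟩
  · left
    refine ⟨g₂ * g' * g, Subgroup.mul_mem _ (Subgroup.mul_mem _ hg₂ hg') hg, ?_⟩
    rw [← e₂, ← em, ← e]
    group
  · right
    refine ⟨g₂ * g' * g, Subgroup.mul_mem _ (Subgroup.mul_mem _ hg₂ hg') hg, ?_⟩
    rw [← e₂, ← em, ← e]
    group

lemma conj_of_eq {a : ↥(chevF4.group F)} {b : GL chevF4.Idx F} {hb : b ∈ chevF4.group F}
    (h : ∃ g ∈ chevF4.group F, g * (a : GL chevF4.Idx F) * g⁻¹ = b) : IsConj a ⟨b, hb⟩ := by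
  obtain ⟨g, hg, e⟩ := h
  rw [isConj_iff]
  exact ⟨⟨g, hg⟩, Subtype.ext e⟩

/-- The main theorem. -/
theorem main [Fintype F] (hOdd : Odd (Fintype.card F)) :
    ∃ s t : ↥(chevF4.group F), orderOf s = 2 ∧ orderOf t = 2 ∧ ¬ IsConj s t ∧
      (∀ u : ↥(chevF4.group F), orderOf u = 2 → IsConj u s ∨ IsConj u t) ∧
      Nat.card (Subgroup.centralizer ({s} : Set ↥(chevF4.group F))) = Fintype.card F ^ 16 * (Fintype.card F ^ 2 - 1) * (Fintype.card F ^ 4 - 1) * (Fintype.card F ^ 6 - 1) * (Fintype.card F ^ 8 - 1) ∧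
      Nat.card (Subgroup.centralizer ({t} : Set ↥(chevF4.group F))) = Fintype.card F ^ 10 * (Fintype.card F ^ 2 - 1) ^ 2 * (Fintype.card F ^ 4 - 1) * (Fintype.card F ^ 6 - 1) := by
  have h2 := two_ne hOdd
  have hs := (card_cenS (F := F) lt27).trans (card27 hOdd)
  have ht := (card_cenS (F := F) lt24).trans (card24 hOdd)
  refine ⟨tS lt27, tS lt24, order_tS h2 lt27 lt33 (by decide +kernel), order_tS h2 lt24 lt25 (by decide +kernel), ?_, ?_, hs, ht⟩
  · intro hc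
    have e := card_cen_conj hc
    rw [hs, ht] at e
    obtain ⟨q, hq⟩ : ∃ q, q = Fintype.card F := ⟨_, rfl⟩
    rw [← hq] at e
    have h1 : 1 < q := by
      rw [hq]
      exact Fintype.one_lt_card
    obtain ⟨k, rfl⟩ : ∃ k, q = k + 1 := ⟨q - 1, by omega⟩
    have hk : 0 < k := by omega
    rw [pow_sub2, pow_sub4, pow_sub6, pow_sub8] at e
    obtain ⟨S4, hS4⟩ : ∃ S4, S4 = (k + 1) ^ 3 + (k + 1) ^ 2 + (k + 1) + 1 := ⟨_, rfl⟩
    obtain ⟨S6, hS6⟩ : ∃ S6, S6 = (k + 1) ^ 5 + (k + 1) ^ 4 + (k + 1) ^ 3 + (k + 1) ^ 2 + (k + 1) + 1 := ⟨_, rfl⟩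
    obtain ⟨S8, hS8⟩ : ∃ S8, S8 = (k + 1) ^ 7 + (k + 1) ^ 6 + (k + 1) ^ 5 + (k + 1) ^ 4 + (k + 1) ^ 3 + (k + 1) ^ 2 + (k + 1) + 1 := ⟨_, rfl⟩
    rw [← hS4, ← hS6, ← hS8] at e
    have hS4p : 0 < S4 := by rw [hS4]; positivity
    have hS6p : 0 < S6 := by rw [hS6]; positivity
    have hX : 0 < (k + 1) ^ 10 * (k * (k + 2)) * (k * S4) * (k * S6) :=
      Nat.mul_pos (Nat.mul_pos (Nat.mul_pos (by positivity) (Nat.mul_pos hk (by omega))) (Nat.mul_pos hk hS4p)) (Nat.mul_pos hk hS6p)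
    have e2 : ((k + 1) ^ 10 * (k * (k + 2)) * (k * S4) * (k * S6)) * ((k + 1) ^ 6 * (k * S8)) =
        ((k + 1) ^ 10 * (k * (k + 2)) * (k * S4) * (k * S6)) * (k * (k + 2)) := by
      calc ((k + 1) ^ 10 * (k * (k + 2)) * (k * S4) * (k * S6)) * ((k + 1) ^ 6 * (k * S8))
          = (k + 1) ^ 16 * (k * (k + 2)) * (k * S4) * (k * S6) * (k * S8) := by ring
        _ = (k + 1) ^ 10 * (k * (k + 2)) ^ 2 * (k * S4) * (k * S6) := e
        _ = _ := by ring
    have e3 := Nat.eq_of_mul_eq_mul_left hX e2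
    have e4 : (k + 1) ^ 6 * S8 = k + 2 := by
      have e5 : k * ((k + 1) ^ 6 * S8) = k * (k + 2) := by
        calc k * ((k + 1) ^ 6 * S8) = (k + 1) ^ 6 * (k * S8) := by ring
          _ = _ := e3
      exact Nat.eq_of_mul_eq_mul_left hk e5
    have h6 : 0 < (k + 1) ^ 6 := by positivity
    have h7 : S8 ≤ (k + 1) ^ 6 * S8 := Nat.le_mul_of_pos_left _ h6
    have h8 : 0 < (k + 1) ^ 2 := by positivity
    rw [e4, hS8] at h7
    generalize (k + 1) ^ 7 = p7 at h7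
    generalize (k + 1) ^ 6 = p6 at h7
    generalize (k + 1) ^ 5 = p5 at h7
    generalize (k + 1) ^ 4 = p4 at h7
    generalize (k + 1) ^ 3 = p3 at h7
    generalize (k + 1) ^ 2 = p2 at h7 h8
    omega
  · intro u hu
    have hu2 : u.1 * u.1 = 1 := by
      have e := pow_orderOf_eq_one u
      rw [hu, pow_two] at e
      exact congrArg Subtype.val e
    have hne : u.1 ≠ 1 := by
      intro e
      have e1 : u = 1 := Subtype.ext e
      rw [e1, orderOf_one] at hu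
      omega
    rcases inv_class hOdd u.2 hu2 hne with h | h
    · exact Or.inl (conj_of_eq h)
    · exact Or.inr (conj_of_eq h)

end Cfsg.Agent.Lib.Coll.F4Odd
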