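/-
Involutions of a Chevalley group in odd characteristic lie, up to conjugacy, in `N`;
and the twisting of an element of `N` inverting a root by the attached `SL₂`.
-/
import Cfsg.Agent.Lib.Chev.Canon
import Cfsg.Agent.Lib.Chev.HForm
import Cfsg.Agent.Lib.Chev.Mono2
import Cfsg.Agent.Lib.Chev.Rank1All
import Cfsg.Agent.Lib.Chev.Uni

set_option autoImplicit false

namespace Cfsg.Agent.Lib.Coll.G2Odd

open Cfsg.Lie Cfsg.Agent.Lib.Chev

variable {F : Type*} [Field F] {D : ChevalleyDatum} {T : Tbl}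

lemma dihedral_conj {G : Type*} [Group G] {n a : G} (hn : n * n = 1) (hinv : n * a * n⁻¹ = a⁻¹)
    (hodd : Odd (orderOf a)) : ∃ m ∈ Subgroup.zpowers a, m * (n * a) * m⁻¹ = n := by
  obtain ⟨k, hk⟩ := hodd
  refine ⟨a ^ (k + 1), Subgroup.npow_mem_zpowers a (k + 1), ?_⟩
  have e1 : a ^ (k + 1) * a ^ (k + 1) = a := by
    rw [← pow_add, show k + 1 + (k + 1) = orderOf a + 1 by omega, pow_succ, pow_orderOf_eq_one, one_mul]
  have e2 : n * a ^ (k + 1) * n⁻¹ = (a ^ (k + 1))⁻¹ := by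
    rw [← conj_pow, hinv, inv_pow]
  generalize a ^ (k + 1) = m at e1 e2
  subst e1
  have e3 : n * m = m⁻¹ * n := mul_inv_eq_iff_eq_mul.1 e2
  calc m * (n * (m * m)) * m⁻¹ = m * (n * m) := by group
    _ = n := by rw [e3]; group

lemma conj_sq_one {G : Type*} [Group G] {g a : G} (h : a * a = 1) : (g * a * g⁻¹) * (g * a * g⁻¹) = 1 := by
  calc (g * a * g⁻¹) * (g * a * g⁻¹) = g * (a * a) * g⁻¹ := by group
    _ = 1 := by rw [h]; group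

lemma conj_ne_one {G : Type*} [Group G] {g a : G} (h : a ≠ 1) : g * a * g⁻¹ ≠ 1 := by
  intro e
  apply h
  have e1 : g * a = g := mul_inv_eq_one.1 e
  exact mul_left_cancel (a := g) (by rw [e1, mul_one])

section

variable (hG : T.Good2 D)
include hG

lemma rootsGen_pos_le (P : ℕ → Prop) : rootsGen D F (fun r => D.IsPosRoot r ∧ P r) ≤ D.posUnipotent F := by
  refine (Subgroup.closure_le _).2 ?_
  rintro x ⟨r, t, ⟨hr, _⟩, hx⟩
  exact Subgroup.subset_closure ⟨r, t, hr, hx⟩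

/-- An involution of `G`, in odd characteristic, is conjugate to an element of `N`. -/
theorem inv_to_N (hodd : ∀ u ∈ D.posUnipotent F, Odd (orderOf u)) {t : GL D.Idx F} (ht : t ∈ D.group F)
    (hsq : t * t = 1) : ∃ g ∈ D.group F, ∃ n ∈ D.monomialSubgroup F, g * t * g⁻¹ = n ∧ n * n = 1 := by
  obtain ⟨n₀, hn₀, b, hb, b', hb', rfl⟩ := hG.bruhat_exists ht
  obtain ⟨u₁, hu₁, h₁, hh₁, rfl⟩ := hG.mem_borel hb
  obtain ⟨h₂, hh₂, u₂, hu₂, rfl⟩ := hG.mem_borel' hb'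
  obtain ⟨n₁, hn₁def⟩ : ∃ n₁, n₁ = h₁ * n₀ * h₂ := ⟨_, rfl⟩
  have hn₁ : n₁ ∈ D.monomialSubgroup F := by
    rw [hn₁def]
    exact Subgroup.mul_mem _ (Subgroup.mul_mem _ (Tbl.Good2.H_le_N hh₁) hn₀) (Tbl.Good2.H_le_N hh₂)
  have hv : u₂ * u₁ ∈ D.posUnipotent F := Subgroup.mul_mem _ hu₂ hu₁
  obtain ⟨c, hc, a, ha, ev⟩ := hG.U_split (F := F)
    (fun r => (D.rootSubgroup F r).map (MulAut.conj n₁).toMonoidHom ≤ D.negUnipotent F) hv
  have hcU := rootsGen_pos_le hG _ hc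
  have haU := rootsGen_pos_le hG _ ha
  have et : u₁⁻¹ * (u₁ * h₁ * n₀ * (h₂ * u₂)) * u₁⁻¹⁻¹ = n₁ * (c * a) := by
    rw [← ev, hn₁def]
    group
  have h1 : n₁ * a * n₁⁻¹ ∈ D.posUnipotent F := by
    refine conj_mem_of_gen _ ?_ ha
    rintro y ⟨r, t, ⟨hr, hP⟩, hy⟩
    rw [hG.eq_xU hr.1 hy]
    exact hG.map_conj_le_V hn₁ hr.1 hP t
  have h2 : n₁ * c * n₁⁻¹ ∈ D.negUnipotent F := by
    refine conj_mem_of_gen _ ?_ hc
    rintro y ⟨r, t, ⟨hr, hP⟩, hy⟩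
    rw [hG.eq_xU hr.1 hy]
    exact hG.conj_le_V hr.1 hP t
  have hsq1 : (n₁ * (c * a)) * (n₁ * (c * a)) = 1 := by
    rw [← et]
    exact conj_sq_one hsq
  have hca : c * a ∈ D.posUnipotent F := Subgroup.mul_mem _ hcU haU
  have hnn : n₁ * n₁ ∈ D.diagonalSubgroup F := by
    have e : 1 * n₁ * (c * a) = (c * a)⁻¹ * n₁⁻¹ * 1 := by
      have e0 : (n₁ * (c * a))⁻¹ = n₁ * (c * a) := inv_eq_of_mul_eq_one_left hsq1
      rw [mul_inv_rev] at e0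
      rw [one_mul, mul_one, e0]
    have e2 := hG.bruhat_unique hn₁ (Subgroup.inv_mem _ hn₁) (Subgroup.one_mem _) (Tbl.Good2.le_borel_U hca)
      (Tbl.Good2.le_borel_U (Subgroup.inv_mem _ hca)) (Subgroup.one_mem _) e
    have e3 := Subgroup.inv_mem _ e2
    rwa [mul_inv_rev, inv_inv] at e3
  obtain ⟨x, hxdef⟩ : ∃ x, x = n₁ * c * n₁⁻¹ := ⟨_, rfl⟩
  obtain ⟨y, hydef⟩ : ∃ y, y = n₁ * a * n₁⁻¹ := ⟨_, rfl⟩
  have e5 : x * (y * (n₁ * n₁) * (c * a)) = 1 := by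
    rw [← hsq1, hxdef, hydef]
    group
  have hxB : x ∈ D.borelSubgroup F := by
    rw [eq_inv_of_mul_eq_one_left e5]
    refine Subgroup.inv_mem _ (Subgroup.mul_mem _ (Subgroup.mul_mem _ (Tbl.Good2.le_borel_U ?_) (Tbl.Good2.le_borel_H hnn)) (Tbl.Good2.le_borel_U hca))
    rwa [hydef]
  have hx1 : x = 1 := by
    have hmem : x ∈ D.borelSubgroup F ⊓ D.negUnipotent F := ⟨hxB, by rw [hxdef]; exact h2⟩
    rw [hG.borel_inf_V, Subgroup.mem_bot] at hmem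
    exact hmem
  have hc1 : c = 1 := by
    rw [hxdef] at hx1
    have e6 : n₁ * c = n₁ := mul_inv_eq_one.1 hx1
    exact mul_left_cancel (a := n₁) (by rw [e6, mul_one])
  subst hc1
  rw [one_mul] at e5 hsq1 hca
  have e7 : n₁ * n₁ = y⁻¹ * a⁻¹ := by
    have e8 : y * (n₁ * n₁) * a = 1 := by rw [← e5, hx1, one_mul]
    calc n₁ * n₁ = y⁻¹ * (y * (n₁ * n₁) * a) * a⁻¹ := by group
      _ = y⁻¹ * a⁻¹ := by rw [e8]; group
  have hyU : y ∈ D.posUnipotent F := by rw [hydef]; exact h1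
  have hnn1 : n₁ * n₁ = 1 := by
    have hmem : n₁ * n₁ ∈ D.posUnipotent F ⊓ D.diagonalSubgroup F :=
      ⟨by rw [e7]; exact Subgroup.mul_mem _ (Subgroup.inv_mem _ hyU) (Subgroup.inv_mem _ haU), hnn⟩
    rw [hG.U_inf_H, Subgroup.mem_bot] at hmem
    exact hmem
  have hya : n₁ * a * n₁⁻¹ = a⁻¹ := by
    rw [← hydef]
    have e8 : y⁻¹ * a⁻¹ = 1 := by rw [← e7, hnn1]
    have e10 : y⁻¹ = a := by
      have := eq_inv_of_mul_eq_one_left e8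
      rwa [inv_inv] at this
    rw [← e10, inv_inv]
  obtain ⟨m, hm, em⟩ := dihedral_conj hnn1 hya (hodd a haU)
  have hmU : m ∈ D.posUnipotent F := (Subgroup.zpowers_le.2 haU) hm
  refine ⟨m * u₁⁻¹, Subgroup.mul_mem _ (hG.U_le_group hmU) (hG.U_le_group (Subgroup.inv_mem _ hu₁)), n₁, hn₁, ?_, hnn1⟩
  rw [one_mul] at et
  calc m * u₁⁻¹ * (u₁ * h₁ * n₀ * (h₂ * u₂)) * (m * u₁⁻¹)⁻¹ = m * (u₁⁻¹ * (u₁ * h₁ * n₀ * (h₂ * u₂)) * u₁⁻¹⁻¹) * m⁻¹ := by group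
    _ = n₁ := by rw [et, em]

end

end Cfsg.Agent.Lib.Coll.G2Odd
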