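/-
The twisting of an element of `N` inverting a root by the attached `SL₂`.
-/
import Cfsg.Agent.Lib.Coll.G2OddA

set_option autoImplicit false

namespace Cfsg.Agent.Lib.Coll.G2Odd

open Cfsg.Lie Cfsg.Agent.Lib.Chev

/-- `SL₂`. -/
abbrev SLF (F : Type*) [Field F] := Matrix.SpecialLinearGroup (Fin 2) F
/-- Two by two matrices. -/
abbrev MF (F : Type*) [Field F] := Matrix (Fin 2) (Fin 2) F

section SLT

variable {F : Type*} [Field F] {G : Type*} [Group G] {x y : F → G}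


section entries

variable (g h : (SLF F)) (s : F)

lemma m00 : ((g * h : (SLF F)) : (MF F)) 0 0 = (g : (MF F)) 0 0 * (h : (MF F)) 0 0 + (g : (MF F)) 0 1 * (h : (MF F)) 1 0 := by
  simp [Matrix.mul_apply, Fin.sum_univ_two]
lemma m01 : ((g * h : (SLF F)) : (MF F)) 0 1 = (g : (MF F)) 0 0 * (h : (MF F)) 0 1 + (g : (MF F)) 0 1 * (h : (MF F)) 1 1 := by
  simp [Matrix.mul_apply, Fin.sum_univ_two]
lemma m10 : ((g * h : (SLF F)) : (MF F)) 1 0 = (g : (MF F)) 1 0 * (h : (MF F)) 0 0 + (g : (MF F)) 1 1 * (h : (MF F)) 1 0 := by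
  simp [Matrix.mul_apply, Fin.sum_univ_two]
lemma m11 : ((g * h : (SLF F)) : (MF F)) 1 1 = (g : (MF F)) 1 0 * (h : (MF F)) 0 1 + (g : (MF F)) 1 1 * (h : (MF F)) 1 1 := by
  simp [Matrix.mul_apply, Fin.sum_univ_two]
lemma x00 : ((SL2.X s : (SLF F)) : (MF F)) 0 0 = 1 := by simp [SL2.X]
lemma x01 : ((SL2.X s : (SLF F)) : (MF F)) 0 1 = s := by simp [SL2.X]
lemma x10 : ((SL2.X s : (SLF F)) : (MF F)) 1 0 = 0 := by simp [SL2.X]
lemma x11 : ((SL2.X s : (SLF F)) : (MF F)) 1 1 = 1 := by simp [SL2.X]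
lemma y00 : ((SL2.Y s : (SLF F)) : (MF F)) 0 0 = 1 := by simp [SL2.Y]
lemma y01 : ((SL2.Y s : (SLF F)) : (MF F)) 0 1 = 0 := by simp [SL2.Y]
lemma y10 : ((SL2.Y s : (SLF F)) : (MF F)) 1 0 = s := by simp [SL2.Y]
lemma y11 : ((SL2.Y s : (SLF F)) : (MF F)) 1 1 = 1 := by simp [SL2.Y]
lemma k00 (a b c d : F) (h : a * d - b * c = 1) : ((SL2.mkS a b c d h : (SLF F)) : (MF F)) 0 0 = a := by simp
lemma k01 (a b c d : F) (h : a * d - b * c = 1) : ((SL2.mkS a b c d h : (SLF F)) : (MF F)) 0 1 = b := by simp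
lemma k10 (a b c d : F) (h : a * d - b * c = 1) : ((SL2.mkS a b c d h : (SLF F)) : (MF F)) 1 0 = c := by simp
lemma k11 (a b c d : F) (h : a * d - b * c = 1) : ((SL2.mkS a b c d h : (SLF F)) : (MF F)) 1 1 = d := by simp

end entries

/-- Every element of `SL₂` is a product of four elementary matrices. -/
lemma exists_XYXY (A : (SLF F)) : ∃ p q r s : F, A = SL2.X p * SL2.Y q * SL2.X r * SL2.Y s := by
  have hdet := SL2.sl_det A
  obtain ⟨a, ha⟩ : ∃ a, a = (A : (MF F)) 0 0 := ⟨_, rfl⟩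
  obtain ⟨b, hb⟩ : ∃ b, b = (A : (MF F)) 0 1 := ⟨_, rfl⟩
  obtain ⟨e, he⟩ : ∃ e, e = (A : (MF F)) 1 0 := ⟨_, rfl⟩
  obtain ⟨d, hd⟩ : ∃ d, d = (A : (MF F)) 1 1 := ⟨_, rfl⟩
  rw [← ha, ← hb, ← he, ← hd] at hdet
  by_cases he0 : e = 0
  · subst he0
    have had : a * d = 1 := by linear_combination hdet
    refine ⟨(a + b - 1) * a, d, 1 - a, -1, ?_⟩
    apply SL2.sl_ext <;> simp only [m00, m01, m10, m11, x00, x01, x10, x11, y00, y01, y10, y11, ← ha, ← hb, ← he, ← hd]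
    · linear_combination (-a * (a + b - 1)) * had
    · linear_combination (-(a + b - 1) * (1 - a)) * had
    · linear_combination -had
    · linear_combination had
  · refine ⟨(a - 1) * e⁻¹, e, (d - 1) * e⁻¹, 0, ?_⟩
    apply SL2.sl_ext <;> simp only [m00, m01, m10, m11, x00, x01, x10, x11, y00, y01, y10, y11, ← ha, ← hb, ← he, ← hd]
    · field_simp
      ring
    · field_simp
      linear_combination -hdet
    · ring
    · field_simp
      ring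

/-- The twist of a matrix by the antidiagonal matrix `(0, 1; c, 0)`. -/
def tauS (c : F) (hc : c ≠ 0) (A : (SLF F)) : (SLF F) :=
  SL2.mkS ((A : (MF F)) 1 1) (c⁻¹ * (A : (MF F)) 1 0) (c * (A : (MF F)) 0 1) ((A : (MF F)) 0 0) (by
    have := SL2.sl_det A
    field_simp
    linear_combination this)

lemma conj_hom (R : SL2.Rel x y) {n : G} {c : F} (hc : c ≠ 0) (h1 : ∀ t, n * x t * n⁻¹ = y (c * t))
    (h1' : ∀ t, n * y t * n⁻¹ = x (c⁻¹ * t)) (A : (SLF F)) : n * R.hom A * n⁻¹ = R.hom (tauS c hc A) := by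
  obtain ⟨p, q, r, s, rfl⟩ := exists_XYXY A
  have e : tauS c hc (SL2.X p * SL2.Y q * SL2.X r * SL2.Y s) =
      SL2.Y (c * p) * SL2.X (c⁻¹ * q) * SL2.Y (c * r) * SL2.X (c⁻¹ * s) := by
    apply SL2.sl_ext <;> simp only [tauS, k00, k01, k10, k11, m00, m01, m10, m11, x00, x01, x10, x11, y00, y01, y10, y11] <;>
      field_simp <;> ring
  rw [e]
  simp only [map_mul, R.hom_X, R.hom_Y]
  calc n * (x p * y q * x r * y s) * n⁻¹ = (n * x p * n⁻¹) * (n * y q * n⁻¹) * (n * x r * n⁻¹) * (n * y s * n⁻¹) := by group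
    _ = _ := by rw [h1, h1', h1, h1']

lemma tw_sq (R : SL2.Rel x y) (h2 : (2 : F) ≠ 0) {n : G} {ρ : F} (hρ : ρ ≠ 0)
    (h1 : ∀ t, n * x t * n⁻¹ = y (ρ * ρ * t)) (h1' : ∀ t, n * y t * n⁻¹ = x ((ρ * ρ)⁻¹ * t)) :
    (x (2⁻¹ * ρ⁻¹) * y (-ρ)) * n * (x (2⁻¹ * ρ⁻¹) * y (-ρ))⁻¹ = SL2.w x y ρ⁻¹ * n := by
  obtain ⟨α, hα⟩ : ∃ α, α = 2⁻¹ * ρ⁻¹ := ⟨_, rfl⟩
  rw [← hα]
  have e : (x α * y (-ρ)) * n * (x α * y (-ρ))⁻¹ = x α * y (-ρ) * (n * y ρ * n⁻¹) * (n * x (-α) * n⁻¹) * n := by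
    rw [mul_inv_rev, R.x_neg α, ← neg_neg ρ, R.y_neg (-ρ), neg_neg]
    group
  rw [e, h1', h1]
  have e2 : (SL2.X α * SL2.Y (-ρ) * SL2.X ((ρ * ρ)⁻¹ * ρ) * SL2.Y (ρ * ρ * -α) : (SLF F)) =
      SL2.X ρ⁻¹ * SL2.Y (-ρ⁻¹⁻¹) * SL2.X ρ⁻¹ := by
    subst hα
    apply SL2.sl_ext <;> simp only [m00, m01, m10, m11, x00, x01, x10, x11, y00, y01, y10, y11] <;>
      field_simp <;> ring
  have e3 := congrArg R.hom e2
  simp only [map_mul, R.hom_X, R.hom_Y] at e3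
  rw [e3]
  rfl

lemma tw_lam (R : SL2.Rel x y) {n : G} {c lam u z : F} (hc : c ≠ 0) (hlam : lam ≠ 0)
    (hnorm : lam * (u * u - c * z * z) = 1)
    (h1 : ∀ t, n * x t * n⁻¹ = y (c * t)) (h1' : ∀ t, n * y t * n⁻¹ = x (c⁻¹ * t)) :
    ∃ A : (SLF F), R.hom A * n * (R.hom A)⁻¹ = SL2.h x y lam * n := by
  let A : (SLF F) := SL2.mkS (lam * u) (lam * z) (c * z) u (by linear_combination hnorm)
  refine ⟨A, ?_⟩
  have e : R.hom A * n * (R.hom A)⁻¹ = R.hom A * (n * R.hom A⁻¹ * n⁻¹) * n := by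
    rw [map_inv]
    group
  rw [e, conj_hom R hc h1 h1', ← map_mul]
  have e2 : A * tauS c hc A⁻¹ = SL2.X lam * SL2.Y (-lam⁻¹) * SL2.X lam * (SL2.X (-1) * SL2.Y (-(-1)⁻¹) * SL2.X (-1)) := by
    have hA : (A⁻¹ : (SLF F)) = SL2.mkS u (-(lam * z)) (-(c * z)) (lam * u) (by linear_combination hnorm) := by
      apply SL2.sl_ext
      · simp [A, Matrix.SpecialLinearGroup.coe_inv, Matrix.adjugate_fin_two]
      · simp [A, Matrix.SpecialLinearGroup.coe_inv, Matrix.adjugate_fin_two]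
      · simp [A, Matrix.SpecialLinearGroup.coe_inv, Matrix.adjugate_fin_two]
      · simp [A, Matrix.SpecialLinearGroup.coe_inv, Matrix.adjugate_fin_two]
    rw [hA]
    have hu : u * u - c * z * z = lam⁻¹ := by
      field_simp
      linear_combination hnorm
    have hcc : c⁻¹ * c = 1 := inv_mul_cancel₀ hc
    apply SL2.sl_ext <;> simp only [tauS, A, k00, k01, k10, k11, m00, m01, m10, m11, x00, x01, x10, x11, y00, y01, y10, y11]
    · field_simp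
      linear_combination lam * hnorm
    · field_simp
      ring
    · field_simp
      ring
    · field_simp
      linear_combination hnorm
  rw [e2]
  simp only [map_mul, R.hom_X, R.hom_Y]
  rfl

end SLT

section N

variable {F : Type*} [Field F] {D : ChevalleyDatum} {T : Tbl}

lemma conj_conj_of_sq {G : Type*} [Group G] {n : G} (x : G) (h : n * n = 1) : n * (n * x * n⁻¹) * n⁻¹ = x := by
  calc n * (n * x * n⁻¹) * n⁻¹ = (n * n) * x * (n * n)⁻¹ := by group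
    _ = x := by rw [h]; group

variable (hG : T.Good2 D)
include hG

lemma xU_inj {r : ℕ} (hr : r < D.nroots) {t u : F} (h : hG.xU hr t = hG.xU hr u) : t = u :=
  hG.x_inj hr (congrArg Units.val h)

lemma xU_mem_G {r : ℕ} (hr : r < D.nroots) (t : F) : hG.xU hr t ∈ D.group F := Tbl.Good2.x_mem_group hr rfl

/-- The action of an element `h * nProd l` of `N` on the root elements. -/
lemma perm_form {h : GL D.Idx F} (hh : h ∈ D.diagonalSubgroup F) {l : List ℕ} (hl : ∀ i ∈ l, i < D.rank)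
    {r : ℕ} (hr : r < D.nroots) :
    ∃ c : F, c ≠ 0 ∧ ∀ t, (h * hG.nProd l) * hG.xU hr t * (h * hG.nProd l)⁻¹ = hG.xU (hG.wperm_lt hl hr) (c * t) := by
  obtain ⟨c₁, hc₁, e₁⟩ := hG.nProd_conj_x (F := F) hl hr
  obtain ⟨c₂, hc₂, e₂⟩ := hG.H_conj_x hh (hG.wperm_lt hl hr)
  have hc₁' : c₁ ≠ 0 := by rcases hc₁ with rfl | rfl <;> simp
  refine ⟨c₂ * c₁, mul_ne_zero hc₂ hc₁', fun t => ?_⟩
  have e : h * hG.nProd l * hG.xU hr t * (h * hG.nProd l)⁻¹ =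
      h * (hG.nProd l * hG.xU hr t * (hG.nProd l)⁻¹) * h⁻¹ := by group
  rw [e, e₁, e₂, mul_assoc]

lemma rev_of_perm {h : GL D.Idx F} (hh : h ∈ D.diagonalSubgroup F) {l : List ℕ} (hl : ∀ i ∈ l, i < D.rank)
    {r : ℕ} (hr : r < D.nroots) (e : wperm T l r = D.neg r) (hsq : (h * hG.nProd l) * (h * hG.nProd l) = 1) :
    ∃ c : F, c ≠ 0 ∧ (∀ t, (h * hG.nProd l) * hG.xU hr t * (h * hG.nProd l)⁻¹ = hG.xU (hG.neg_lt hr) (c * t)) ∧
      (∀ t, (h * hG.nProd l) * hG.xU (hG.neg_lt hr) t * (h * hG.nProd l)⁻¹ = hG.xU hr (c⁻¹ * t)) := by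
  obtain ⟨c₁, h₁, e₁⟩ := perm_form hG hh hl hr
  obtain ⟨c₂, h₂, e₂⟩ := perm_form hG hh hl (hG.neg_lt hr)
  have e₁' : ∀ t, (h * hG.nProd l) * hG.xU hr t * (h * hG.nProd l)⁻¹ = hG.xU (hG.neg_lt hr) (c₁ * t) :=
    fun t => (e₁ t).trans (hG.xU_congr _ _ e rfl)
  have e₂' : ∀ t, (h * hG.nProd l) * hG.xU (hG.neg_lt hr) t * (h * hG.nProd l)⁻¹ = hG.xU hr (c₂ * t) :=
    fun t => (e₂ t).trans (hG.xU_congr _ _ (by rw [hG.wperm_neg hl hr, e, hG.neg_neg hr]) rfl)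
  have key := conj_conj_of_sq (hG.xU hr (1 : F)) hsq
  rw [e₁', e₂'] at key
  have e3 := xU_inj hG hr key
  have hc₂ : c₂ = c₁⁻¹ := by
    field_simp
    linear_combination e3
  exact ⟨c₁, h₁, e₁', fun t => by rw [e₂', hc₂]⟩

lemma perm_invol {h : GL D.Idx F} (hh : h ∈ D.diagonalSubgroup F) {l : List ℕ} (hl : ∀ i ∈ l, i < D.rank)
    (hsq : (h * hG.nProd (F := F) l) * (h * hG.nProd l) = 1) {r : ℕ} (hr : r < D.nroots) :
    wperm T l (wperm T l r) = r := by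
  obtain ⟨c₁, h₁, e₁⟩ := perm_form hG hh hl hr
  obtain ⟨c₂, h₂, e₂⟩ := perm_form hG hh hl (hG.wperm_lt hl hr)
  have key := conj_conj_of_sq (hG.xU hr (1 : F)) hsq
  rw [e₁, e₂] at key
  exact (hG.x_root_unique hr (hG.wperm_lt hl (hG.wperm_lt hl hr)) (one_ne_zero (α := F)) (congrArg Units.val key).symm).symm

lemma tw_step_sq (hε : T.chkRank1 = true) (h2 : (2 : F) ≠ 0) {r : ℕ} (hr : r < D.nroots) {n : GL D.Idx F} {ρ : F}
    (hρ : ρ ≠ 0) (h1 : ∀ t, n * hG.xU hr t * n⁻¹ = hG.xU (hG.neg_lt hr) (ρ * ρ * t))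
    (h1' : ∀ t, n * hG.xU (hG.neg_lt hr) t * n⁻¹ = hG.xU hr ((ρ * ρ)⁻¹ * t)) :
    ∃ g ∈ D.group F, g * n * g⁻¹ = hG.nR hr ρ⁻¹ * n :=
  ⟨_, Subgroup.mul_mem _ (xU_mem_G hG hr _) (xU_mem_G hG (hG.neg_lt hr) _), tw_sq (hG.rel_root hε hr) h2 hρ h1 h1'⟩

lemma tw_step_lam (hε : T.chkRank1 = true) {r : ℕ} (hr : r < D.nroots) {n : GL D.Idx F} {c lam u z : F}
    (hc : c ≠ 0) (hlam : lam ≠ 0) (hnorm : lam * (u * u - c * z * z) = 1)
    (h1 : ∀ t, n * hG.xU hr t * n⁻¹ = hG.xU (hG.neg_lt hr) (c * t))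
    (h1' : ∀ t, n * hG.xU (hG.neg_lt hr) t * n⁻¹ = hG.xU hr (c⁻¹ * t)) :
    ∃ g ∈ D.group F, g * n * g⁻¹ = hG.hU hr hlam * n := by
  have R := hG.rel_root (F := F) hε hr
  obtain ⟨A, hA⟩ := tw_lam R hc hlam hnorm h1 h1'
  refine ⟨R.hom A, R.hom_mem (D.group F) (xU_mem_G hG hr) (xU_mem_G hG (hG.neg_lt hr)) A, ?_⟩
  rw [hA]
  congr 1
  rw [hG.hU_eq_nR hr hlam]
  rfl

/-- Passing to a canonical word modulo `H`. -/
lemma over_congr {l l' : List ℕ} (hl : ∀ i ∈ l, i < D.rank) (hl' : ∀ i ∈ l', i < D.rank)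
    (h1 : ∀ r, r < D.nroots → wperm T (l ++ l'.reverse) r = r)
    (h2 : ∀ r, r < D.nroots → wperm T (l' ++ l'.reverse) r = r) :
    ∃ z ∈ D.diagonalSubgroup F, hG.nProd (F := F) l = z * hG.nProd l' := by
  have hrev : ∀ i ∈ l'.reverse, i < D.rank := fun i hi => hl' i (List.mem_reverse.1 hi)
  have z1 := hG.nProd_mem_H (F := F) _ (l ++ l'.reverse) rfl
    (fun i hi => (List.mem_append.1 hi).elim (hl i) (hrev i)) h1
  have z2 := hG.nProd_mem_H (F := F) _ (l' ++ l'.reverse) rfl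
    (fun i hi => (List.mem_append.1 hi).elim (hl' i) (hrev i)) h2
  refine ⟨_, Subgroup.mul_mem _ z1 (Subgroup.inv_mem _ z2), ?_⟩
  rw [hG.nProd_append, hG.nProd_append]
  generalize hG.nProd (F := F) l = a
  generalize hG.nProd (F := F) l' = b
  generalize hG.nProd (F := F) l'.reverse = c
  group

/-- Reducing a palindrome to its central letter. -/
lemma refl_red {m : List ℕ} {i : ℕ} (hm : ∀ j ∈ m, j < D.rank) (hi : i < D.rank)
    (htriv : ∀ r, r < D.nroots → wperm T (m.reverse ++ m) r = r) {h : GL D.Idx F} (hh : h ∈ D.diagonalSubgroup F) :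
    ∃ y ∈ D.group F, ∃ h₃ ∈ D.diagonalSubgroup F, y * (h * hG.nProd (m ++ i :: m.reverse)) * y⁻¹ = h₃ * hG.nE i := by
  have hrev : ∀ j ∈ m.reverse, j < D.rank := fun j hj => hm j (List.mem_reverse.1 hj)
  have hz := hG.nProd_mem_H (F := F) _ (m.reverse ++ m) rfl
    (fun j hj => (List.mem_append.1 hj).elim (hrev j) (hm j)) htriv
  have hN := hG.nProd_mem_N (F := F) hm
  have hNi : hG.nE (F := F) i ∈ D.monomialSubgroup F := by
    rw [hG.nE_eq hi]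
    exact hG.nU_mem_N hi
  refine ⟨(hG.nProd m)⁻¹, Subgroup.inv_mem _ (hG.N_le_group hN),
    ((hG.nProd m)⁻¹ * h * (hG.nProd m)⁻¹⁻¹) * (hG.nE i * hG.nProd (m.reverse ++ m) * (hG.nE i)⁻¹),
    Subgroup.mul_mem _ (hG.N_conj_H (Subgroup.inv_mem _ hN) hh) (hG.N_conj_H hNi hz), ?_⟩
  rw [hG.nProd_append, hG.nProd_append, hG.nProd_cons]
  generalize hG.nProd (F := F) m = a
  generalize hG.nProd (F := F) m.reverse = b
  generalize hG.nE (F := F) i = c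
  group

end N

/-- The norm equation over a finite field. -/
lemma norm_sol {F : Type*} [Field F] [Fintype F] (hF : Odd (Fintype.card F)) {c lam : F} (hc : c ≠ 0) (hlam : lam ≠ 0) :
    ∃ u z : F, lam * (u * u - c * z * z) = 1 := by
  open Polynomial in
  have hf : (X ^ 2 - C lam⁻¹ : F[X]).degree = 2 := by
    simpa using degree_X_pow_sub_C (R := F) (n := 2) (by norm_num) lam⁻¹
  have hg : (C (-c) * X ^ 2 : F[X]).degree = 2 := by
    simpa using degree_C_mul_X_pow (R := F) 2 (neg_ne_zero.2 hc)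
  obtain ⟨u, z, e⟩ := FiniteField.exists_root_sum_quadratic hf hg (Nat.odd_iff.1 hF)
  refine ⟨u, z, ?_⟩
  simp only [Polynomial.eval_sub, Polynomial.eval_pow, Polynomial.eval_X, Polynomial.eval_C, Polynomial.eval_mul] at e
  linear_combination lam * e + mul_inv_cancel₀ hlam

lemma two_ne {F : Type*} [Field F] [Fintype F] (hF : Odd (Fintype.card F)) : (2 : F) ≠ 0 := by
  apply Ring.two_ne_zero
  intro h
  have := FiniteField.even_card_of_char_two h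
  have h2 := Nat.odd_iff.1 hF
  omega

end Cfsg.Agent.Lib.Coll.G2Odd
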