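/-
`G₂(q)`, `q` odd: the involutions of `N` are conjugate.
-/
import Cfsg.Agent.Lib.Coll.G2OddB

set_option autoImplicit false

namespace Cfsg.Agent.Lib.Coll.G2Odd

open Cfsg.Lie Cfsg.Agent.Lib.Chev

theorem hG2 : digG2.tbl.Good2 chevG2 := good3G2.toGood2

lemma lt6 : 6 < chevG2.nroots := by decide +kernel
lemma lt7 : 7 < chevG2.nroots := by decide +kernel
lemma lt8 : 8 < chevG2.nroots := by decide +kernel
lemma lt10 : 10 < chevG2.nroots := by decide +kernel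
lemma r0 : 0 < chevG2.rank := by decide +kernel
lemma r1 : 1 < chevG2.rank := by decide +kernel

variable {F : Type*} [Field F]

/-- A general element of the diagonal subgroup. -/
noncomputable def mH (p q : F) (hp : p ≠ 0) (hq : q ≠ 0) : GL chevG2.Idx F := hG2.hU lt7 hp * hG2.hU lt6 hq

lemma mH_mem {p q : F} (hp : p ≠ 0) (hq : q ≠ 0) : mH p q hp hq ∈ chevG2.diagonalSubgroup F :=
  Subgroup.mul_mem _ (hG2.hU_mem lt7 hp) (hG2.hU_mem lt6 hq)

lemma H_coords {g : GL chevG2.Idx F} (hg : g ∈ chevG2.diagonalSubgroup F) :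
    ∃ (p q : F) (hp : p ≠ 0) (hq : q ≠ 0), g = mH p q hp hq := by
  obtain ⟨c, hc, e⟩ := hG2.H_form hg
  refine ⟨c 0, c 1, hc 0 r0, hc 1 r1, ?_⟩
  apply Units.ext
  rw [e]
  have er : List.range chevG2.rank = [0, 1] := by decide +kernel
  have e0 : chevG2.simple 0 = 7 := by decide +kernel
  have e1 : chevG2.simple 1 = 6 := by decide +kernel
  rw [er]
  simp only [List.flatMap_cons, List.flatMap_nil, List.append_nil, e0, e1, wordMat_append]
  rfl

lemma mH_conj {p q : F} (hp : p ≠ 0) (hq : q ≠ 0) {s : ℕ} (hs : s < chevG2.nroots) {a b : ℤ}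
    (ea : chevG2.pairing 7 s = a) (eb : chevG2.pairing 6 s = b) (t : F) :
    mH p q hp hq * hG2.xU hs t * (mH p q hp hq)⁻¹ = hG2.xU hs (p ^ a * (q ^ b * t)) := by
  unfold mH
  have e : ∀ x y z : GL chevG2.Idx F, (x * y) * z * (x * y)⁻¹ = x * (y * z * y⁻¹) * x⁻¹ := by
    intro x y z
    group
  rw [e, hG2.hU_conj_x, hG2.hU_conj_x, ea, eb]

lemma mn_conj {p q : F} (hp : p ≠ 0) (hq : q ≠ 0) {i : ℕ} (hi : i < chevG2.rank) {s s' : ℕ} (hs : s < chevG2.nroots)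
    (hs' : s' < chevG2.nroots) (e : digG2.tbl.refl i s = s') {a b ε : ℤ}
    (ea : chevG2.pairing 7 s' = a) (eb : chevG2.pairing 6 s' = b) (ee : digG2.tbl.eps i s = ε) (t : F) :
    (mH p q hp hq * hG2.nU hi) * hG2.xU hs t * (mH p q hp hq * hG2.nU hi)⁻¹ = hG2.xU hs' (p ^ a * (q ^ b * ((ε : F) * t))) := by
  have e1 : ∀ x y z : GL chevG2.Idx F, (x * y) * z * (x * y)⁻¹ = x * (y * z * y⁻¹) * x⁻¹ := by
    intro x y z
    group
  rw [e1, hG2.nU_conj hi hs, ee, hG2.xU_congr _ hs' e rfl, mH_conj hp hq hs' ea eb]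

lemma nR_eq6 : hG2.nR lt6 (1 : F) = hG2.nU r1 :=
  (hG2.nR_congr lt6 (hG2.simple_lt r1) (by decide +kernel) rfl).trans (hG2.nR_simple r1)

lemma nR_eq7 : hG2.nR lt7 (1 : F) = hG2.nU r0 :=
  (hG2.nR_congr lt7 (hG2.simple_lt r0) (by decide +kernel) rfl).trans (hG2.nR_simple r0)

/-- `h * s_b` is conjugate into `H`, if an involution. -/
lemma caseC1 (h2 : (2 : F) ≠ 0) {p q : F} (hp : p ≠ 0) (hq : q ≠ 0)
    (hsq : (mH p q hp hq * hG2.nU r1) * (mH p q hp hq * hG2.nU r1) = 1) :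
    ∃ g ∈ chevG2.group F, g * (mH p q hp hq * hG2.nU r1) * g⁻¹ ∈ chevG2.diagonalSubgroup F := by
  have e78 := mn_conj hp hq r1 lt7 lt8 (by decide +kernel) (a := -1) (b := 1) (ε := 1) (by decide +kernel) (by decide +kernel) (by decide +kernel)
  have e87 := mn_conj hp hq r1 lt8 lt7 (by decide +kernel) (a := 2) (b := -1) (ε := -1) (by decide +kernel) (by decide +kernel) (by decide +kernel)
  have key := conj_conj_of_sq (hG2.xU lt7 (1 : F)) hsq
  rw [e78, e87] at key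
  have hp1 := xU_inj hG2 lt7 key
  have hp' : p = -1 := by
    simp only [zpow_neg, zpow_one, Int.cast_neg, Int.cast_one, mul_one, one_mul, neg_mul] at hp1
    field_simp at hp1
    linear_combination -hp1
  subst hp'
  have hρ : q⁻¹ ≠ 0 := inv_ne_zero hq
  have e1 : ∀ t, (mH (-1) q hp hq * hG2.nU r1) * hG2.xU lt6 t * (mH (-1) q hp hq * hG2.nU r1)⁻¹ = hG2.xU (hG2.neg_lt lt6) (q⁻¹ * q⁻¹ * t) := by
    intro t
    rw [mn_conj hp hq r1 lt6 (hG2.neg_lt lt6) (by decide +kernel) (a := 3) (b := -2) (ε := -1) (by decide +kernel) (by decide +kernel) (by decide +kernel)]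
    apply hG2.xU_congr _ _ rfl
    have e3 : ((-1 : F)) ^ (3 : ℤ) = -1 := by
      rw [show (3 : ℤ) = ((3 : ℕ) : ℤ) by norm_num, zpow_natCast]
      norm_num
    have e2 : q ^ (-2 : ℤ) = q⁻¹ * q⁻¹ := by
      rw [zpow_neg, show (2 : ℤ) = ((2 : ℕ) : ℤ) by norm_num, zpow_natCast, pow_two, mul_inv]
    rw [e3, e2]
    simp only [Int.cast_neg, Int.cast_one]
    ring
  have e2 : ∀ t, (mH (-1) q hp hq * hG2.nU r1) * hG2.xU (hG2.neg_lt lt6) t * (mH (-1) q hp hq * hG2.nU r1)⁻¹ = hG2.xU lt6 ((q⁻¹ * q⁻¹)⁻¹ * t) := by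
    intro t
    rw [mn_conj hp hq r1 (hG2.neg_lt lt6) lt6 (by decide +kernel) (a := -3) (b := 2) (ε := -1) (by decide +kernel) (by decide +kernel) (by decide +kernel)]
    apply hG2.xU_congr _ _ rfl
    have e3 : ((-1 : F)) ^ (-3 : ℤ) = -1 := by
      rw [zpow_neg, show (3 : ℤ) = ((3 : ℕ) : ℤ) by norm_num, zpow_natCast]
      norm_num
    have e2 : q ^ (2 : ℤ) = q * q := by
      rw [show (2 : ℤ) = ((2 : ℕ) : ℤ) by norm_num, zpow_natCast, pow_two]
    rw [e3, e2]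
    simp only [Int.cast_neg, Int.cast_one]
    field_simp
  obtain ⟨g, hg, eg⟩ := tw_step_sq hG2 rank1G2 h2 lt6 hρ e1 e2
  refine ⟨g, hg, ?_⟩
  rw [eg, hG2.nR_eq_hU lt6 (inv_ne_zero hρ), nR_eq6]
  have e5 : ∀ a b m : GL chevG2.Idx F, a * b * (m * b) = a * (b * m * b⁻¹) * (b * b) := by
    intro a b m
    group
  rw [e5]
  exact Subgroup.mul_mem _ (Subgroup.mul_mem _ (hG2.hU_mem _ _) (hG2.N_conj_H (hG2.nU_mem_N r1) (mH_mem hp hq))) (hG2.nU_sq_mem r1)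

/-- `h * s_a` is conjugate into `H`, if an involution. -/
lemma caseC0 (h2 : (2 : F) ≠ 0) {p q : F} (hp : p ≠ 0) (hq : q ≠ 0)
    (hsq : (mH p q hp hq * hG2.nU r0) * (mH p q hp hq * hG2.nU r0) = 1) :
    ∃ g ∈ chevG2.group F, g * (mH p q hp hq * hG2.nU r0) * g⁻¹ ∈ chevG2.diagonalSubgroup F := by
  have e6a := mn_conj hp hq r0 lt6 lt10 (by decide +kernel) (a := 3) (b := -1) (ε := 1) (by decide +kernel) (by decide +kernel) (by decide +kernel)
  have ea6 := mn_conj hp hq r0 lt10 lt6 (by decide +kernel) (a := -3) (b := 2) (ε := -1) (by decide +kernel) (by decide +kernel) (by decide +kernel)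
  have key := conj_conj_of_sq (hG2.xU lt6 (1 : F)) hsq
  rw [e6a, ea6] at key
  have hq1 := xU_inj hG2 lt6 key
  have hq' : q = -1 := by
    have e3 : p ^ (-3 : ℤ) * p ^ (3 : ℤ) = 1 := by
      rw [← zpow_add₀ hp]
      simp
    have e4 : q ^ (2 : ℤ) * q ^ (-1 : ℤ) = q := by
      rw [← zpow_add₀ hq]
      norm_num
    simp only [Int.cast_neg, Int.cast_one, mul_one, one_mul, neg_mul] at hq1
    linear_combination (-1 : F) * hq1 - e4 - (q ^ (2 : ℤ) * q ^ (-1 : ℤ)) * e3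
  subst hq'
  have hρ : p⁻¹ ≠ 0 := inv_ne_zero hp
  have e1 : ∀ t, (mH p (-1) hp hq * hG2.nU r0) * hG2.xU lt7 t * (mH p (-1) hp hq * hG2.nU r0)⁻¹ = hG2.xU (hG2.neg_lt lt7) (p⁻¹ * p⁻¹ * t) := by
    intro t
    rw [mn_conj hp hq r0 lt7 (hG2.neg_lt lt7) (by decide +kernel) (a := -2) (b := 1) (ε := -1) (by decide +kernel) (by decide +kernel) (by decide +kernel)]
    apply hG2.xU_congr _ _ rfl
    have e2 : p ^ (-2 : ℤ) = p⁻¹ * p⁻¹ := by
      rw [zpow_neg, show (2 : ℤ) = ((2 : ℕ) : ℤ) by norm_num, zpow_natCast, pow_two, mul_inv]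
    rw [e2, zpow_one]
    simp only [Int.cast_neg, Int.cast_one]
    ring
  have e2 : ∀ t, (mH p (-1) hp hq * hG2.nU r0) * hG2.xU (hG2.neg_lt lt7) t * (mH p (-1) hp hq * hG2.nU r0)⁻¹ = hG2.xU lt7 ((p⁻¹ * p⁻¹)⁻¹ * t) := by
    intro t
    rw [mn_conj hp hq r0 (hG2.neg_lt lt7) lt7 (by decide +kernel) (a := 2) (b := -1) (ε := -1) (by decide +kernel) (by decide +kernel) (by decide +kernel)]
    apply hG2.xU_congr _ _ rfl
    have e2 : p ^ (2 : ℤ) = p * p := by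
      rw [show (2 : ℤ) = ((2 : ℕ) : ℤ) by norm_num, zpow_natCast, pow_two]
    rw [e2, zpow_neg, zpow_one]
    simp only [Int.cast_neg, Int.cast_one]
    field_simp
  obtain ⟨g, hg, eg⟩ := tw_step_sq hG2 rank1G2 h2 lt7 hρ e1 e2
  refine ⟨g, hg, ?_⟩
  rw [eg, hG2.nR_eq_hU lt7 (inv_ne_zero hρ), nR_eq7]
  have e5 : ∀ a b m : GL chevG2.Idx F, a * b * (m * b) = a * (b * m * b⁻¹) * (b * b) := by
    intro a b m
    group
  rw [e5]
  exact Subgroup.mul_mem _ (Subgroup.mul_mem _ (hG2.hU_mem _ _) (hG2.N_conj_H (hG2.nU_mem_N r0) (mH_mem hp hq))) (hG2.nU_sq_mem r0)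

lemma neg1_ne : (-1 : F) ≠ 0 := neg_ne_zero.2 one_ne_zero

/-- The distinguished involution. -/
noncomputable def t0 (F : Type*) [Field F] : GL chevG2.Idx F := mH (-1) (-1) (neg1_ne) (neg1_ne)

lemma hU_parity {r : ℕ} (hr : r < chevG2.nroots) (hn : (-1 : F) ≠ 0)
    (hpar : ∀ s, s < chevG2.nroots → (chevG2.pairing r s - chevG2.pairing 7 s - chevG2.pairing 6 s) % 2 = 0) :
    hG2.hU hr hn = t0 F := by
  apply Units.ext
  unfold t0 mH
  rw [Units.val_mul, hG2.hU_coe, hG2.hU_coe, hG2.hU_coe, hG2.hMat_eq hr hn, hG2.hMat_eq lt7 hn, hG2.hMat_eq lt6 hn, diagM_mul]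
  apply Tbl.Good2.diagM_congr
  intro s hs
  obtain ⟨k, hk⟩ := Int.dvd_of_emod_eq_zero (hpar s hs)
  have e : chevG2.pairing r s = chevG2.pairing 7 s + chevG2.pairing 6 s + 2 * k := by omega
  show (-1 : F) ^ chevG2.pairing r s = (-1 : F) ^ chevG2.pairing 7 s * (-1 : F) ^ chevG2.pairing 6 s
  rw [e, zpow_add₀ hn, zpow_add₀ hn, zpow_mul]
  simp

lemma hU_one' {r : ℕ} (hr : r < chevG2.nroots) (h1 : (1 : F) ≠ 0) : hG2.hU hr h1 = 1 := by
  apply Units.ext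
  rw [hG2.hU_coe, hG2.hMat_eq hr h1]
  simp only [one_zpow, Units.val_one]
  exact diagM_one

/-- The involutions of `H` are conjugate to `t0`. -/
lemma caseH {p q : F} (hp : p ≠ 0) (hq : q ≠ 0) (hsq : mH p q hp hq * mH p q hp hq = 1) (hne : mH p q hp hq ≠ 1) :
    ∃ g ∈ chevG2.group F, g * mH p q hp hq * g⁻¹ = t0 F := by
  have key6 := conj_conj_of_sq (hG2.xU lt6 (1 : F)) hsq
  have key7 := conj_conj_of_sq (hG2.xU lt7 (1 : F)) hsq
  have e6 := fun t : F => mH_conj hp hq lt6 (t := t) (a := -3) (b := 2) (by decide +kernel) (by decide +kernel)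
  have e7 := fun t : F => mH_conj hp hq lt7 (t := t) (a := 2) (b := -1) (by decide +kernel) (by decide +kernel)
  rw [e6, e6] at key6
  rw [e7, e7] at key7
  have f6 := xU_inj hG2 lt6 key6
  have f7 := xU_inj hG2 lt7 key7
  have hpp : p * p = 1 ∧ q * q = 1 := by
    have z3 : p ^ (-3 : ℤ) = (p ^ 3)⁻¹ := by
      rw [zpow_neg, show (3 : ℤ) = ((3 : ℕ) : ℤ) by norm_num, zpow_natCast]
    have z2 : q ^ (2 : ℤ) = q ^ 2 := by
      rw [show (2 : ℤ) = ((2 : ℕ) : ℤ) by norm_num, zpow_natCast]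
    have z2' : p ^ (2 : ℤ) = p ^ 2 := by
      rw [show (2 : ℤ) = ((2 : ℕ) : ℤ) by norm_num, zpow_natCast]
    have z1 : q ^ (-1 : ℤ) = q⁻¹ := by simp
    rw [z3, z2] at f6
    rw [z2', z1] at f7
    have g6 : q ^ 4 = p ^ 6 := by
      field_simp at f6
      linear_combination f6
    have g7 : p ^ 4 = q ^ 2 := by
      field_simp at f7
      linear_combination f7
    have g8 : p ^ 6 * (p * p - 1) = 0 := by
      have : q ^ 4 = (q ^ 2) ^ 2 := by ring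
      rw [this, ← g7] at g6
      linear_combination g6
    have g9 : p * p = 1 := by
      have := (mul_eq_zero.1 g8).resolve_left (pow_ne_zero _ hp)
      linear_combination this
    refine ⟨g9, ?_⟩
    have : p ^ 4 = (p * p) * (p * p) := by ring
    rw [this, g9] at g7
    linear_combination -g7
  obtain ⟨h3, h4⟩ := hpp
  rcases mul_self_eq_one_iff.1 h3 with rfl | rfl <;> rcases mul_self_eq_one_iff.1 h4 with rfl | rfl
  · exfalso
    apply hne
    unfold mH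
    rw [hU_one', hU_one', one_mul]
  · refine ⟨hG2.nU r0, hG2.N_le_group (hG2.nU_mem_N r0), ?_⟩
    unfold mH
    rw [hU_one', one_mul, hG2.nU_conj_h r0 lt6]
    exact hU_parity _ hq (by decide +kernel)
  · refine ⟨hG2.nU r1, hG2.N_le_group (hG2.nU_mem_N r1), ?_⟩
    unfold mH
    rw [hU_one', mul_one, hG2.nU_conj_h r1 lt7]
    exact hU_parity _ hp (by decide +kernel)
  · refine ⟨1, Subgroup.one_mem _, ?_⟩
    rw [one_mul, inv_one, mul_one]
    rfl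

lemma caseI0 (h2 : (2 : F) ≠ 0) {h : GL chevG2.Idx F} (hh : h ∈ chevG2.diagonalSubgroup F)
    (hsq : (h * hG2.nE 0) * (h * hG2.nE 0) = 1) (hne : h * hG2.nE 0 ≠ 1) :
    ∃ g ∈ chevG2.group F, g * (h * hG2.nE 0) * g⁻¹ = t0 F := by
  rw [hG2.nE_eq r0] at *
  obtain ⟨p, q, hp, hq, rfl⟩ := H_coords hh
  obtain ⟨g, hg, hm⟩ := caseC0 h2 hp hq hsq
  obtain ⟨p', q', hp', hq', em⟩ := H_coords hm
  have hsq' : mH p' q' hp' hq' * mH p' q' hp' hq' = 1 := by
    rw [← em]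
    exact conj_sq_one hsq
  have hne' : mH p' q' hp' hq' ≠ 1 := by
    rw [← em]
    exact conj_ne_one hne
  obtain ⟨g', hg', e'⟩ := caseH hp' hq' hsq' hne'
  refine ⟨g' * g, Subgroup.mul_mem _ hg' hg, ?_⟩
  rw [← e', ← em]
  group

lemma caseI1 (h2 : (2 : F) ≠ 0) {h : GL chevG2.Idx F} (hh : h ∈ chevG2.diagonalSubgroup F)
    (hsq : (h * hG2.nE 1) * (h * hG2.nE 1) = 1) (hne : h * hG2.nE 1 ≠ 1) :
    ∃ g ∈ chevG2.group F, g * (h * hG2.nE 1) * g⁻¹ = t0 F := by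
  rw [hG2.nE_eq r1] at *
  obtain ⟨p, q, hp, hq, rfl⟩ := H_coords hh
  obtain ⟨g, hg, hm⟩ := caseC1 h2 hp hq hsq
  obtain ⟨p', q', hp', hq', em⟩ := H_coords hm
  have hsq' : mH p' q' hp' hq' * mH p' q' hp' hq' = 1 := by
    rw [← em]
    exact conj_sq_one hsq
  have hne' : mH p' q' hp' hq' ≠ 1 := by
    rw [← em]
    exact conj_ne_one hne
  obtain ⟨g', hg', e'⟩ := caseH hp' hq' hsq' hne'
  refine ⟨g' * g, Subgroup.mul_mem _ hg' hg, ?_⟩
  rw [← e', ← em]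
  group

lemma caseRefl (h2 : (2 : F) ≠ 0) {m : List ℕ} {i : ℕ} (hm : ∀ j ∈ m, j < chevG2.rank) (hi : i = 0 ∨ i = 1)
    (htriv : ∀ r, r < chevG2.nroots → wperm digG2.tbl (m.reverse ++ m) r = r) {h : GL chevG2.Idx F}
    (hh : h ∈ chevG2.diagonalSubgroup F) (hsq : (h * hG2.nProd (m ++ i :: m.reverse)) * (h * hG2.nProd (m ++ i :: m.reverse)) = 1)
    (hne : h * hG2.nProd (m ++ i :: m.reverse) ≠ 1) :
    ∃ g ∈ chevG2.group F, g * (h * hG2.nProd (m ++ i :: m.reverse)) * g⁻¹ = t0 F := by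
  have hi' : i < chevG2.rank := by
    rcases hi with rfl | rfl
    · exact r0
    · exact r1
  obtain ⟨y, hy, h₃, hh₃, ey⟩ := refl_red hG2 hm hi' htriv hh
  have hsq' : (h₃ * hG2.nE i) * (h₃ * hG2.nE i) = 1 := by
    rw [← ey]
    exact conj_sq_one hsq
  have hne' : h₃ * hG2.nE i ≠ 1 := by
    rw [← ey]
    exact conj_ne_one hne
  obtain ⟨g, hg, eg⟩ : ∃ g ∈ chevG2.group F, g * (h₃ * hG2.nE i) * g⁻¹ = t0 F := by
    rcases hi with rfl | rfl
    · exact caseI0 h2 hh₃ hsq' hne'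
    · exact caseI1 h2 hh₃ hsq' hne'
  refine ⟨g * y, Subgroup.mul_mem _ hg hy, ?_⟩
  rw [← eg, ← ey]
  group

end Cfsg.Agent.Lib.Coll.G2Odd
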