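/-
The centraliser of a regular element of the diagonal subgroup of a Chevalley group.
-/
import Cfsg.Agent.Lib.Chev.Canon
import Cfsg.Agent.Lib.Chev.HForm
import Cfsg.Agent.Lib.Chev.Mono2

set_option autoImplicit false

namespace Cfsg.Agent.Lib.Chev

open Cfsg.Lie

section

variable {F : Type*} [Field F] {D : ChevalleyDatum} {T : Tbl}

lemma IsChar.mulC {χ χ' : ℕ → F} (h : IsChar D χ) (h' : IsChar D χ') : IsChar D (fun s => χ s * χ' s) := by
  constructor
  · intro r hr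
    show χ (D.neg r) * χ' (D.neg r) * (χ r * χ' r) = 1
    have e1 := h.neg r hr
    have e2 := h'.neg r hr
    linear_combination χ' (D.neg r) * χ' r * e1 + e2
  · intro r s hr hs q hq
    show χ q.1.1 * χ' q.1.1 = χ s * χ' s * (χ r * χ' r) ^ (q.2 + 1)
    rw [h.chain r s hr hs q hq, h'.chain r s hr hs q hq, mul_pow]
    ring

namespace Tbl.Good2

variable (hG : T.Good2 D)
include hG

lemma reg_conj {χ : ℕ → F} (hχ : IsChar D χ) {h : GL D.Idx F} (hh : (h : Matrix D.Idx D.Idx F) = diagM D F χ)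
    {r : ℕ} (hr : r < D.nroots) (t : F) :
    h * hG.xU hr t * h⁻¹ = hG.xU hr (χ r * t) := by
  rw [mul_inv_eq_iff_eq_mul]
  apply Units.ext
  rw [Units.val_mul, Units.val_mul, hh, Tbl.Good.xU_coe, Tbl.Good.xU_coe]
  exact diag_mul_x hG.sane hχ hr t

lemma reg_word {χ : ℕ → F} (hχ : IsChar D χ) (l : List (ℕ × F)) (hl : ∀ e ∈ l, e.1 < D.nroots) :
    diagM D F χ * D.wordMat F l = D.wordMat F (l.map fun e => (e.1, χ e.1 * e.2)) * diagM D F χ := by
  induction l with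
  | nil => simp [wordMat_nil]
  | cons e l ih =>
    rw [List.map_cons, wordMat_cons, wordMat_cons, ← mul_assoc, diag_mul_x hG.sane hχ (hl e (by simp)), mul_assoc,
      ih (fun e' he' => hl e' (List.mem_cons_of_mem _ he')), mul_assoc]

omit hG in
lemma word_zero (l : List ℕ) : D.wordMat F (l.map fun r => (r, (0 : F))) = 1 := by
  induction l with
  | nil => simp [wordMat_nil]
  | cons e l ih => rw [List.map_cons, wordMat_cons, x_zero, ih, one_mul]

/-- An element of `U` commuting with a regular element of `H` is trivial. -/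
lemma reg_U_eq_one {χ : ℕ → F} (hχ : IsChar D χ) {h : GL D.Idx F} (hh : (h : Matrix D.Idx D.Idx F) = diagM D F χ)
    (h1 : ∀ r, r < D.nroots → χ r ≠ 1) {u : GL D.Idx F} (hu : u ∈ D.posUnipotent F) (hc : h * u * h⁻¹ = u) : u = 1 := by
  obtain ⟨t, ⟨ht0, e⟩, huniq⟩ := hG.U_normal_form.1 u hu
  have hposR : ∀ r ∈ D.posRoots, D.IsPosRoot r := fun r hr => of_decide_eq_true (List.mem_filter.1 hr).2
  have hpos : ∀ r ∈ D.posRoots, r < D.nroots := fun r hr => (hposR r hr).1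
  have e1 : (u : Matrix D.Idx D.Idx F) = D.wordMat F (D.posRoots.map fun r => (r, χ r * t r)) := by
    have e2 : h * u = u * h := by
      rw [mul_inv_eq_iff_eq_mul] at hc
      exact hc
    have e3 := congrArg Units.val e2
    rw [Units.val_mul, Units.val_mul, hh, e, hG.reg_word hχ _ (by
      intro x hx
      obtain ⟨r, hr, rfl⟩ := List.mem_map.1 hx
      exact hpos r hr), List.map_map] at e3
    have hdet : IsUnit (diagM D F χ) := by
      rw [← hh]
      exact h.isUnit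
    have e4 := hdet.mul_right_cancel e3
    rw [e]
    exact e4.symm
  have e5 := huniq (fun r => χ r * t r) ⟨fun r hr => by simp only [ht0 r hr, mul_zero], e1⟩
  have e6 : ∀ r, D.IsPosRoot r → t r = 0 := by
    intro r hr
    have e7 : χ r * t r = t r := congrFun e5 r
    have e8 : (χ r - 1) * t r = 0 := by
      rw [sub_mul, e7, one_mul, sub_self]
    rcases mul_eq_zero.1 e8 with e9 | e9
    · exact absurd (sub_eq_zero.1 e9) (h1 r hr.1)
    · exact e9
  apply Units.ext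
  rw [e, Units.val_one]
  have e7 : (D.posRoots.map fun r => (r, t r)) = D.posRoots.map fun r => (r, (0 : F)) := by
    apply List.map_congr_left
    intro r hr
    rw [e6 r (hposR r hr)]
  rw [e7, word_zero]

/-- The centraliser of a regular element of `H` lies in `H`. -/
theorem reg_centralizer {χ : ℕ → F} (hχ : IsChar D χ) {h : GL D.Idx F} (hh : (h : Matrix D.Idx D.Idx F) = diagM D F χ)
    (hhH : h ∈ D.diagonalSubgroup F) (hinj : ∀ r s, r < D.nroots → s < D.nroots → χ r = χ s → r = s)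
    (h1 : ∀ r, r < D.nroots → χ r ≠ 1) {g : GL D.Idx F} (hg : g ∈ D.group F) (hc : h * g * h⁻¹ = g) :
    g ∈ D.diagonalSubgroup F := by
  obtain ⟨hex, huniq⟩ := hG.canonical_form (F := F)
  obtain ⟨b, hb, n, hn, u, hu, rfl⟩ := hex g hg
  have hhB : h ∈ D.borelSubgroup F := le_borel_H hhH
  have hcH : h * n * h⁻¹ * n⁻¹ ∈ D.diagonalSubgroup F := by
    have e : h * n * h⁻¹ * n⁻¹ = h * (n * h⁻¹ * n⁻¹) := by group
    rw [e]
    exact Subgroup.mul_mem _ hhH (hG.N_conj_H hn (Subgroup.inv_mem _ hhH))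
  have hb' : h * b * h⁻¹ * (h * n * h⁻¹ * n⁻¹) ∈ D.borelSubgroup F :=
    Subgroup.mul_mem _ (Subgroup.mul_mem _ (Subgroup.mul_mem _ hhB hb) (Subgroup.inv_mem _ hhB)) (le_borel_H hcH)
  have hu' : h * u * h⁻¹ ∈ Subgroup.closure {x : GL D.Idx F | ∃ (r : ℕ) (t : F), D.IsPosRoot r ∧
      (D.rootSubgroup F r).map (MulAut.conj n).toMonoidHom ≤ D.negUnipotent F ∧ (x : Matrix D.Idx D.Idx F) = D.x F r t} := by
    clear hg hc
    induction hu using Subgroup.closure_induction with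
    | mem x hx =>
      obtain ⟨r, t, hr, hP, hx⟩ := hx
      have e1 : x = hG.xU hr.1 t := hG.eq_xU hr.1 hx
      rw [e1, hG.reg_conj hχ hh hr.1]
      exact Subgroup.subset_closure ⟨r, _, hr, hP, rfl⟩
    | one => simp
    | mul a b _ _ ha hb =>
      have e : h * (a * b) * h⁻¹ = (h * a * h⁻¹) * (h * b * h⁻¹) := by group
      rw [e]
      exact Subgroup.mul_mem _ ha hb
    | inv a _ ha =>
      have e : h * a⁻¹ * h⁻¹ = (h * a * h⁻¹)⁻¹ := by group
      rw [e]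
      exact Subgroup.inv_mem _ ha
  have e : h * b * h⁻¹ * (h * n * h⁻¹ * n⁻¹) * n * (h * u * h⁻¹) = b * n * u := by
    have e' : h * b * h⁻¹ * (h * n * h⁻¹ * n⁻¹) * n * (h * u * h⁻¹) = h * (b * n * u) * h⁻¹ := by group
    rw [e', hc]
  obtain ⟨-, h2⟩ := huniq _ _ n n _ _ hb' hb hn hn hu' hu e
  obtain ⟨e1, e2⟩ := h2 rfl
  have huU : u ∈ D.posUnipotent F := by
    refine (Subgroup.closure_mono ?_) hu
    rintro x ⟨r, t, hr, _, hx⟩
    exact ⟨r, t, hr, hx⟩
  have hu1 : u = 1 := hG.reg_U_eq_one hχ hh h1 huU e2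
  obtain ⟨h₁, hh₁, u₁, hu₁, rfl⟩ := hG.mem_borel' hb
  have hcomm : h * h₁ = h₁ * h := diagSub_comm (hG.diagonalSubgroup_le hhH) (hG.diagonalSubgroup_le hh₁)
  have e3 : (h * u₁ * h⁻¹) * (h * n * h⁻¹ * n⁻¹) = u₁ := by
    have e4 : h * (h₁ * u₁) * h⁻¹ * (h * n * h⁻¹ * n⁻¹) = h₁ * ((h * u₁ * h⁻¹) * (h * n * h⁻¹ * n⁻¹)) := by
      have e5 : h * (h₁ * u₁) = h₁ * (h * u₁) := by rw [← mul_assoc, hcomm, mul_assoc]
      rw [e5]
      group
    rw [e4] at e1
    exact mul_left_cancel e1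
  have hconjU : h * u₁ * h⁻¹ ∈ D.posUnipotent F :=
    (Subgroup.mem_normalizer_iff.1 (hG.H_le_normalizer_U hhH) u₁).1 hu₁
  have hcU : h * n * h⁻¹ * n⁻¹ ∈ D.posUnipotent F := by
    have e4 : h * n * h⁻¹ * n⁻¹ = (h * u₁ * h⁻¹)⁻¹ * u₁ := by
      rw [eq_inv_mul_iff_mul_eq]
      exact e3
    rw [e4]
    exact Subgroup.mul_mem _ (Subgroup.inv_mem _ hconjU) hu₁
  have hc1 : h * n * h⁻¹ * n⁻¹ = 1 := by
    have h5 : h * n * h⁻¹ * n⁻¹ ∈ D.posUnipotent F ⊓ D.diagonalSubgroup F := ⟨hcU, hcH⟩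
    rw [hG.U_inf_H, Subgroup.mem_bot] at h5
    exact h5
  have e6 : h * u₁ * h⁻¹ = u₁ := by
    rw [hc1, mul_one] at e3
    exact e3
  have hu₁1 : u₁ = 1 := hG.reg_U_eq_one hχ hh h1 hu₁ e6
  have hnh : h * n * h⁻¹ = n := by
    rw [mul_inv_eq_one] at hc1
    exact hc1
  obtain ⟨h₂, hh₂, l, hl, rfl⟩ := hG.N_form hn
  have hcomm2 : h * h₂ = h₂ * h := diagSub_comm (hG.diagonalSubgroup_le hhH) (hG.diagonalSubgroup_le hh₂)
  generalize hwe : hG.nProd (F := F) l = w at hnh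
  have hw : h * w * h⁻¹ = w := by
    have e7 : h * (h₂ * w) * h⁻¹ = h₂ * (h * w * h⁻¹) := by
      have e8 : h * (h₂ * w) = h₂ * (h * w) := by rw [← mul_assoc, hcomm2, mul_assoc]
      rw [e8]
      group
    rw [e7] at hnh
    exact mul_left_cancel hnh
  have hwp : ∀ r, r < D.nroots → wperm T l r = r := by
    intro r hr
    obtain ⟨c₀, hc₀, e8⟩ := hG.nProd_conj_x (F := F) hl hr
    rw [hwe] at e8
    have hc₀' : c₀ ≠ 0 := by rcases hc₀ with rfl | rfl <;> simp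
    have e9 : h * (w * hG.xU hr 1 * w⁻¹) * h⁻¹ =
        (h * w * h⁻¹) * (h * hG.xU hr 1 * h⁻¹) * (h * w * h⁻¹)⁻¹ := by group
    rw [hw, hG.reg_conj hχ hh hr, e8, hG.reg_conj hχ hh (hG.wperm_lt hl hr), e8] at e9
    have e10 := hG.x_inj (F := F) (hG.wperm_lt hl hr) (congrArg Units.val e9)
    apply hinj _ _ (hG.wperm_lt hl hr) hr
    apply mul_right_cancel₀ hc₀'
    rw [mul_one] at e10
    rw [mul_comm (χ r)]
    simpa [mul_one] using e10
  have hH := hG.nProd_mem_H (F := F) _ l rfl hl hwp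
  rw [hwe] at hH
  rw [hu₁1, hu1]
  simpa using Subgroup.mul_mem _ hh₁ (Subgroup.mul_mem _ hh₂ hH)

end Tbl.Good2

end

end Cfsg.Agent.Lib.Chev
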