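/-
`G₂(q)`, `q` odd: the order of the centraliser of an involution.
-/
import Cfsg.Agent.Lib.Coll.G2OddD
import Cfsg.Agent.Lib.Coll.RegCent
import Cfsg.Agent.Lib.Chev.SmithAll
import Cfsg.Agent.Lib.Chev.Checks3

set_option autoImplicit false

namespace Cfsg.Agent.Lib.Coll.G2Odd

open Cfsg.Lie Cfsg.Agent.Lib.Chev

lemma lt2 : 2 < chevG2.nroots := by decide +kernel
lemma lt5 : 5 < chevG2.nroots := by decide +kernel
lemma lt9 : 9 < chevG2.nroots := by decide +kernel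

variable {F : Type*} [Field F]

/-- The involution `h_b(-1)`. -/
noncomputable def t1 (F : Type*) [Field F] : GL chevG2.Idx F := hG2.hU lt6 (neg1_ne (F := F))

lemma t1_coe : ((t1 F : GL chevG2.Idx F) : Matrix chevG2.Idx chevG2.Idx F) = diagM chevG2 F (fun s => (-1 : F) ^ chevG2.pairing 6 s) := by
  rw [t1, hG2.hU_coe, hG2.hMat_eq lt6 neg1_ne]

lemma t1_char : IsChar chevG2 (fun s => (-1 : F) ^ chevG2.pairing 6 s) :=
  isChar_zpow (hG2.addF_pairing 6) neg1_ne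

lemma t1_mem : t1 F ∈ chevG2.diagonalSubgroup F := hG2.hU_mem lt6 neg1_ne

lemma t1_conj {r : ℕ} (hr : r < chevG2.nroots) (s : F) :
    t1 F * hG2.xU hr s * (t1 F)⁻¹ = hG2.xU hr ((-1 : F) ^ chevG2.pairing 6 r * s) :=
  hG2.hU_conj_x lt6 hr neg1_ne s

lemma neg1_even {a : ℤ} (h : a % 2 = 0) : (-1 : F) ^ a = 1 :=
  Even.neg_one_zpow (Int.even_iff.2 h)

lemma neg1_odd {a : ℤ} (h : a % 2 = 1) : (-1 : F) ^ a = -1 :=
  Odd.neg_one_zpow (Int.odd_iff.2 h)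

lemma t1_conj6 (s : F) : t1 F * hG2.xU lt6 s * (t1 F)⁻¹ = hG2.xU lt6 s := by
  rw [t1_conj, neg1_even (by decide +kernel), one_mul]

lemma t1_conj9 (s : F) : t1 F * hG2.xU lt9 s * (t1 F)⁻¹ = hG2.xU lt9 s := by
  rw [t1_conj, neg1_even (by decide +kernel), one_mul]

/-- Root elements commute when no commutator terms occur. -/
lemma x_commute {r s : ℕ} (hr : r < chevG2.nroots) (hs : s < chevG2.nroots) (h1 : s ≠ r) (h2 : s ≠ chevG2.neg r)
    (ht : chevG2.commTerms r s = []) (a b : F) : hG2.xU hs b * hG2.xU hr a = hG2.xU hr a * hG2.xU hs b := by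
  apply Units.ext
  have e := hG2.toGood.x_comm (F := F) hr hs h1 h2 a b
  rw [ChevalleyDatum.commWord, ht, List.map_nil, wordMat_nil, mul_one] at e
  exact e

lemma x9_x6 (a b : F) : hG2.xU lt9 b * hG2.xU lt6 a = hG2.xU lt6 a * hG2.xU lt9 b :=
  x_commute lt6 lt9 (by decide +kernel) (by decide +kernel) (by decide +kernel) a b

/-- The centraliser of `t1` in `U`. -/
lemma CU_form (h2 : (2 : F) ≠ 0) {u : GL chevG2.Idx F} (hu : u ∈ chevG2.posUnipotent F)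
    (hc : t1 F * u * (t1 F)⁻¹ = u) : ∃ α β : F, u = hG2.xU lt6 α * hG2.xU lt9 β := by
  have hG := hG2
  obtain ⟨τ, ⟨ht0, e⟩, huniq⟩ := hG2.U_normal_form.1 u hu
  have hposR : ∀ r ∈ chevG2.posRoots, chevG2.IsPosRoot r := fun r hr => of_decide_eq_true (List.mem_filter.1 hr).2
  have hpos : ∀ r ∈ chevG2.posRoots, r < chevG2.nroots := fun r hr => (hposR r hr).1
  have e1 : (u : Matrix chevG2.Idx chevG2.Idx F) = chevG2.wordMat F (chevG2.posRoots.map fun r => (r, (-1 : F) ^ chevG2.pairing 6 r * τ r)) := by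
    have e2 : t1 F * u = u * t1 F := by
      rw [mul_inv_eq_iff_eq_mul] at hc
      exact hc
    have e3 := congrArg Units.val e2
    rw [Units.val_mul, Units.val_mul, t1_coe, e, hG2.reg_word t1_char _ (by
      intro x hx
      obtain ⟨r, hr, rfl⟩ := List.mem_map.1 hx
      exact hpos r hr), List.map_map] at e3
    have hdet : IsUnit (diagM chevG2 F (fun s => (-1 : F) ^ chevG2.pairing 6 s)) := by
      rw [← t1_coe]
      exact (t1 F).isUnit
    have e4 := hdet.mul_right_cancel e3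
    rw [e]
    exact e4.symm
  have e5 := huniq (fun r => (-1 : F) ^ chevG2.pairing 6 r * τ r) ⟨fun r hr => by simp only [ht0 r hr, mul_zero], e1⟩
  have e6 : ∀ r, chevG2.pairing 6 r % 2 = 1 → τ r = 0 := by
    intro r hr
    have e7 : (-1 : F) ^ chevG2.pairing 6 r * τ r = τ r := congrFun e5 r
    rw [neg1_odd hr] at e7
    have e8 : 2 * τ r = 0 := by linear_combination -e7
    exact (mul_eq_zero.1 e8).resolve_left h2
  have eR : chevG2.posRoots = [6, 7, 8, 9, 10, 11] := by decide +kernel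
  rw [eR] at e
  simp only [List.map_cons, List.map_nil] at e
  rw [e6 7 (by decide +kernel), e6 8 (by decide +kernel), e6 10 (by decide +kernel), e6 11 (by decide +kernel)] at e
  simp only [wordMat_cons, wordMat_nil, x_zero, one_mul, mul_one] at e
  refine ⟨τ 6, τ 9, ?_⟩
  apply Units.ext
  rw [e, Units.val_mul]
  rfl

lemma t1_conj_U {u : GL chevG2.Idx F} (hu : u ∈ chevG2.posUnipotent F) : t1 F * u * (t1 F)⁻¹ ∈ chevG2.posUnipotent F := by
  refine conj_mem_of_gen _ ?_ hu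
  rintro y ⟨r, t, hr, hy⟩
  rw [hG2.eq_xU hr.1 hy, t1_conj hr.1]
  exact Subgroup.subset_closure ⟨r, _, hr, rfl⟩

lemma H_comm {a b : GL chevG2.Idx F} (ha : a ∈ chevG2.diagonalSubgroup F) (hb : b ∈ chevG2.diagonalSubgroup F) : a * b = b * a :=
  diagSub_comm (hG2.diagonalSubgroup_le ha) (hG2.diagonalSubgroup_le hb)

lemma hU_parity2 {r r' : ℕ} (hr : r < chevG2.nroots) (hr' : r' < chevG2.nroots) (hn : (-1 : F) ≠ 0)
    (hpar : ∀ s, s < chevG2.nroots → (chevG2.pairing r s - chevG2.pairing r' s) % 2 = 0) :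
    hG2.hU hr hn = hG2.hU hr' hn := by
  apply Units.ext
  rw [hG2.hU_coe, hG2.hU_coe, hG2.hMat_eq hr hn, hG2.hMat_eq hr' hn]
  apply Tbl.Good2.diagM_congr
  intro s hs
  obtain ⟨k, hk⟩ := Int.dvd_of_emod_eq_zero (hpar s hs)
  have e : chevG2.pairing r s = chevG2.pairing r' s + 2 * k := by omega
  show (-1 : F) ^ chevG2.pairing r s = (-1 : F) ^ chevG2.pairing r' s
  rw [e, zpow_add₀ hn, zpow_mul]
  simp

lemma nProd_conj_hU {l : List ℕ} (hl : ∀ i ∈ l, i < chevG2.rank) {r : ℕ} (hr : r < chevG2.nroots) {c : F} (hc : c ≠ 0) :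
    hG2.nProd l * hG2.hU hr hc * (hG2.nProd l)⁻¹ = hG2.hU (hG2.wperm_lt hl hr) hc := by
  induction l with
  | nil => simp
  | cons i l ih =>
    have hl' : ∀ j ∈ l, j < chevG2.rank := fun j hj => hl j (List.mem_cons_of_mem _ hj)
    have hi := hl i (by simp)
    rw [hG2.nProd_cons, hG2.nE_eq hi]
    have e : ∀ a b x : GL chevG2.Idx F, (a * b) * x * (a * b)⁻¹ = a * (b * x * b⁻¹) * a⁻¹ := by
      intro a b x
      group
    rw [e, ih hl', hG2.nU_conj_h hi]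
    rfl

/-- The four coset representatives. -/
def lwL : Option F → Option F → List ℕ
  | none, none => []
  | some _, none => [1]
  | none, some _ => [0, 1, 0, 1, 0]
  | some _, some _ => [0, 1, 0, 1, 0, 1]

lemma lwL_idx (o₁ o₂ : Option F) : ∀ i ∈ lwL o₁ o₂, i < chevG2.rank := by
  cases o₁ <;> cases o₂ <;> simp only [lwL] <;> decide +kernel

lemma perm6_none (o₂ : Option F) : wperm digG2.tbl (lwL none o₂) 6 = 6 := by
  cases o₂ <;> simp only [lwL] <;> decide +kernel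

lemma perm6_some (γ : F) (o₂ : Option F) : wperm digG2.tbl (lwL (some γ) o₂) 6 = 5 := by
  cases o₂ <;> simp only [lwL] <;> decide +kernel

lemma perm9_none (o₁ : Option F) : wperm digG2.tbl (lwL o₁ none) 9 = 9 := by
  cases o₁ <;> simp only [lwL] <;> decide +kernel

lemma perm9_some (o₁ : Option F) (δ : F) : wperm digG2.tbl (lwL o₁ (some δ)) 9 = 2 := by
  cases o₁ <;> simp only [lwL] <;> decide +kernel

lemma lwL_par (o₁ o₂ : Option F) : ∀ s, s < chevG2.nroots →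
    (chevG2.pairing (wperm digG2.tbl (lwL o₁ o₂) 6) s - chevG2.pairing 6 s) % 2 = 0 := by
  cases o₁ <;> cases o₂ <;> simp only [lwL] <;> decide +kernel

lemma lwL_comm (o₁ o₂ : Option F) : hG2.nProd (lwL o₁ o₂) * t1 F * (hG2.nProd (lwL o₁ o₂))⁻¹ = t1 F := by
  rw [t1, nProd_conj_hU (lwL_idx o₁ o₂)]
  exact hU_parity2 _ _ _ (lwL_par o₁ o₂)

/-- The parts of `U`. -/
noncomputable def u6 : Option F → GL chevG2.Idx F
  | none => 1
  | some γ => hG2.xU lt6 γ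

/-- The parts of `U`. -/
noncomputable def u9 : Option F → GL chevG2.Idx F
  | none => 1
  | some δ => hG2.xU lt9 δ

lemma u6_comm (o : Option F) : t1 F * u6 o * (t1 F)⁻¹ = u6 o := by
  cases o with
  | none => simp [u6]
  | some γ => exact t1_conj6 γ

lemma u9_comm (o : Option F) : t1 F * u9 o * (t1 F)⁻¹ = u9 o := by
  cases o with
  | none => simp [u9]
  | some γ => exact t1_conj9 γ

/-- The closure occurring in the canonical form. -/
abbrev Cl (n : GL chevG2.Idx F) : Subgroup (GL chevG2.Idx F) :=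
  Subgroup.closure {x : GL chevG2.Idx F | ∃ (r : ℕ) (t : F), chevG2.IsPosRoot r ∧
    (chevG2.rootSubgroup F r).map (MulAut.conj n).toMonoidHom ≤ chevG2.negUnipotent F ∧ (x : Matrix chevG2.Idx chevG2.Idx F) = chevG2.x F r t}

lemma gen_mem {l : List ℕ} (hl : ∀ i ∈ l, i < chevG2.rank) {r : ℕ} (hr : r < chevG2.nroots) (hpos : chevG2.IsPosRoot r)
    (hneg : wperm digG2.tbl l r < chevG2.nroots / 2) (s : F) : hG2.xU hr s ∈ Cl (hG2.nProd (F := F) l) := by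
  refine Subgroup.subset_closure ⟨r, s, hpos, ?_, rfl⟩
  rintro _ ⟨g, hg, rfl⟩
  obtain ⟨a, rfl⟩ := hG2.rootSubgroup_mem hr hg
  show hG2.nProd l * hG2.xU hr a * (hG2.nProd l)⁻¹ ∈ _
  obtain ⟨c, _, e⟩ := hG2.nProd_conj_x (F := F) hl hr
  rw [e]
  exact hG2.xU_mem_V _ hneg _

lemma pos6 : chevG2.IsPosRoot 6 := (hG2.isPos_iff lt6).2 (by decide +kernel)
lemma pos9 : chevG2.IsPosRoot 9 := (hG2.isPos_iff lt9).2 (by decide +kernel)

lemma lwL_cl (o₁ o₂ : Option F) : u6 o₁ * u9 o₂ ∈ Cl (hG2.nProd (F := F) (lwL o₁ o₂)) := by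
  have h5 : (5 : ℕ) < chevG2.nroots / 2 := by decide +kernel
  have h2 : (2 : ℕ) < chevG2.nroots / 2 := by decide +kernel
  refine Subgroup.mul_mem _ ?_ ?_
  · cases o₁ with
    | none => exact Subgroup.one_mem _
    | some γ =>
      refine gen_mem (lwL_idx _ _) lt6 pos6 ?_ γ
      rw [perm6_some]
      exact h5
  · cases o₂ with
    | none => exact Subgroup.one_mem _
    | some γ =>
      refine gen_mem (lwL_idx _ _) lt9 pos9 ?_ γ
      rw [perm9_some]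
      exact h2

/-- The parametrisation of the centraliser. -/
noncomputable def phiC (p : F × F × ↥(chevG2.diagonalSubgroup F) × Option F × Option F) : GL chevG2.Idx F :=
  hG2.xU lt6 p.1 * hG2.xU lt9 p.2.1 * (p.2.2.1 : GL chevG2.Idx F) * hG2.nProd (lwL p.2.2.2.1 p.2.2.2.2) * (u6 p.2.2.2.1 * u9 p.2.2.2.2)

/-- The centraliser of `t1` in `G`. -/
def KC (F : Type*) [Field F] : Set (GL chevG2.Idx F) := {g | g ∈ chevG2.group F ∧ t1 F * g * (t1 F)⁻¹ = g}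

lemma x6_mem_U (s : F) : hG2.xU lt6 s ∈ chevG2.posUnipotent F := hG2.xU_mem_U lt6 (by decide +kernel) s
lemma x9_mem_U (s : F) : hG2.xU lt9 s ∈ chevG2.posUnipotent F := hG2.xU_mem_U lt9 (by decide +kernel) s

lemma u6_mem (o : Option F) : u6 o ∈ chevG2.group F := by
  cases o with
  | none => exact Subgroup.one_mem _
  | some γ => exact xU_mem_G hG2 lt6 γ

lemma u9_mem (o : Option F) : u9 o ∈ chevG2.group F := by
  cases o with
  | none => exact Subgroup.one_mem _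
  | some γ => exact xU_mem_G hG2 lt9 γ

lemma phiC_mem (p : F × F × ↥(chevG2.diagonalSubgroup F) × Option F × Option F) : phiC p ∈ KC F := by
  obtain ⟨α, β, h, o₁, o₂⟩ := p
  constructor
  · exact Subgroup.mul_mem _ (Subgroup.mul_mem _ (Subgroup.mul_mem _ (Subgroup.mul_mem _ (xU_mem_G hG2 lt6 α) (xU_mem_G hG2 lt9 β))
      (hG2.H_le_group h.2)) (hG2.N_le_group (hG2.nProd_mem_N (lwL_idx _ _)))) (Subgroup.mul_mem _ (u6_mem _) (u9_mem _))
  · show t1 F * (hG2.xU lt6 α * hG2.xU lt9 β * (h : GL chevG2.Idx F) * hG2.nProd (lwL o₁ o₂) * (u6 o₁ * u9 o₂)) * (t1 F)⁻¹ = _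
    have e0 : t1 F * (h : GL chevG2.Idx F) * (t1 F)⁻¹ = h := by
      rw [H_comm t1_mem h.2]
      group
    have e : ∀ t a b c d e f : GL chevG2.Idx F, t * (a * b * c * d * (e * f)) * t⁻¹ =
        (t * a * t⁻¹) * (t * b * t⁻¹) * (t * c * t⁻¹) * (t * d * t⁻¹) * ((t * e * t⁻¹) * (t * f * t⁻¹)) := by
      intro t a b c d e f
      group
    have e1 := lwL_comm o₁ o₂ (F := F)
    have e2 : t1 F * hG2.nProd (lwL o₁ o₂) * (t1 F)⁻¹ = hG2.nProd (lwL o₁ o₂) := by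
      have e3 : hG2.nProd (lwL o₁ o₂) * t1 F = t1 F * hG2.nProd (lwL o₁ o₂) := by
        rw [mul_inv_eq_iff_eq_mul] at e1
        exact e1
      rw [← e3]
      group
    rw [e, t1_conj6, t1_conj9, e0, e2, u6_comm, u9_comm]
    rfl

lemma xx_inj {a b a' b' : F} (h : hG2.xU lt6 a * hG2.xU lt9 b = hG2.xU lt6 a' * hG2.xU lt9 b') : a = a' ∧ b = b' := by
  have e1 : hG2.xU lt6 (-a' + a) = hG2.xU lt9 (b' + -b) := by
    rw [← hG2.xU_mul, ← hG2.xU_mul, ← hG2.xU_inv, ← hG2.xU_inv]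
    generalize hG2.xU lt6 a = x at h ⊢
    generalize hG2.xU lt9 b = y at h ⊢
    generalize hG2.xU lt6 a' = x' at h ⊢
    generalize hG2.xU lt9 b' = y' at h ⊢
    have e4 : x = x' * y' * y⁻¹ := by rw [← h]; group
    rw [e4]
    group
  have hs : -a' + a = 0 := by
    by_contra hne
    have := hG2.x_root_unique lt6 lt9 hne (congrArg Units.val e1)
    omega
  have ha : a = a' := by linear_combination hs
  subst ha
  exact ⟨rfl, xU_inj hG2 lt9 (mul_left_cancel h)⟩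

lemma bb_inj {α β α' β' : F} {h h' : GL chevG2.Idx F} (hh : h ∈ chevG2.diagonalSubgroup F) (hh' : h' ∈ chevG2.diagonalSubgroup F)
    (e : hG2.xU lt6 α * hG2.xU lt9 β * h = hG2.xU lt6 α' * hG2.xU lt9 β' * h') : α = α' ∧ β = β' ∧ h = h' := by
  have e1 : (hG2.xU lt6 α' * hG2.xU lt9 β')⁻¹ * (hG2.xU lt6 α * hG2.xU lt9 β) = h' * h⁻¹ := by
    have e2 : hG2.xU lt6 α * hG2.xU lt9 β = hG2.xU lt6 α' * hG2.xU lt9 β' * h' * h⁻¹ := by
      rw [← e]
      group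
    rw [e2]
    group
  have hU1 : h' * h⁻¹ ∈ chevG2.posUnipotent F := by
    rw [← e1]
    exact Subgroup.mul_mem _ (Subgroup.inv_mem _ (Subgroup.mul_mem _ (x6_mem_U _) (x9_mem_U _)))
      (Subgroup.mul_mem _ (x6_mem_U _) (x9_mem_U _))
  have hmem : h' * h⁻¹ ∈ chevG2.posUnipotent F ⊓ chevG2.diagonalSubgroup F := ⟨hU1, Subgroup.mul_mem _ hh' (Subgroup.inv_mem _ hh)⟩
  rw [hG2.U_inf_H, Subgroup.mem_bot] at hmem
  have e3 : h' = h := mul_inv_eq_one.1 hmem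
  subst e3
  obtain ⟨h1, h2⟩ := xx_inj (mul_right_cancel e)
  exact ⟨h1, h2, rfl⟩

lemma perm_of_H {l l' : List ℕ} (hl : ∀ i ∈ l, i < chevG2.rank) (hl' : ∀ i ∈ l', i < chevG2.rank)
    (hd : (hG2.nProd (F := F) l)⁻¹ * hG2.nProd l' ∈ chevG2.diagonalSubgroup F) {r : ℕ} (hr : r < chevG2.nroots) :
    wperm digG2.tbl l r = wperm digG2.tbl l' r := by
  obtain ⟨c₁, hc₁, e₁⟩ := hG2.nProd_conj_x (F := F) hl hr
  obtain ⟨c₂, hc₂, e₂⟩ := hG2.nProd_conj_x (F := F) hl' hr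
  obtain ⟨c₃, hc₃, e₃⟩ := hG2.H_conj_x hd hr
  have e : hG2.nProd (F := F) l' = hG2.nProd l * ((hG2.nProd l)⁻¹ * hG2.nProd l') := by group
  have e4 := e₂ 1
  rw [e] at e4
  have e5 : ∀ a b x : GL chevG2.Idx F, (a * b) * x * (a * b)⁻¹ = a * (b * x * b⁻¹) * a⁻¹ := by
    intro a b x
    group
  rw [e5, e₃, e₁] at e4
  have hne : c₁ * (c₃ * 1) ≠ 0 := by
    have : c₁ ≠ 0 := by rcases hc₁ with rfl | rfl <;> simp
    exact mul_ne_zero this (by simpa using hc₃)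
  exact hG2.x_root_unique (hG2.wperm_lt hl hr) (hG2.wperm_lt hl' hr) hne (congrArg Units.val e4)

/-- The parametrisation is injective. -/
lemma phiC_inj {p p' : F × F × ↥(chevG2.diagonalSubgroup F) × Option F × Option F} (e : phiC p = phiC p') : p = p' := by
  obtain ⟨α, β, h, o₁, o₂⟩ := p
  obtain ⟨α', β', h', o₁', o₂'⟩ := p'
  have hmemB : ∀ (a b : F) (z : ↥(chevG2.diagonalSubgroup F)), hG2.xU lt6 a * hG2.xU lt9 b * (z : GL chevG2.Idx F) ∈ chevG2.borelSubgroup F :=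
    fun a b z => Subgroup.mul_mem _ (Tbl.Good2.le_borel_U (Subgroup.mul_mem _ (x6_mem_U _) (x9_mem_U _))) (Tbl.Good2.le_borel_H z.2)
  obtain ⟨hd, hnn⟩ := (hG2.canonical_form (F := F)).2 _ _ _ _ _ _ (hmemB α β h) (hmemB α' β' h')
    (hG2.nProd_mem_N (lwL_idx o₁ o₂)) (hG2.nProd_mem_N (lwL_idx o₁' o₂')) (lwL_cl o₁ o₂) (lwL_cl o₁' o₂') e
  have p6 := perm_of_H (lwL_idx o₁ o₂) (lwL_idx o₁' o₂') hd lt6
  have p9 := perm_of_H (lwL_idx o₁ o₂) (lwL_idx o₁' o₂') hd lt9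
  have key : ∃ (γ : Unit), lwL o₁ o₂ = lwL o₁' o₂' ∧ (u6 o₁ * u9 o₂ = u6 o₁' * u9 o₂' → o₁ = o₁' ∧ o₂ = o₂') := by
    refine ⟨(), ?_⟩
    cases o₁ <;> cases o₁' <;> cases o₂ <;> cases o₂' <;>
      first
      | (exfalso; first
          | (rw [perm6_none, perm6_some] at p6; omega)
          | (rw [perm6_some, perm6_none] at p6; omega)
          | (rw [perm9_none, perm9_some] at p9; omega)
          | (rw [perm9_some, perm9_none] at p9; omega))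
      | (refine ⟨rfl, fun e1 => ?_⟩
         simp only [u6, u9, one_mul, mul_one] at e1
         first
         | exact ⟨rfl, rfl⟩
         | exact ⟨by rw [xU_inj hG2 lt6 e1], rfl⟩
         | exact ⟨rfl, by rw [xU_inj hG2 lt9 e1]⟩
         | (obtain ⟨e2, e3⟩ := xx_inj e1
            exact ⟨by rw [e2], by rw [e3]⟩))
  obtain ⟨-, e1, e2⟩ := key
  obtain ⟨e3, e4⟩ := hnn (by rw [e1])
  obtain ⟨e5, e6, e7⟩ := bb_inj h.2 h'.2 e3
  obtain ⟨e8, e9⟩ := e2 e4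
  subst e5 e6 e8 e9
  rw [Subtype.ext e7]

lemma par_of_zpow (h2 : (2 : F) ≠ 0) {a b : ℤ} (e : (-1 : F) ^ a = (-1 : F) ^ b) : (a - b) % 2 = 0 := by
  have hne : (-1 : F) ≠ 1 := by
    intro h
    apply h2
    linear_combination -h
  rcases Int.emod_two_eq_zero_or_one a with h | h <;> rcases Int.emod_two_eq_zero_or_one b with h' | h'
  · omega
  · rw [neg1_even h, neg1_odd h'] at e
    exact absurd e.symm hne
  · rw [neg1_odd h, neg1_even h'] at e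
    exact absurd e hne
  · omega

/-- An element of `N` commuting with `t1` preserves the character. -/
lemma parity_of_comm (h2 : (2 : F) ≠ 0) {h : GL chevG2.Idx F} (hh : h ∈ chevG2.diagonalSubgroup F) {l : List ℕ}
    (hl : ∀ i ∈ l, i < chevG2.rank) (hc : (h * hG2.nProd l) * (t1 F)⁻¹ * (h * hG2.nProd l)⁻¹ = (t1 F)⁻¹) {r : ℕ} (hr : r < chevG2.nroots) :
    (chevG2.pairing 6 (wperm digG2.tbl l r) - chevG2.pairing 6 r) % 2 = 0 := by
  obtain ⟨c, hc0, e⟩ := perm_form hG2 hh hl hr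
  obtain ⟨n, hn⟩ : ∃ n, n = h * hG2.nProd l := ⟨_, rfl⟩
  rw [← hn] at e hc
  have hc' : t1 F * n = n * t1 F := by
    have e1 : n * (t1 F)⁻¹ = (t1 F)⁻¹ * n := by
      rw [mul_inv_eq_iff_eq_mul] at hc
      exact hc
    calc t1 F * n = t1 F * (n * (t1 F)⁻¹) * t1 F := by group
      _ = n * t1 F := by rw [e1]; group
  have e2 : t1 F * (n * hG2.xU hr (1 : F) * n⁻¹) * (t1 F)⁻¹ = n * (t1 F * hG2.xU hr 1 * (t1 F)⁻¹) * n⁻¹ := by
    have e3 : (t1 F)⁻¹ * n⁻¹ = n⁻¹ * (t1 F)⁻¹ := by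
      rw [← mul_inv_rev, ← mul_inv_rev, hc']
    calc t1 F * (n * hG2.xU hr (1 : F) * n⁻¹) * (t1 F)⁻¹ = (t1 F * n) * hG2.xU hr 1 * (n⁻¹ * (t1 F)⁻¹) := by
          group
      _ = n * (t1 F * hG2.xU hr 1 * (t1 F)⁻¹) * n⁻¹ := by
          rw [hc', ← e3]
          group
  rw [e, t1_conj, t1_conj, e] at e2
  have e4 := xU_inj hG2 _ e2
  have hne : c ≠ 0 := hc0
  apply par_of_zpow h2
  field_simp at e4
  linear_combination e4

/-- The Weyl elements commuting with `t1`. -/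
lemma L12_par : ∀ l ∈ L12, (∀ r, r < chevG2.nroots → (chevG2.pairing 6 (wperm digG2.tbl l r) - chevG2.pairing 6 r) % 2 = 0) →
    l ∈ [[], [1], [0, 1, 0, 1, 0], [0, 1, 0, 1, 0, 1]] := by decide +kernel

/-- The parametrisation is surjective. -/
lemma phiC_surj (h2 : (2 : F) ≠ 0) {g : GL chevG2.Idx F} (hg : g ∈ KC F) : ∃ p, phiC p = g := by
  obtain ⟨hgG, hgc⟩ := hg
  obtain ⟨b, hb, n, hn, u, hu, rfl⟩ := (hG2.canonical_form (F := F)).1 g hgG
  have huq := (hG2.canonical_form (F := F)).2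
  obtain ⟨t, ht⟩ : ∃ t, t = t1 F := ⟨_, rfl⟩
  rw [← ht] at hgc
  have htH : t ∈ chevG2.diagonalSubgroup F := by rw [ht]; exact t1_mem
  obtain ⟨d, hd⟩ : ∃ d, d = t * (n * t⁻¹ * n⁻¹) := ⟨_, rfl⟩
  have hdH : d ∈ chevG2.diagonalSubgroup F := by
    rw [hd]
    exact Subgroup.mul_mem _ htH (hG2.N_conj_H hn (Subgroup.inv_mem _ htH))
  have e : (t * b * t⁻¹ * d) * n * (t * u * t⁻¹) = b * n * u := by
    rw [← hgc, hd]
    group
  have hu' : t * u * t⁻¹ ∈ Cl n := by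
    refine conj_mem_of_gen _ ?_ hu
    rintro y ⟨r, s, hr, hP, hy⟩
    rw [hG2.eq_xU hr.1 hy, ht, t1_conj hr.1]
    exact Subgroup.subset_closure ⟨r, _, hr, hP, rfl⟩
  have hbb : t * b * t⁻¹ * d ∈ chevG2.borelSubgroup F :=
    Subgroup.mul_mem _ (Subgroup.mul_mem _ (Subgroup.mul_mem _ (Tbl.Good2.le_borel_H htH) hb)
      (Subgroup.inv_mem _ (Tbl.Good2.le_borel_H htH))) (Tbl.Good2.le_borel_H hdH)
  obtain ⟨e₁, e₂⟩ := (huq _ _ _ _ _ _ hbb hb hn hn hu' hu e).2 rfl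
  obtain ⟨v, hv, h₀, hh₀, rfl⟩ := hG2.mem_borel hb
  have e3 : t * h₀ * t⁻¹ = h₀ := by
    rw [H_comm htH hh₀]
    group
  have e4 : (t * v * t⁻¹) * (h₀ * d) = v * h₀ := by
    rw [← e₁]
    have e5 : t * (v * h₀) * t⁻¹ * d = (t * v * t⁻¹) * (t * h₀ * t⁻¹) * d := by group
    rw [e5, e3]
    group
  have e5 : v⁻¹ * (t * v * t⁻¹) = h₀ * d⁻¹ * h₀⁻¹ := by
    have e6 : t * v * t⁻¹ = v * h₀ * (h₀ * d)⁻¹ := by
      rw [← e4]
      group
    rw [e6]
    group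
  have hmem : v⁻¹ * (t * v * t⁻¹) ∈ chevG2.posUnipotent F ⊓ chevG2.diagonalSubgroup F := by
    constructor
    · refine Subgroup.mul_mem _ (Subgroup.inv_mem _ hv) ?_
      rw [ht]
      exact t1_conj_U hv
    · rw [e5]
      exact Subgroup.mul_mem _ (Subgroup.mul_mem _ hh₀ (Subgroup.inv_mem _ hdH)) (Subgroup.inv_mem _ hh₀)
  rw [hG2.U_inf_H, Subgroup.mem_bot] at hmem
  have hvc : t * v * t⁻¹ = v := by
    have := inv_mul_eq_one.1 hmem
    exact this.symm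
  have hd1 : d = 1 := by
    rw [hmem] at e5
    have e6 : h₀ * d⁻¹ = h₀ := (mul_inv_eq_one.1 e5.symm)
    have e7 : d⁻¹ = 1 := mul_left_cancel (a := h₀) (by rw [e6, mul_one])
    exact inv_eq_one.1 e7
  have hnc : n * t⁻¹ * n⁻¹ = t⁻¹ := by
    rw [hd1] at hd
    exact (eq_inv_of_mul_eq_one_right hd.symm)
  have huU : u ∈ chevG2.posUnipotent F := by
    refine (Subgroup.closure_le _).2 ?_ hu
    rintro x ⟨r, s, hr, _, hx⟩
    exact Subgroup.subset_closure ⟨r, s, hr, hx⟩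
  rw [ht] at hvc e₂ hnc
  obtain ⟨α, β, rfl⟩ := CU_form h2 hv hvc
  obtain ⟨γ, δ, rfl⟩ := CU_form h2 huU e₂
  obtain ⟨h₁, hh₁, l, hl, rfl⟩ := hG2.N_form hn
  obtain ⟨l', hl', hperm⟩ := canon_L12 l hl
  have hidx := L12_idx l' hl'
  obtain ⟨z, hz, ez⟩ := over_congr hG2 (F := F) hl hidx
    (fun r hr => by
      have hrev : ∀ i ∈ l'.reverse, i < chevG2.rank := fun i hi => hidx i (List.mem_reverse.1 hi)
      rw [wperm_append, hperm _ (hG2.wperm_lt hrev hr), L12_rev l' hl' r hr])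
    (fun r hr => by rw [wperm_append, L12_rev l' hl' r hr])
  have e0 : h₁ * hG2.nProd l = (h₁ * z) * hG2.nProd l' := by rw [ez, mul_assoc]
  rw [e0] at hnc ⊢
  have hh₂ : h₁ * z ∈ chevG2.diagonalSubgroup F := Subgroup.mul_mem _ hh₁ hz
  have hL4 := L12_par l' hl' (fun r hr => parity_of_comm h2 hh₂ hidx hnc hr)
  have hh₃ : h₀ * (h₁ * z) ∈ chevG2.diagonalSubgroup F := Subgroup.mul_mem _ hh₀ hh₂
  have eh : ∀ a b c d' : GL chevG2.Idx F, a * h₀ * ((h₁ * z) * c) * d' = a * (h₀ * (h₁ * z)) * c * d' := by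
    intro a b c d'
    group
  rw [eh _ 1]
  generalize h₀ * (h₁ * z) = h₃ at hh₃ ⊢
  obtain ⟨c₁, hc₁, e6⟩ := hG2.H_conj_x hh₃ lt6
  obtain ⟨c₂, hc₂, e9⟩ := hG2.H_conj_x hh₃ lt9
  have e6' : ∀ s, h₃ * hG2.xU lt6 s = hG2.xU lt6 (c₁ * s) * h₃ := fun s => mul_inv_eq_iff_eq_mul.1 (e6 s)
  have e9' : ∀ s, h₃ * hG2.xU lt9 s = hG2.xU lt9 (c₂ * s) * h₃ := fun s => mul_inv_eq_iff_eq_mul.1 (e9 s)
  simp only [List.mem_cons, List.not_mem_nil, or_false] at hL4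
  rcases hL4 with rfl | rfl | rfl | rfl
  · refine ⟨(α + c₁ * γ, β + c₂ * δ, ⟨h₃, hh₃⟩, none, none), ?_⟩
    simp only [phiC, lwL, u6, u9, hG2.nProd_nil, mul_one]
    rw [← hG2.xU_mul, ← hG2.xU_mul]
    calc hG2.xU lt6 α * hG2.xU lt6 (c₁ * γ) * (hG2.xU lt9 β * hG2.xU lt9 (c₂ * δ)) * h₃
        = hG2.xU lt6 α * (hG2.xU lt6 (c₁ * γ) * hG2.xU lt9 β) * hG2.xU lt9 (c₂ * δ) * h₃ := by group
      _ = hG2.xU lt6 α * (hG2.xU lt9 β * hG2.xU lt6 (c₁ * γ)) * hG2.xU lt9 (c₂ * δ) * h₃ := by rw [x9_x6]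
      _ = hG2.xU lt6 α * hG2.xU lt9 β * (hG2.xU lt6 (c₁ * γ) * (hG2.xU lt9 (c₂ * δ) * h₃)) := by group
      _ = hG2.xU lt6 α * hG2.xU lt9 β * (h₃ * (hG2.xU lt6 γ * hG2.xU lt9 δ)) := by
          have e10 : h₃ * (hG2.xU lt6 γ * hG2.xU lt9 δ) = hG2.xU lt6 (c₁ * γ) * (hG2.xU lt9 (c₂ * δ) * h₃) := by
            rw [← mul_assoc, e6', mul_assoc, e9']
          rw [e10]
      _ = _ := by group
  · obtain ⟨c₃, hc₃, e3'⟩ := hG2.nProd_conj_x (F := F) (l := [1]) (by decide +kernel) lt9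
    have e3'' : ∀ s, hG2.nProd [1] * hG2.xU lt9 s = hG2.xU lt9 (c₃ * s) * hG2.nProd [1] := fun s =>
      mul_inv_eq_iff_eq_mul.1 ((e3' s).trans (hG2.xU_congr _ _ (by decide +kernel) rfl))
    refine ⟨(α, β + c₂ * (c₃ * δ), ⟨h₃, hh₃⟩, some γ, none), ?_⟩
    simp only [phiC, lwL, u6, u9, mul_one]
    rw [← hG2.xU_mul]
    calc hG2.xU lt6 α * (hG2.xU lt9 β * hG2.xU lt9 (c₂ * (c₃ * δ))) * h₃ * hG2.nProd [1] * hG2.xU lt6 γ
        = hG2.xU lt6 α * hG2.xU lt9 β * (hG2.xU lt9 (c₂ * (c₃ * δ)) * h₃) * hG2.nProd [1] * hG2.xU lt6 γ := by group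
      _ = hG2.xU lt6 α * hG2.xU lt9 β * h₃ * (hG2.xU lt9 (c₃ * δ) * hG2.nProd [1]) * hG2.xU lt6 γ := by
          rw [← e9']
          group
      _ = hG2.xU lt6 α * hG2.xU lt9 β * h₃ * hG2.nProd [1] * (hG2.xU lt9 δ * hG2.xU lt6 γ) := by
          rw [← e3'']
          group
      _ = _ := by rw [x9_x6]
  · obtain ⟨c₃, hc₃, e3'⟩ := hG2.nProd_conj_x (F := F) (l := [0, 1, 0, 1, 0]) (by decide +kernel) lt6
    have e3'' : ∀ s, hG2.nProd [0, 1, 0, 1, 0] * hG2.xU lt6 s = hG2.xU lt6 (c₃ * s) * hG2.nProd [0, 1, 0, 1, 0] := fun s =>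
      mul_inv_eq_iff_eq_mul.1 ((e3' s).trans (hG2.xU_congr _ _ (by decide +kernel) rfl))
    refine ⟨(α + c₁ * (c₃ * γ), β, ⟨h₃, hh₃⟩, none, some δ), ?_⟩
    simp only [phiC, lwL, u6, u9, one_mul]
    rw [← hG2.xU_mul]
    calc hG2.xU lt6 α * hG2.xU lt6 (c₁ * (c₃ * γ)) * hG2.xU lt9 β * h₃ * hG2.nProd [0, 1, 0, 1, 0] * hG2.xU lt9 δ
        = hG2.xU lt6 α * (hG2.xU lt6 (c₁ * (c₃ * γ)) * hG2.xU lt9 β) * h₃ * hG2.nProd [0, 1, 0, 1, 0] * hG2.xU lt9 δ := by group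
      _ = hG2.xU lt6 α * hG2.xU lt9 β * (hG2.xU lt6 (c₁ * (c₃ * γ)) * h₃) * hG2.nProd [0, 1, 0, 1, 0] * hG2.xU lt9 δ := by
          rw [← x9_x6]
          group
      _ = hG2.xU lt6 α * hG2.xU lt9 β * h₃ * (hG2.xU lt6 (c₃ * γ) * hG2.nProd [0, 1, 0, 1, 0]) * hG2.xU lt9 δ := by
          rw [← e6']
          group
      _ = _ := by
          rw [← e3'']
          group
  · exact ⟨(α, β, ⟨h₃, hh₃⟩, some γ, some δ), rfl⟩

/-- The order of the centraliser of `t1`. -/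
theorem card_KC [Fintype F] (hF : Odd (Fintype.card F)) :
    Nat.card ↥(KC F) = Fintype.card F ^ 2 * (Fintype.card F ^ 2 - 1) ^ 2 := by
  have h2 := two_ne hF
  have hcard : Nat.card (F × F × ↥(chevG2.diagonalSubgroup F) × Option F × Option F) = Nat.card ↥(KC F) := by
    refine Nat.card_congr (Equiv.ofBijective (fun p => (⟨phiC p, phiC_mem p⟩ : ↥(KC F))) ⟨?_, ?_⟩)
    · intro p p' e
      exact phiC_inj (congrArg Subtype.val e)
    · rintro ⟨g, hg⟩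
      obtain ⟨p, hp⟩ := phiC_surj h2 hg
      exact ⟨p, Subtype.ext hp⟩
  have hH : Nat.card ↥(chevG2.diagonalSubgroup F) = (Fintype.card F - 1) ^ 2 := by
    have h3 : 1 * Nat.card ↥(chevG2.diagonalSubgroup F) = (Fintype.card F - 1) ^ 2 :=
      card_H_list (F := F) rfl (chevG2, 1) (by simp)
    simpa using h3
  rw [← hcard, Nat.card_prod, Nat.card_prod, Nat.card_prod, Nat.card_prod, hH, Finite.card_option, Nat.card_eq_fintype_card]
  obtain ⟨q, hq⟩ : ∃ q, q = Fintype.card F := ⟨_, rfl⟩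
  rw [← hq]
  have h1 : 1 ≤ q := by
    rw [hq]
    exact Fintype.card_pos
  obtain ⟨k, rfl⟩ : ∃ k, q = k + 1 := ⟨q - 1, by omega⟩
  have e1 : (k + 1) ^ 2 - 1 = k * (k + 2) := by
    have : (k + 1) ^ 2 = k * (k + 2) + 1 := by ring
    omega
  rw [e1]
  simp only [Nat.add_sub_cancel]
  ring

end Cfsg.Agent.Lib.Coll.G2Odd
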