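/-
`G₂(q)`, `q` odd: the structure of the centraliser of an involution.
-/
import Cfsg.Agent.Lib.Coll.G2OddE
import Cfsg.Agent.Lib.Classical.SL2Sylow

set_option autoImplicit false

namespace Cfsg.Agent.Lib.Coll.G2Odd

open Cfsg.Lie Cfsg.Agent.Lib.Chev

variable {F : Type*} [Field F]

lemma relR {r : ℕ} (hr : r < chevG2.nroots) : SL2.Rel (hG2.xU (F := F) hr) (hG2.xU (hG2.neg_lt hr)) :=
  hG2.rel_root rank1G2 hr

/-- The homomorphism attached to a root. -/
noncomputable def psiR {r : ℕ} (hr : r < chevG2.nroots) : SLF F →* GL chevG2.Idx F := (relR hr).hom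

lemma psiR_X {r : ℕ} (hr : r < chevG2.nroots) (s : F) : psiR hr (SL2.X s) = hG2.xU hr s := (relR hr).hom_X s

lemma psiR_Y {r : ℕ} (hr : r < chevG2.nroots) (s : F) : psiR hr (SL2.Y s) = hG2.xU (hG2.neg_lt hr) s := (relR hr).hom_Y s

lemma psiR_mem {r : ℕ} (hr : r < chevG2.nroots) (A : SLF F) : psiR hr A ∈ chevG2.group F :=
  (relR hr).hom_mem _ (xU_mem_G hG2 hr) (xU_mem_G hG2 (hG2.neg_lt hr)) A

/-- The diagonal matrices of `SL₂`. -/
def Dg (c : F) : SLF F := SL2.X c * SL2.Y (-c⁻¹) * SL2.X c * (SL2.X (-1) * SL2.Y (-(-1)⁻¹) * SL2.X (-1))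

lemma psiR_Dg {r : ℕ} (hr : r < chevG2.nroots) {c : F} (hc : c ≠ 0) : psiR hr (Dg c) = hG2.hU hr hc := by
  rw [hG2.hU_eq_nR hr hc, Dg]
  simp only [map_mul, psiR_X, psiR_Y]
  rfl

lemma Dg_neg_entries :
    ((Dg (-1 : F) : SLF F) : MF F) 0 0 = -1 ∧ ((Dg (-1 : F) : SLF F) : MF F) 0 1 = 0 ∧
    ((Dg (-1 : F) : SLF F) : MF F) 1 0 = 0 ∧ ((Dg (-1 : F) : SLF F) : MF F) 1 1 = -1 := by
  refine ⟨?_, ?_, ?_, ?_⟩ <;> simp only [Dg, m00, m01, m10, m11, x00, x01, x10, x11, y00, y01, y10, y11] <;> norm_num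

lemma Dg_ne_one (h2 : (2 : F) ≠ 0) : (Dg (-1 : F) : SLF F) ≠ 1 := by
  intro e
  have e1 := Dg_neg_entries (F := F)
  rw [e] at e1
  have e2 := e1.1
  simp at e2
  apply h2
  linear_combination e2

/-- The centre of `SL₂`. -/
lemma center_cases {A : SLF F} (hA : A ∈ Subgroup.center (SLF F)) : A = 1 ∨ A = Dg (-1) := by
  obtain ⟨r, hr, e⟩ := Matrix.SpecialLinearGroup.mem_center_iff.1 hA
  have hr2 : r * r = 1 := by
    simpa [pow_two] using hr
  have hE := Dg_neg_entries (F := F)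
  rcases mul_self_eq_one_iff.1 hr2 with rfl | rfl
  · left
    apply Subtype.ext
    rw [← e]
    simp
  · right
    apply SL2.sl_ext
    · rw [← e, hE.1]; simp
    · rw [← e, hE.2.1]; simp
    · rw [← e, hE.2.2.1]; simp
    · rw [← e, hE.2.2.2]; simp

/-- `psiR` is injective, for positive roots. -/
lemma psiR_inj {r : ℕ} (hr : r < chevG2.nroots) (hp : chevG2.nroots / 2 ≤ r) {s : ℕ} (hs : s < chevG2.nroots)
    (es : chevG2.pairing r s = 1) : Function.Injective (psiR (F := F) hr) := by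
  rw [injective_iff_map_eq_one]
  intro A hA
  have R := relR (F := F) hr
  have hdet := SL2.sl_det A
  have e0 : psiR hr A = SL2.Phi (hG2.xU (F := F) hr) (hG2.xU (hG2.neg_lt hr)) ((A : MF F) 0 0) ((A : MF F) 0 1) ((A : MF F) 1 0) ((A : MF F) 1 1) := rfl
  rw [e0] at hA
  by_cases hc : (A : MF F) 1 0 = 0
  · rw [hc, SL2.Phi_zero] at hA
    rw [hc] at hdet
    have ha : (A : MF F) 0 0 ≠ 0 := by
      intro h
      rw [h] at hdet
      simp at hdet
    have e1 : SL2.h (hG2.xU (F := F) hr) (hG2.xU (hG2.neg_lt hr)) ((A : MF F) 0 0) = hG2.hU hr ha := by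
      rw [hG2.hU_eq_nR hr ha]
      rfl
    rw [e1] at hA
    have hxU := hG2.xU_mem_U (F := F) hr hp ((A : MF F) 0 1 * ((A : MF F) 0 0)⁻¹)
    have e2 : hG2.hU hr ha = (hG2.xU hr ((A : MF F) 0 1 * ((A : MF F) 0 0)⁻¹))⁻¹ := eq_inv_of_mul_eq_one_left hA
    have hmem : hG2.hU hr ha ∈ chevG2.posUnipotent F ⊓ chevG2.diagonalSubgroup F :=
      ⟨by rw [e2]; exact Subgroup.inv_mem _ hxU, hG2.hU_mem hr ha⟩
    rw [hG2.U_inf_H, Subgroup.mem_bot] at hmem
    rw [hmem, one_mul] at hA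
    have hb : (A : MF F) 0 1 * ((A : MF F) 0 0)⁻¹ = 0 := (hG2.x_eq_one_iff hr _).1 (congrArg Units.val hA)
    have hb' : (A : MF F) 0 1 = 0 := (mul_eq_zero.1 hb).resolve_right (inv_ne_zero ha)
    have e3 := hG2.hU_conj_x (F := F) hr hs ha 1
    rw [hmem, es, zpow_one, mul_one] at e3
    simp only [one_mul, inv_one, mul_one] at e3
    have ha1 : (A : MF F) 0 0 = 1 := (xU_inj hG2 hs e3).symm
    rw [ha1] at hdet
    have hd1 : (A : MF F) 1 1 = 1 := by linear_combination hdet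
    apply SL2.sl_ext
    · rw [ha1]; simp
    · rw [hb']; simp
    · rw [hc]; simp
    · rw [hd1]; simp
  · exfalso
    rw [SL2.Phi_ne _ _ _ _ _ hc] at hA
    obtain ⟨a, ha⟩ : ∃ a, a = (A : MF F) 0 0 * ((A : MF F) 1 0)⁻¹ := ⟨_, rfl⟩
    obtain ⟨d, hd⟩ : ∃ d, d = (A : MF F) 1 1 * ((A : MF F) 1 0)⁻¹ := ⟨_, rfl⟩
    obtain ⟨τ, hτ⟩ : ∃ τ, τ = -((A : MF F) 1 0)⁻¹ := ⟨_, rfl⟩
    rw [← ha, ← hd, ← hτ] at hA
    have hτ0 : τ ≠ 0 := by
      rw [hτ]
      exact neg_ne_zero.2 (inv_ne_zero hc)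
    have e1 : SL2.w (hG2.xU (F := F) hr) (hG2.xU (hG2.neg_lt hr)) τ = hG2.xU hr (-a + -d) := by
      have e2 : SL2.w (hG2.xU (F := F) hr) (hG2.xU (hG2.neg_lt hr)) τ = (hG2.xU hr a)⁻¹ * (hG2.xU hr d)⁻¹ := by
        generalize SL2.w (hG2.xU (F := F) hr) (hG2.xU (hG2.neg_lt hr)) τ = w at hA ⊢
        generalize hG2.xU hr a = x at hA ⊢
        generalize hG2.xU hr d = y at hA ⊢
        calc w = x⁻¹ * (x * w * y) * y⁻¹ := by group
          _ = x⁻¹ * y⁻¹ := by rw [hA]; group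
      rw [e2, hG2.xU_inv, hG2.xU_inv, hG2.xU_mul]
    have e3 := R.I1 τ 1 hτ0
    rw [e1, hG2.xU_inv, hG2.xU_mul, hG2.xU_mul] at e3
    have e4 : -a + -d + 1 + -(-a + -d) = 1 := by ring
    rw [e4] at e3
    have e5 := hG2.x_root_unique hr (hG2.neg_lt hr) (one_ne_zero (α := F)) (congrArg Units.val e3)
    exact hG2.neg_ne hr e5.symm

/-- The map to the group. -/
noncomputable def phiS {r : ℕ} (hr : r < chevG2.nroots) : SLF F →* ↥(chevG2.group F) :=
  (psiR hr).codRestrict _ (psiR_mem hr)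

lemma phiS_coe {r : ℕ} (hr : r < chevG2.nroots) (A : SLF F) : ((phiS hr A : ↥(chevG2.group F)) : GL chevG2.Idx F) = psiR hr A := rfl

lemma phi6_inj : Function.Injective (phiS (F := F) lt6) := by
  intro A B e
  exact psiR_inj lt6 (by decide +kernel) lt8 (by decide +kernel) (congrArg Subtype.val e)

lemma phi9_inj : Function.Injective (phiS (F := F) lt9) := by
  intro A B e
  exact psiR_inj lt9 (by decide +kernel) lt7 (by decide +kernel) (congrArg Subtype.val e)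

lemma cm {r s : ℕ} (hr : r < chevG2.nroots) (hs : s < chevG2.nroots) (h1 : s ≠ r) (h2 : s ≠ chevG2.neg r)
    (ht : chevG2.commTerms r s = []) (a b : F) : Commute (hG2.xU hr a) (hG2.xU hs b) :=
  (x_commute hr hs h1 h2 ht a b).symm

lemma comm_psi (A B : SLF F) : Commute (psiR lt6 A) (psiR lt9 B) := by
  obtain ⟨p, q, r, s, rfl⟩ := exists_XYXY A
  obtain ⟨p', q', r', s', rfl⟩ := exists_XYXY B
  have c1 : ∀ a b : F, Commute (hG2.xU lt6 a) (hG2.xU lt9 b) :=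
    cm lt6 lt9 (by decide +kernel) (by decide +kernel) (by decide +kernel)
  have c2 : ∀ a b : F, Commute (hG2.xU lt6 a) (hG2.xU (hG2.neg_lt lt9) b) :=
    cm lt6 (hG2.neg_lt lt9) (by decide +kernel) (by decide +kernel) (by decide +kernel)
  have c3 : ∀ a b : F, Commute (hG2.xU (hG2.neg_lt lt6) a) (hG2.xU lt9 b) :=
    cm (hG2.neg_lt lt6) lt9 (by decide +kernel) (by decide +kernel) (by decide +kernel)
  have c4 : ∀ a b : F, Commute (hG2.xU (hG2.neg_lt lt6) a) (hG2.xU (hG2.neg_lt lt9) b) :=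
    cm (hG2.neg_lt lt6) (hG2.neg_lt lt9) (by decide +kernel) (by decide +kernel) (by decide +kernel)
  simp only [map_mul, psiR_X, psiR_Y]
  have d1 : ∀ b : F, Commute (hG2.xU lt6 p * hG2.xU (hG2.neg_lt lt6) q * hG2.xU lt6 r * hG2.xU (hG2.neg_lt lt6) s) (hG2.xU lt9 b) :=
    fun b => (((c1 p b).mul_left (c3 q b)).mul_left (c1 r b)).mul_left (c3 s b)
  have d2 : ∀ b : F, Commute (hG2.xU lt6 p * hG2.xU (hG2.neg_lt lt6) q * hG2.xU lt6 r * hG2.xU (hG2.neg_lt lt6) s) (hG2.xU (hG2.neg_lt lt9) b) :=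
    fun b => (((c2 p b).mul_left (c4 q b)).mul_left (c2 r b)).mul_left (c4 s b)
  exact (((d1 p').mul_right (d2 q')).mul_right (d1 r')).mul_right (d2 s')

/-- The involution, as an element of the group. -/
noncomputable def tS (F : Type*) [Field F] : ↥(chevG2.group F) := ⟨t1 F, hG2.H_le_group t1_mem⟩

lemma tS_eq6 : phiS lt6 (Dg (-1 : F)) = tS F := Subtype.ext (psiR_Dg lt6 neg1_ne)

lemma tS_eq9 : phiS lt9 (Dg (-1 : F)) = tS F :=
  Subtype.ext ((psiR_Dg lt9 neg1_ne).trans (hU_parity2 lt9 lt6 neg1_ne (by decide +kernel)))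

lemma t1_ne_one (h2 : (2 : F) ≠ 0) : t1 F ≠ 1 := by
  intro e
  have e1 := t1_conj lt7 (1 : F)
  rw [e, neg1_odd (by decide +kernel)] at e1
  simp only [one_mul, inv_one, mul_one] at e1
  have e2 := xU_inj hG2 lt7 e1
  apply h2
  linear_combination e2

lemma tS_ne_one (h2 : (2 : F) ≠ 0) : tS F ≠ 1 := fun e => t1_ne_one h2 (congrArg Subtype.val e)

lemma tS_sq : tS F * tS F = 1 := by
  rw [← tS_eq6, ← map_mul]
  have e : (Dg (-1 : F)) * Dg (-1) = 1 := by
    have hE := Dg_neg_entries (F := F)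
    apply SL2.sl_ext
    · rw [m00, hE.1, hE.2.1, hE.2.2.1]; simp
    · rw [m01, hE.1, hE.2.1, hE.2.2.2]; simp
    · rw [m10, hE.1, hE.2.2.1, hE.2.2.2]; simp
    · rw [m11, hE.2.1, hE.2.2.1, hE.2.2.2]; simp
  rw [e, map_one]

lemma comm_phi (A B : SLF F) : phiS lt6 A * phiS lt9 B = phiS lt9 B * phiS lt6 A :=
  Subtype.ext (comm_psi A B)

lemma inf_eq : (phiS (F := F) lt6).range ⊓ (phiS lt9).range = Subgroup.zpowers (tS F) := by
  apply le_antisymm
  · rintro g ⟨⟨A, rfl⟩, ⟨B, hB⟩⟩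
    have hcen : A ∈ Subgroup.center (SLF F) := by
      rw [Subgroup.mem_center_iff]
      intro C
      apply phi6_inj
      rw [map_mul, map_mul]
      show phiS lt6 C * phiS lt6 A = phiS lt6 A * phiS lt6 C
      rw [← hB, comm_phi]
    rcases center_cases hcen with rfl | rfl
    · rw [map_one]
      exact Subgroup.one_mem _
    · rw [tS_eq6]
      exact Subgroup.mem_zpowers _
  · rw [Subgroup.zpowers_le]
    exact ⟨⟨_, tS_eq6⟩, ⟨_, tS_eq9⟩⟩

lemma sup_le_cen : (phiS (F := F) lt6).range ⊔ (phiS lt9).range ≤ Subgroup.centralizer ({tS F} : Set ↥(chevG2.group F)) := by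
  refine sup_le ?_ ?_
  · rintro _ ⟨A, rfl⟩
    rw [Subgroup.mem_centralizer_singleton_iff, ← tS_eq9]
    exact comm_phi A _
  · rintro _ ⟨B, rfl⟩
    rw [Subgroup.mem_centralizer_singleton_iff, ← tS_eq6]
    exact (comm_phi _ B).symm

lemma card_cen [Fintype F] (hF : Odd (Fintype.card F)) :
    Nat.card (Subgroup.centralizer ({tS F} : Set ↥(chevG2.group F))) = Fintype.card F ^ 2 * (Fintype.card F ^ 2 - 1) ^ 2 := by
  rw [← card_KC hF]
  refine Nat.card_congr ⟨fun g => ⟨g.1.1, g.1.2, ?_⟩, fun g => ⟨⟨g.1, g.2.1⟩, ?_⟩, fun _ => rfl, fun _ => rfl⟩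
  · have e := Subgroup.mem_centralizer_singleton_iff.1 g.2
    have e1 : g.1.1 * t1 F = t1 F * g.1.1 := congrArg Subtype.val e
    rw [← e1]
    group
  · rw [Subgroup.mem_centralizer_singleton_iff]
    apply Subtype.ext
    show g.1 * t1 F = t1 F * g.1
    have e1 := g.2.2
    rw [mul_inv_eq_iff_eq_mul] at e1
    exact e1.symm

/-- The order of `L₁ ⊔ L₂`. -/
lemma card_sup [Fintype F] (hF : Odd (Fintype.card F)) :
    Nat.card ↥((phiS (F := F) lt6).range ⊔ (phiS lt9).range) * 2 = Nat.card (SLF F) * Nat.card (SLF F) := by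
  have h2 := two_ne hF
  have hcomm : ∀ (A B : SLF F), Commute (phiS lt6 A) (phiS lt9 B) := fun A B => comm_phi A B
  obtain ⟨μ, hμ⟩ : ∃ μ, μ = MonoidHom.noncommCoprod (phiS (F := F) lt6) (phiS lt9) hcomm := ⟨_, rfl⟩
  have hrange : μ.range = (phiS (F := F) lt6).range ⊔ (phiS lt9).range := by
    rw [hμ, MonoidHom.noncommCoprod_range]
  have hμa : ∀ p, μ p = phiS lt6 p.1 * phiS lt9 p.2 := by
    intro p
    rw [hμ, MonoidHom.noncommCoprod_apply]
  have hker : Nat.card μ.ker = 2 := by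
    rw [Nat.card_eq_two_iff]
    have h1mem : ((1 : SLF F), (1 : SLF F)) ∈ μ.ker := by
      rw [MonoidHom.mem_ker, hμa]
      simp
    have h2mem : ((Dg (-1 : F) : SLF F), (Dg (-1 : F) : SLF F)) ∈ μ.ker := by
      rw [MonoidHom.mem_ker, hμa]
      show phiS lt6 (Dg (-1 : F)) * phiS lt9 (Dg (-1 : F)) = 1
      rw [tS_eq6, tS_eq9, tS_sq]
    refine ⟨⟨_, h1mem⟩, ⟨_, h2mem⟩, ?_, ?_⟩
    · intro e
      have e1 : ((1 : SLF F), (1 : SLF F)) = ((Dg (-1 : F) : SLF F), (Dg (-1 : F) : SLF F)) := congrArg Subtype.val e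
      exact Dg_ne_one h2 (congrArg Prod.fst e1).symm
    · ext ⟨⟨A, B⟩, hAB⟩
      simp only [Set.mem_insert_iff, Set.mem_singleton_iff, Set.mem_univ, iff_true, Subtype.mk.injEq, Prod.mk.injEq]
      rw [MonoidHom.mem_ker, hμa] at hAB
      have hAB' : phiS lt6 A = (phiS lt9 B)⁻¹ := eq_inv_of_mul_eq_one_left hAB
      have hmem : phiS lt6 A ∈ (phiS (F := F) lt6).range ⊓ (phiS lt9).range := by
        refine ⟨⟨A, rfl⟩, ?_⟩
        rw [hAB']
        exact Subgroup.inv_mem _ ⟨B, rfl⟩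
      rw [inf_eq] at hmem
      have hz : phiS lt6 A = 1 ∨ phiS lt6 A = tS F := by
        have hord : orderOf (tS F) = 2 := orderOf_eq_prime (by rw [pow_two]; exact tS_sq) (tS_ne_one h2)
        rw [Subgroup.mem_zpowers_iff] at hmem
        obtain ⟨k, hk⟩ := hmem
        rw [← hk]
        rcases Int.emod_two_eq_zero_or_one k with h | h
        · left
          obtain ⟨m, hm⟩ := Int.dvd_of_emod_eq_zero h
          rw [hm, zpow_mul, zpow_two, tS_sq, one_zpow]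
        · right
          have hm : k = 2 * (k / 2) + 1 := by omega
          rw [hm, zpow_add, zpow_mul, zpow_two, tS_sq, one_zpow, one_mul, zpow_one]
      rcases hz with hz | hz
      · left
        have hA : A = 1 := phi6_inj (by rw [hz, map_one])
        have hB : phiS lt9 B = 1 := by
          rw [hz, one_mul] at hAB
          exact hAB
        exact ⟨hA, phi9_inj (by rw [hB, map_one])⟩
      · right
        have hA : A = Dg (-1) := phi6_inj (by rw [hz, tS_eq6])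
        have hB : phiS lt9 B = tS F := by
          rw [hz] at hAB
          have e2 : tS F * phiS lt9 B = tS F * tS F := by rw [hAB, tS_sq]
          exact mul_left_cancel e2
        exact ⟨hA, phi9_inj (by rw [hB, tS_eq9])⟩
  have h3 := Subgroup.card_mul_index μ.ker
  rw [Subgroup.index_ker, hker, hrange, Nat.card_prod] at h3
  linarith

/-- The structure of the centraliser of `tS`. -/
theorem main_tS [Fintype F] (hF : Odd (Fintype.card F)) :
    Nat.card (Subgroup.centralizer ({tS F} : Set ↥(chevG2.group F))) = Fintype.card F ^ 2 * (Fintype.card F ^ 2 - 1) ^ 2 ∧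
    ∃ L₁ L₂ : Subgroup ↥(chevG2.group F), Nonempty (L₁ ≃* SLF F) ∧ Nonempty (L₂ ≃* SLF F) ∧
      (∀ x ∈ L₁, ∀ y ∈ L₂, x * y = y * x) ∧ L₁ ⊓ L₂ = Subgroup.zpowers (tS F) ∧
      L₁ ⊔ L₂ ≤ Subgroup.centralizer ({tS F} : Set ↥(chevG2.group F)) ∧
      (L₁ ⊔ L₂).relIndex (Subgroup.centralizer ({tS F} : Set ↥(chevG2.group F))) = 2 := by
  refine ⟨card_cen hF, (phiS lt6).range, (phiS lt9).range, ⟨(MonoidHom.ofInjective phi6_inj).symm⟩,
    ⟨(MonoidHom.ofInjective phi9_inj).symm⟩, ?_, inf_eq, sup_le_cen, ?_⟩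
  · rintro _ ⟨A, rfl⟩ _ ⟨B, rfl⟩
    exact comm_phi A B
  · have h3 := Subgroup.card_mul_index (((phiS (F := F) lt6).range ⊔ (phiS lt9).range).subgroupOf
      (Subgroup.centralizer ({tS F} : Set ↥(chevG2.group F))))
    have h4 : Nat.card ↥(((phiS (F := F) lt6).range ⊔ (phiS lt9).range).subgroupOf
      (Subgroup.centralizer ({tS F} : Set ↥(chevG2.group F)))) = Nat.card ↥((phiS (F := F) lt6).range ⊔ (phiS lt9).range) :=
      Nat.card_congr (Subgroup.subgroupOfEquivOfLe sup_le_cen).toEquiv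
    rw [h4, card_cen hF] at h3
    have h5 := card_sup hF
    have hc : Nat.card (SLF F) * Nat.card (SLF F) = Fintype.card F ^ 2 * (Fintype.card F ^ 2 - 1) ^ 2 := by
      have hq : Nat.card (SLF F) = Fintype.card F * ((Fintype.card F - 1) * (Fintype.card F + 1)) :=
        Cfsg.Agent.Lib.Classical.card_SL2
      rw [hq]
      obtain ⟨q, hq'⟩ : ∃ q, q = Fintype.card F := ⟨_, rfl⟩
      rw [← hq']
      have h1 : 1 ≤ q := by
        rw [hq']
        exact Fintype.card_pos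
      obtain ⟨k, rfl⟩ : ∃ k, q = k + 1 := ⟨q - 1, by omega⟩
      have e1 : (k + 1) ^ 2 - 1 = k * (k + 2) := by
        have : (k + 1) ^ 2 = k * (k + 2) + 1 := by ring
        omega
      rw [e1]
      simp only [Nat.add_sub_cancel]
      ring
    rw [hc] at h5
    have h6 : Nat.card ↥((phiS (F := F) lt6).range ⊔ (phiS lt9).range) ≠ 0 := Nat.card_pos.ne'
    rw [← h5] at h3
    exact Nat.eq_of_mul_eq_mul_left (Nat.pos_of_ne_zero h6) h3

/-- Transport along an inner automorphism. -/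
theorem transport_P {K S : Type*} [Group K] [Group S] {t₁ t : K} (hc : IsConj t₁ t) {N : ℕ}
    (h : Nat.card (Subgroup.centralizer ({t₁} : Set K)) = N ∧ ∃ L₁ L₂ : Subgroup K, Nonempty (L₁ ≃* S) ∧ Nonempty (L₂ ≃* S) ∧
      (∀ x ∈ L₁, ∀ y ∈ L₂, x * y = y * x) ∧ L₁ ⊓ L₂ = Subgroup.zpowers t₁ ∧
      L₁ ⊔ L₂ ≤ Subgroup.centralizer ({t₁} : Set K) ∧ (L₁ ⊔ L₂).relIndex (Subgroup.centralizer ({t₁} : Set K)) = 2) :
    Nat.card (Subgroup.centralizer ({t} : Set K)) = N ∧ ∃ L₁ L₂ : Subgroup K, Nonempty (L₁ ≃* S) ∧ Nonempty (L₂ ≃* S) ∧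
      (∀ x ∈ L₁, ∀ y ∈ L₂, x * y = y * x) ∧ L₁ ⊓ L₂ = Subgroup.zpowers t ∧
      L₁ ⊔ L₂ ≤ Subgroup.centralizer ({t} : Set K) ∧ (L₁ ⊔ L₂).relIndex (Subgroup.centralizer ({t} : Set K)) = 2 := by
  obtain ⟨c, rfl⟩ := isConj_iff.1 hc
  obtain ⟨f, hfdef⟩ : ∃ f : K →* K, f = (MulAut.conj c).toMonoidHom := ⟨_, rfl⟩
  have hfa : ∀ x, f x = c * x * c⁻¹ := by
    intro x
    rw [hfdef]
    rfl
  have hf : Function.Injective f := by
    rw [hfdef]
    exact (MulAut.conj c).injective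
  have hcen : Subgroup.centralizer ({c * t₁ * c⁻¹} : Set K) = (Subgroup.centralizer ({t₁} : Set K)).map f := by
    ext g
    simp only [Subgroup.mem_centralizer_singleton_iff, Subgroup.mem_map]
    constructor
    · intro h
      refine ⟨c⁻¹ * g * c, ?_, ?_⟩
      · have e : g * (c * t₁ * c⁻¹) = c * t₁ * c⁻¹ * g := h
        calc c⁻¹ * g * c * t₁ = c⁻¹ * (g * (c * t₁ * c⁻¹)) * c := by group
          _ = c⁻¹ * (c * t₁ * c⁻¹ * g) * c := by rw [e]
          _ = t₁ * (c⁻¹ * g * c) := by group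
      · rw [hfa]
        group
    · rintro ⟨g', hg', rfl⟩
      rw [hfa]
      calc c * g' * c⁻¹ * (c * t₁ * c⁻¹) = c * (g' * t₁) * c⁻¹ := by group
        _ = c * (t₁ * g') * c⁻¹ := by rw [hg']
        _ = c * t₁ * c⁻¹ * (c * g' * c⁻¹) := by group
  obtain ⟨hN, L₁, L₂, ⟨e₁⟩, ⟨e₂⟩, hcomm, hinf, hsup, hidx⟩ := h
  refine ⟨?_, L₁.map f, L₂.map f, ⟨(L₁.equivMapOfInjective f hf).symm.trans e₁⟩, ⟨(L₂.equivMapOfInjective f hf).symm.trans e₂⟩, ?_, ?_, ?_, ?_⟩
  · rw [hcen, ← hN]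
    exact (Nat.card_congr (Subgroup.equivMapOfInjective _ f hf).toEquiv).symm
  · rintro _ ⟨x, hx, rfl⟩ _ ⟨y, hy, rfl⟩
    rw [← map_mul, ← map_mul, hcomm x hx y hy]
  · rw [← Subgroup.map_inf _ _ f hf, hinf, MonoidHom.map_zpowers, hfa]
  · rw [← Subgroup.map_sup, hcen]
    exact Subgroup.map_mono hsup
  · rw [← Subgroup.map_sup, hcen, Subgroup.relIndex_map_map_of_injective _ _ hf]
    exact hidx

/-- The centraliser of an arbitrary involution. -/
theorem main_cen [Fintype F] (hF : Odd (Fintype.card F)) (t : ↥(chevG2.group F)) (ht : orderOf t = 2) :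
    Nat.card (Subgroup.centralizer ({t} : Set ↥(chevG2.group F))) = Fintype.card F ^ 2 * (Fintype.card F ^ 2 - 1) ^ 2 ∧
    ∃ L₁ L₂ : Subgroup ↥(chevG2.group F), Nonempty (L₁ ≃* SLF F) ∧ Nonempty (L₂ ≃* SLF F) ∧
      (∀ x ∈ L₁, ∀ y ∈ L₂, x * y = y * x) ∧ L₁ ⊓ L₂ = Subgroup.zpowers t ∧
      L₁ ⊔ L₂ ≤ Subgroup.centralizer ({t} : Set ↥(chevG2.group F)) ∧
      (L₁ ⊔ L₂).relIndex (Subgroup.centralizer ({t} : Set ↥(chevG2.group F))) = 2 := by
  have hord : orderOf (tS F) = 2 := orderOf_eq_prime (by rw [pow_two]; exact tS_sq) (tS_ne_one (two_ne hF))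
  exact transport_P (main_conj hF (tS F) t hord ht) (main_tS hF)

end Cfsg.Agent.Lib.Coll.G2Odd
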