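/-
The homomorphism SL₃ → G₂, its diagonal elements, and base change.
-/
import Cfsg.Agent.Lib.Coll.G2TA
import Cfsg.Agent.Lib.Coll.RegCent
import Cfsg.Agent.Lib.Classical.Transvection
import Cfsg.Agent.Lib.ChevSmall.Transport
import Cfsg.Agent.Lib.Chev.T3G2

set_option autoImplicit false

open Cfsg.Lie Matrix Matrix.SpecialLinearGroup Cfsg.Agent.Lib.Chev
open scoped MatrixGroups

namespace Cfsg.Agent.Lib.G2SL

variable {E K : Type*} [Field E] [Field K]

lemma rhoM_one : rhoM (1 : M3 E) 1 = 1 := by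
  have h : rhoL (1 : M3 E) 1 = LinearMap.id := by
    refine LinearMap.ext fun v => ?_
    rw [rhoL_apply]
    have h1 : midF (1 : M3 E) 1 (decF v) = decF v := by simp [midF]
    rw [h1, encF_decF]
    rfl
  rw [rhoM, h, LinearMap.toMatrix'_id]

lemma rhoM_mul {A B A' B' : M3 E} (h : B' * A' = 1) : rhoM (A * A') (B' * B) = rhoM A B * rhoM A' B' := by
  rw [rhoM, rhoL_mul h, LinearMap.toMatrix'_comp]
  rfl

/-- The homomorphism `SL₃ → M₁₄`. -/
noncomputable def iotaH : SpecialLinearGroup (Fin 3) E →* Matrix chevG2.Idx chevG2.Idx E where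
  toFun A := rhoM A.1 (A⁻¹).1
  map_one' := by
    rw [inv_one]
    exact rhoM_one
  map_mul' A A' := by
    have e : ((A * A')⁻¹ : SpecialLinearGroup (Fin 3) E).1 = (A'⁻¹).1 * (A⁻¹).1 := by
      rw [_root_.mul_inv_rev]
      rfl
    have h : (A'⁻¹).1 * A'.1 = 1 := congrArg Subtype.val (inv_mul_cancel A')
    show rhoM (A.1 * A'.1) ((A * A')⁻¹).1 = rhoM A.1 (A⁻¹).1 * rhoM A'.1 (A'⁻¹).1
    rw [e, rhoM_mul h]

/-- The homomorphism `SL₃ → GL₁₄`. -/
noncomputable def iota : SpecialLinearGroup (Fin 3) E →* GL chevG2.Idx E := MonoidHom.toHomUnits iotaH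

lemma iota_coe (A : SpecialLinearGroup (Fin 3) E) : ((iota A : GL chevG2.Idx E) : Matrix chevG2.Idx chevG2.Idx E) = rhoM A.1 (A⁻¹).1 := rfl

lemma iota_T {i j : Fin 3} (hij : i ≠ j) (t : E) :
    ∃ r : Fin 12, ((iota (transvection hij t) : GL chevG2.Idx E) : Matrix chevG2.Idx chevG2.Idx E) = chevG2.xMat E r t := by
  rw [iota_coe, transvection_inv, transvection_coe, transvection_coe]
  fin_cases i <;> fin_cases j
  · exact absurd rfl hij
  · exact ⟨6, rho_x6 t⟩
  · exact ⟨11, rho_x11 t⟩
  · exact ⟨5, rho_x5 t⟩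
  · exact absurd rfl hij
  · exact ⟨10, rho_x10 t⟩
  · exact ⟨0, rho_x0 t⟩
  · exact ⟨1, rho_x1 t⟩
  · exact absurd rfl hij

lemma iota_mem (A : SpecialLinearGroup (Fin 3) E) : iota A ∈ chevG2.group E := by
  refine Cfsg.Agent.Lib.Classical.transvection_induction (fun g => iota g ∈ chevG2.group E) A ?_ ?_
  · intro i j hij a
    obtain ⟨r, hr⟩ := iota_T hij a
    exact Subgroup.subset_closure ⟨r, a, hr⟩
  · intro A B h h'
    rw [map_mul]
    exact Subgroup.mul_mem _ h h'

/-- The coordinates of the natural module inside the 14-dimensional one. -/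
def vI : Fin 3 → Fin 12 := ![8, 7, 2]

lemma rhoM_V (A B : M3 E) (i j : Fin 3) : rhoM A B (rI (vI i)) (rI (vI j)) = A i j := by
  rw [rhoM_apply]
  fin_cases i <;> fin_cases j <;>
    simp [encF_r, decF, midF, vI, Matrix.mul_apply, Fin.sum_univ_three, Matrix.mulVec, dotProduct, Pi.single_apply]

lemma iota_V (A : SpecialLinearGroup (Fin 3) E) (i j : Fin 3) :
    ((iota A : GL chevG2.Idx E) : Matrix chevG2.Idx chevG2.Idx E) (rI (vI i)) (rI (vI j)) = A.1 i j := by
  rw [iota_coe, rhoM_V]

lemma iota_injective : Function.Injective (iota : SpecialLinearGroup (Fin 3) E →* GL chevG2.Idx E) := by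
  intro A A' h
  apply Subtype.ext
  ext i j
  rw [← iota_V, ← iota_V, h]

/-! ### Base change -/

/-- Entrywise application of a field homomorphism. -/
noncomputable def glH (φ : E →+* K) : GL chevG2.Idx E →* GL chevG2.Idx K := Units.map (RingHom.mapMatrix φ).toMonoidHom

lemma glH_coe (φ : E →+* K) (g : GL chevG2.Idx E) :
    ((glH φ g : GL chevG2.Idx K) : Matrix chevG2.Idx chevG2.Idx K) = (g : Matrix chevG2.Idx chevG2.Idx E).map φ := rfl

lemma glH_injective (φ : E →+* K) : Function.Injective (glH φ) := by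
  intro a b h
  apply Units.ext
  have h1 := congrArg Units.val h
  rw [glH_coe, glH_coe] at h1
  ext i j
  have h2 := congrFun (congrFun h1 i) j
  exact φ.injective h2

lemma glH_mem (φ : E →+* K) {g : GL chevG2.Idx E} (hg : g ∈ chevG2.group E) : glH φ g ∈ chevG2.group K := by
  induction hg using Subgroup.closure_induction with
  | mem x hx =>
    obtain ⟨r, t, hx⟩ := hx
    refine Subgroup.subset_closure ⟨r, φ t, ?_⟩
    rw [glH_coe, hx]
    exact Cfsg.Agent.Lib.ChevSmall.xMat_map' chevG2 φ r t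
  | one => rw [map_one]; exact Subgroup.one_mem _
  | mul a b _ _ ha hb => rw [map_mul]; exact Subgroup.mul_mem _ ha hb
  | inv a _ ha => rw [map_inv]; exact Subgroup.inv_mem _ ha

/-- Entrywise application to triples. -/
def mapT (φ : E →+* K) (p : Trip E) : Trip K := (p.1.map φ, φ ∘ p.2.1, φ ∘ p.2.2)

lemma map_encF (φ : E →+* K) (p : Trip E) (i : chevG2.Idx) : φ (encF p i) = encF (mapT φ p) i := by
  have h : (fun i => φ (encF p i)) = encF (mapT φ p) := by
    apply idx_ext
    · intro i
      rw [encF_h, encF_h]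
      fin_cases i <;> simp [mapT]
    · intro i
      rw [encF_r, encF_r]
      fin_cases i <;> simp [mapT]
  exact congrFun h i

lemma map_midF (φ : E →+* K) (A B : M3 E) (p : Trip E) :
    mapT φ (midF A B p) = midF (A.map φ) (B.map φ) (mapT φ p) := by
  simp only [mapT, midF, Prod.mk.injEq]
  refine ⟨?_, ?_, ?_⟩
  · rw [Matrix.map_mul, Matrix.map_mul]
  · exact RingHom.map_mulVec φ A p.2.1 |> fun h => by
      funext i
      exact h i
  · have h := RingHom.map_mulVec φ Bᵀ p.2.2
    funext i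
    have h2 := h i
    rw [Function.comp_apply, h2, Matrix.transpose_map]

lemma map_decF (φ : E →+* K) (v : chevG2.Idx → E) : mapT φ (decF v) = decF (φ ∘ v) := by
  simp only [mapT, decF, Prod.mk.injEq]
  refine ⟨?_, ?_, ?_⟩
  · ext i j
    fin_cases i <;> fin_cases j <;> simp [map_ofNat]
  · ext i
    fin_cases i <;> simp
  · ext i
    fin_cases i <;> simp

lemma rhoM_map (φ : E →+* K) (A B : M3 E) : (rhoM A B).map φ = rhoM (A.map φ) (B.map φ) := by
  ext row col
  rw [Matrix.map_apply, rhoM_apply, rhoM_apply, map_encF, map_midF, map_decF]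
  congr 3
  funext k
  simp [Pi.single_apply, apply_ite φ]

lemma glH_iota (φ : E →+* K) (A : SpecialLinearGroup (Fin 3) E) :
    glH φ (iota A) = iota (SpecialLinearGroup.map φ A) := by
  apply Units.ext
  rw [glH_coe, iota_coe, iota_coe, rhoM_map, ← map_inv]
  rfl

/-! ### Diagonal elements -/

/-- The values of the diagonal element on the root vectors. -/
def chiV (u v : E) : Fin 12 → E :=
  ![(u ^ 2 * v)⁻¹, (u * v ^ 2)⁻¹, (u * v)⁻¹, u⁻¹, v⁻¹, v * u⁻¹, u * v⁻¹, v, u, u * v, u * v ^ 2, u ^ 2 * v]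

/-- The extension to natural numbers. -/
def chiE (u v : E) (s : ℕ) : E := if h : s < 12 then chiV u v ⟨s, h⟩ else 1

lemma diagM_hh (d : ℕ → E) (i j : Fin 2) : diagM chevG2 E d (hI i) (hI j) = if i = j then 1 else 0 := by
  simp only [diagM, Matrix.diagonal_apply, hI_inj]
  rfl

lemma diagM_hr (d : ℕ → E) (i : Fin 2) (j : Fin 12) : diagM chevG2 E d (hI i) (rI j) = 0 := by
  simp only [diagM, Matrix.diagonal_apply, hI_ne_rI, if_false]

lemma diagM_rh (d : ℕ → E) (i : Fin 12) (j : Fin 2) : diagM chevG2 E d (rI i) (hI j) = 0 := by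
  simp only [diagM, Matrix.diagonal_apply, rI_ne_hI, if_false]

lemma diagM_rr (d : ℕ → E) (i j : Fin 12) : diagM chevG2 E d (rI i) (rI j) = if i = j then d i else 0 := by
  simp only [diagM, Matrix.diagonal_apply, rI_inj]
  rfl

set_option maxHeartbeats 4000000 in
/-- The action of a diagonal matrix. -/
lemma rhoM_diag {u v w : E} (hu : u ≠ 0) (hv : v ≠ 0) (hw : w = (u * v)⁻¹) :
    rhoM (Matrix.diagonal ![u, v, w]) (Matrix.diagonal ![u⁻¹, v⁻¹, w⁻¹]) = diagM chevG2 E (chiE u v) := by
  subst hw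
  apply mat_ext
  · intro i j
    rw [rhoM_apply, diagM_hh]
    fin_cases i <;> fin_cases j <;>
      simp [encF_h, encF_r, decF, midF, Matrix.mul_apply, Fin.sum_univ_three, Matrix.mulVec, dotProduct, Pi.single_apply,
        Matrix.diagonal_apply, hu, hv] <;> (try field_simp) <;> ring
  · intro i j
    rw [rhoM_apply, diagM_hr]
    fin_cases i <;> fin_cases j <;>
      simp [encF_h, encF_r, decF, midF, Matrix.mul_apply, Fin.sum_univ_three, Matrix.mulVec, dotProduct, Pi.single_apply,
        Matrix.diagonal_apply, hu, hv]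
  · intro i j
    rw [rhoM_apply, diagM_rh]
    fin_cases i <;> fin_cases j <;>
      simp [encF_h, encF_r, decF, midF, Matrix.mul_apply, Fin.sum_univ_three, Matrix.mulVec, dotProduct, Pi.single_apply,
        Matrix.diagonal_apply, hu, hv]
  · intro i j
    rw [rhoM_apply, diagM_rr]
    by_cases hij : i = j
    · subst hij
      rw [if_pos rfl]
      fin_cases i <;>
        simp [encF_h, encF_r, decF, midF, Matrix.mul_apply, Fin.sum_univ_three, Matrix.mulVec, dotProduct, Pi.single_apply,
          Matrix.diagonal_apply, hu, hv, chiE, chiV] <;> field_simp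
    · rw [if_neg hij]
      fin_cases i <;> fin_cases j <;> first
        | exact absurd rfl hij
        | simp [encF_h, encF_r, decF, midF, Matrix.mul_apply, Fin.sum_univ_three, Matrix.mulVec, dotProduct, Pi.single_apply,
            Matrix.diagonal_apply, hu, hv]

end Cfsg.Agent.Lib.G2SL
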