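/-
The diagonal elements of SL₃ in G₂, and regular elements.
-/
import Cfsg.Agent.Lib.Coll.G2TB

set_option autoImplicit false

open Cfsg.Lie Matrix Matrix.SpecialLinearGroup Cfsg.Agent.Lib.Chev
open scoped MatrixGroups

namespace Cfsg.Agent.Lib.G2SL

variable {E : Type*} [Field E]

/-- Diagonal elements of `SL₃`. -/
noncomputable def dgS (u v : Eˣ) : SpecialLinearGroup (Fin 3) E :=
  ⟨Matrix.diagonal ![(u : E), (v : E), ((u : E) * (v : E))⁻¹], by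
    rw [Matrix.det_diagonal, Fin.prod_univ_three]
    simp only [Matrix.cons_val_zero, Matrix.cons_val_one, Matrix.cons_val]
    have h1 := u.ne_zero
    have h2 := v.ne_zero
    field_simp⟩

lemma dgS_coe (u v : Eˣ) : (dgS u v).1 = Matrix.diagonal ![(u : E), (v : E), ((u : E) * (v : E))⁻¹] := rfl

lemma dgS_mul (u v u' v' : Eˣ) : dgS u v * dgS u' v' = dgS (u * u') (v * v') := by
  apply Subtype.ext
  show (dgS u v).1 * (dgS u' v').1 = (dgS (u * u') (v * v')).1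
  rw [dgS_coe, dgS_coe, dgS_coe, Matrix.diagonal_mul_diagonal]
  congr 1
  funext i
  have h1 := u.ne_zero
  have h2 := v.ne_zero
  have h3 := u'.ne_zero
  have h4 := v'.ne_zero
  fin_cases i <;> simp
  field_simp

lemma dgS_one : dgS (1 : Eˣ) 1 = 1 := by
  apply Subtype.ext
  show (dgS (1 : Eˣ) 1).1 = 1
  rw [dgS_coe, ← Matrix.diagonal_one]
  congr 1
  funext i
  fin_cases i <;> simp

lemma dgS_pow (u v : Eˣ) (k : ℕ) : (dgS u v) ^ k = dgS (u ^ k) (v ^ k) := by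
  induction k with
  | zero => simp [dgS_one]
  | succ k ih => rw [pow_succ, ih, dgS_mul, pow_succ, pow_succ]

lemma dgS_inv (u v : Eˣ) : (dgS u v)⁻¹ = dgS u⁻¹ v⁻¹ :=
  inv_eq_of_mul_eq_one_right (by rw [dgS_mul, mul_inv_cancel, mul_inv_cancel, dgS_one])

/-- The character of a diagonal element. -/
noncomputable def chiT (u v : E) (s : ℕ) : E := (u * v) ^ chevG2.cartan 0 s * (u ^ 2 * v) ^ chevG2.cartan 1 s

lemma cartan_eq (j : Fin 2) (s : Fin 12) : chevG2.cartan j.val s.val = csrT j s := by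
  rw [← csrG_eq]
  rfl

lemma chiV_eq {u v : E} (hu : u ≠ 0) (hv : v ≠ 0) (s : Fin 12) :
    chiV u v s = (u * v) ^ (csrT 0 s) * (u ^ 2 * v) ^ (csrT 1 s) := by
  fin_cases s <;> simp [chiV, csrT, _root_.zpow_neg, zpow_ofNat] <;> field_simp

lemma chiE_eq_chiT {u v : E} (hu : u ≠ 0) (hv : v ≠ 0) {s : ℕ} (hs : s < chevG2.nroots) : chiE u v s = chiT u v s := by
  have hs' : s < 12 := hs
  have e := chiV_eq hu hv ⟨s, hs'⟩
  have e0 := cartan_eq 0 ⟨s, hs'⟩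
  have e1 := cartan_eq 1 ⟨s, hs'⟩
  simp only [chiE, hs', dif_pos, chiT]
  rw [e, ← e0, ← e1]
  rfl

lemma iota_dgS (u v : Eˣ) :
    ((iota (dgS u v) : GL chevG2.Idx E) : Matrix chevG2.Idx chevG2.Idx E) = diagM chevG2 E (chiT (u : E) (v : E)) := by
  rw [iota_coe, dgS_inv, dgS_coe, dgS_coe]
  have h1 := u.ne_zero
  have h2 := v.ne_zero
  have e : (![((u⁻¹ : Eˣ) : E), ((v⁻¹ : Eˣ) : E), (((u⁻¹ : Eˣ) : E) * ((v⁻¹ : Eˣ) : E))⁻¹] : Fin 3 → E) =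
      ![(u : E)⁻¹, (v : E)⁻¹, (((u : E) * (v : E))⁻¹)⁻¹] := by
    funext i
    fin_cases i <;> simp
    field_simp
  rw [e, rhoM_diag h1 h2 rfl]
  exact Tbl.Good2.diagM_congr fun s hs => chiE_eq_chiT h1 h2 hs

/-- The good table. -/
lemma chiT_isChar {u v : E} (hu : u ≠ 0) (hv : v ≠ 0) : IsChar chevG2 (chiT u v) :=
  (isChar_zpow (good3G2.toGood2.addF_cart (by decide : 0 < chevG2.rank)) (mul_ne_zero hu hv)).mulC
    (isChar_zpow (good3G2.toGood2.addF_cart (by decide : 1 < chevG2.rank)) (mul_ne_zero (pow_ne_zero 2 hu) hv))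

lemma iota_dgS_mem_H (u v : Eˣ) : iota (dgS u v) ∈ chevG2.diagonalSubgroup E := by
  have hG := good3G2.toGood2
  have h0 : (u : E) * (v : E) ≠ 0 := mul_ne_zero u.ne_zero v.ne_zero
  have h1 : (u : E) ^ 2 * (v : E) ≠ 0 := mul_ne_zero (pow_ne_zero 2 u.ne_zero) v.ne_zero
  have hi0 : 0 < chevG2.rank := by decide
  have hi1 : 1 < chevG2.rank := by decide
  have e : iota (dgS u v) = hG.hU (hG.simple_lt hi0) h0 * hG.hU (hG.simple_lt hi1) h1 := by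
    apply Units.ext
    rw [iota_dgS, Units.val_mul, Tbl.Good2.hU_coe, Tbl.Good2.hU_coe, hG.hMat_simple hi0 h0, hG.hMat_simple hi1 h1, diagM_mul]
    rfl
  rw [e]
  exact Subgroup.mul_mem _ (hG.hU_mem _ _) (hG.hU_mem _ _)

lemma exists_dgS {g : GL chevG2.Idx E} (hg : g ∈ chevG2.diagonalSubgroup E) : ∃ u v : Eˣ, g = iota (dgS u v) := by
  have hG := good3G2.toGood2
  obtain ⟨c, hc, e⟩ := hG.H_form hg
  rw [hG.wordMat_hWords c hc _ (fun i hi => List.mem_range.1 hi)] at e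
  have h0 := hc 0 (by decide)
  have h1 := hc 1 (by decide)
  refine ⟨Units.mk0 (c 1) h1 * (Units.mk0 (c 0) h0)⁻¹, (Units.mk0 (c 0) h0) ^ 2 * (Units.mk0 (c 1) h1)⁻¹, Units.ext ?_⟩
  rw [e, iota_dgS]
  have e1 : ((Units.mk0 (c 1) h1 * (Units.mk0 (c 0) h0)⁻¹ : Eˣ) : E) * (((Units.mk0 (c 0) h0) ^ 2 * (Units.mk0 (c 1) h1)⁻¹ : Eˣ) : E) = c 0 := by
    simp only [Units.val_mul, Units.val_inv_eq_inv_val, Units.val_pow_eq_pow_val, Units.val_mk0]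
    field_simp
  have e2 : ((Units.mk0 (c 1) h1 * (Units.mk0 (c 0) h0)⁻¹ : Eˣ) : E) ^ 2 * (((Units.mk0 (c 0) h0) ^ 2 * (Units.mk0 (c 1) h1)⁻¹ : Eˣ) : E) = c 1 := by
    simp only [Units.val_mul, Units.val_inv_eq_inv_val, Units.val_pow_eq_pow_val, Units.val_mk0]
    field_simp
  apply Tbl.Good2.diagM_congr
  intro s _
  simp only [chiT]
  rw [e1, e2]
  show (([0, 1] : List ℕ).map fun i => c i ^ chevG2.cartan i s).prod = _
  simp

/-! ### Regular elements -/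

lemma exp_reg (q : ℤ) (hq : 3 ≤ q) (a b : ℤ) (h : (q ^ 2 + q + 1) ∣ a + b * q) (hN : a ^ 2 - a * b + b ^ 2 < 13) :
    a = 0 ∧ b = 0 := by
  have h1 : (q ^ 2 + q + 1) ∣ a ^ 2 - a * b + b ^ 2 := by
    obtain ⟨c, hc⟩ := h
    refine ⟨c * (a + b * q ^ 2) - a * b - b ^ 2 * (q - 1), ?_⟩
    linear_combination (a + b * q ^ 2) * hc
  have h2 : 0 ≤ a ^ 2 - a * b + b ^ 2 := by nlinarith [sq_nonneg (2 * a - b), sq_nonneg b]
  have h3 : a ^ 2 - a * b + b ^ 2 < q ^ 2 + q + 1 := by nlinarith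
  have h4 := Int.eq_zero_of_dvd_of_nonneg_of_lt h2 h3 h1
  have h5 : b = 0 := by
    have : b ^ 2 ≤ 0 := by nlinarith [sq_nonneg (2 * a - b)]
    nlinarith [sq_nonneg b]
  subst h5
  have : a ^ 2 = 0 := by linarith
  exact ⟨pow_eq_zero_iff (by norm_num) |>.1 this, rfl⟩

def expA : Fin 12 → ℤ := ![-2, -1, -1, -1, 0, -1, 1, 0, 1, 1, 1, 2]
def expB : Fin 12 → ℤ := ![-1, -2, -1, 0, -1, 1, -1, 1, 0, 1, 2, 1]

lemma exp_table1 : ∀ i j : Fin 12, (expA i - expA j) ^ 2 - (expA i - expA j) * (expB i - expB j) + (expB i - expB j) ^ 2 < 13 := by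
  decide +kernel

lemma exp_table2 : ∀ i j : Fin 12, expA i = expA j → expB i = expB j → i = j := by
  decide +kernel

lemma exp_table3 : ∀ i : Fin 12, (expA i) ^ 2 - expA i * expB i + (expB i) ^ 2 < 13 ∧ ¬ (expA i = 0 ∧ expB i = 0) := by
  decide +kernel

/-- The value of the character in terms of exponents. -/
lemma chiV_exp (Z : Eˣ) (q : ℕ) (s : Fin 12) :
    chiV (Z : E) ((Z ^ q : Eˣ) : E) s = ((Z ^ (expA s + (q : ℤ) * expB s) : Eˣ) : E) := by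
  have hZ : (Z : E) ≠ 0 := Z.ne_zero
  have e : ∀ (a b : ℤ), ((Z ^ (a + (q : ℤ) * b) : Eˣ) : E) = (Z : E) ^ a * (((Z ^ q : Eˣ) : E)) ^ b := by
    intro a b
    rw [_root_.zpow_add, _root_.zpow_mul, zpow_natCast, Units.val_mul, Units.val_zpow_eq_zpow_val, Units.val_zpow_eq_zpow_val]
  rw [e]
  have hZq : (((Z ^ q : Eˣ)) : E) ≠ 0 := (Z ^ q).ne_zero
  generalize (((Z ^ q : Eˣ)) : E) = w at hZq
  fin_cases s <;> simp [chiV, expA, expB, _root_.zpow_neg, zpow_ofNat] <;> field_simp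

lemma chiT_exp (Z : Eˣ) (q : ℕ) {s : ℕ} (hs : s < 12) :
    chiT (Z : E) ((Z ^ q : Eˣ) : E) s = ((Z ^ (expA ⟨s, hs⟩ + (q : ℤ) * expB ⟨s, hs⟩) : Eˣ) : E) := by
  rw [← chiV_exp, ← chiE_eq_chiT Z.ne_zero (Z ^ q).ne_zero hs]
  simp only [chiE, hs, dif_pos]

lemma chiT_inj {Z : Eˣ} {q : ℕ} (hq : 3 ≤ q) (hZ : orderOf Z = q ^ 2 + q + 1) {r s : ℕ} (hr : r < 12) (hs : s < 12)
    (h : chiT (Z : E) ((Z ^ q : Eˣ) : E) r = chiT (Z : E) ((Z ^ q : Eˣ) : E) s) : r = s := by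
  rw [chiT_exp Z q hr, chiT_exp Z q hs] at h
  have h1 := Units.ext h
  have h2 : Z ^ ((expA ⟨r, hr⟩ - expA ⟨s, hs⟩) + (expB ⟨r, hr⟩ - expB ⟨s, hs⟩) * (q : ℤ)) = 1 := by
    have e : (expA ⟨r, hr⟩ - expA ⟨s, hs⟩) + (expB ⟨r, hr⟩ - expB ⟨s, hs⟩) * (q : ℤ) =
        (expA ⟨r, hr⟩ + (q : ℤ) * expB ⟨r, hr⟩) - (expA ⟨s, hs⟩ + (q : ℤ) * expB ⟨s, hs⟩) := by ring
    rw [e, _root_.zpow_sub, h1, mul_inv_cancel]
  have h3 := orderOf_dvd_iff_zpow_eq_one.2 h2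
  rw [hZ] at h3
  have h4 := exp_reg (q : ℤ) (by exact_mod_cast hq) _ _ (by exact_mod_cast h3) (exp_table1 ⟨r, hr⟩ ⟨s, hs⟩)
  have h5 := exp_table2 ⟨r, hr⟩ ⟨s, hs⟩ (sub_eq_zero.1 h4.1) (sub_eq_zero.1 h4.2)
  exact congrArg Fin.val h5

lemma chiT_ne_one {Z : Eˣ} {q : ℕ} (hq : 3 ≤ q) (hZ : orderOf Z = q ^ 2 + q + 1) {r : ℕ} (hr : r < 12) :
    chiT (Z : E) ((Z ^ q : Eˣ) : E) r ≠ 1 := by
  intro h
  rw [chiT_exp Z q hr] at h
  have h1 : Z ^ (expA ⟨r, hr⟩ + expB ⟨r, hr⟩ * (q : ℤ)) = 1 := by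
    have e : expA ⟨r, hr⟩ + expB ⟨r, hr⟩ * (q : ℤ) = expA ⟨r, hr⟩ + (q : ℤ) * expB ⟨r, hr⟩ := by ring
    rw [e]
    exact Units.ext h
  have h3 := orderOf_dvd_iff_zpow_eq_one.2 h1
  rw [hZ] at h3
  have h4 := exp_reg (q : ℤ) (by exact_mod_cast hq) _ _ (by exact_mod_cast h3) (exp_table3 ⟨r, hr⟩).1
  exact (exp_table3 ⟨r, hr⟩).2 h4

/-- The centraliser of the regular element lies in `H`. -/
theorem dg_centralizer {Z : Eˣ} {q : ℕ} (hq : 3 ≤ q) (hZ : orderOf Z = q ^ 2 + q + 1) {g : GL chevG2.Idx E}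
    (hg : g ∈ chevG2.group E) (hc : iota (dgS Z (Z ^ q)) * g * (iota (dgS Z (Z ^ q)))⁻¹ = g) :
    ∃ u v : Eˣ, g = iota (dgS u v) := by
  apply exists_dgS
  exact good3G2.toGood2.reg_centralizer (chiT_isChar Z.ne_zero (Z ^ q).ne_zero) (iota_dgS Z (Z ^ q))
    (iota_dgS_mem_H Z (Z ^ q)) (fun r s hr hs h => chiT_inj hq hZ hr hs h) (fun r hr => chiT_ne_one hq hZ hr) hg hc

end Cfsg.Agent.Lib.G2SL
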