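/-
The Singer cycle of SL₃ in G₂: a cyclic subgroup of order q² + q + 1 equal to its centraliser.
-/
import Cfsg.Agent.Lib.Coll.G2TC

set_option autoImplicit false

open Cfsg.Lie Matrix Matrix.SpecialLinearGroup Cfsg.Agent.Lib.Chev
open scoped MatrixGroups

namespace Cfsg.Agent.Lib.G2SL

section Singer

variable {F L : Type*} [Field F] [Field L]

lemma chiT_val8 (u v : Lˣ) : chiT (u : L) (v : L) 8 = u := by
  rw [← chiE_eq_chiT u.ne_zero v.ne_zero (by decide)]
  simp [chiE, chiV]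

lemma chiT_val7 (u v : Lˣ) : chiT (u : L) (v : L) 7 = v := by
  rw [← chiE_eq_chiT u.ne_zero v.ne_zero (by decide)]
  simp [chiE, chiV]

lemma chiT_val2 (u v : Lˣ) : chiT (u : L) (v : L) 2 = ((u : L) * (v : L))⁻¹ := by
  rw [← chiE_eq_chiT u.ne_zero v.ne_zero (by decide)]
  simp [chiE, chiV]

/-- Existence of the Singer element and of the matrix diagonalising it. -/
theorem exists_singer (φ : F →+* L) {q : ℕ} (hq : 3 ≤ q) (frob : L →+* L) (hfrob : ∀ x, frob x = x ^ q)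
    (hfix : ∀ x : L, frob x = x → ∃ a, φ a = x) {Z : Lˣ} (hZ : orderOf Z = q ^ 2 + q + 1) :
    ∃ (s : SpecialLinearGroup (Fin 3) F) (m : SpecialLinearGroup (Fin 3) L) (δ : L), δ ≠ 0 ∧
      m * SpecialLinearGroup.map φ s = dgS Z (Z ^ q) * m ∧
      m.1 = !![δ, δ * (Z : L), δ * (Z : L) ^ 2; 1, ((Z ^ q : Lˣ) : L), ((Z ^ q : Lˣ) : L) ^ 2;
        1, (((Z : L) * ((Z ^ q : Lˣ) : L))⁻¹), (((Z : L) * ((Z ^ q : Lˣ) : L))⁻¹) ^ 2] := by
  have hZn : Z ^ (q ^ 2 + q + 1) = 1 := by rw [← hZ]; exact pow_orderOf_eq_one Z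
  have hq1 : q ^ 3 = (q - 1) * (q ^ 2 + q + 1) + 1 := by
    obtain ⟨k, rfl⟩ : ∃ k, q = k + 1 := ⟨q - 1, by omega⟩
    simp only [Nat.add_sub_cancel]
    ring
  generalize hz1 : (Z : L) = z₁ at *
  have hz1n : z₁ ≠ 0 := by rw [← hz1]; exact Z.ne_zero
  generalize hz2 : ((Z ^ q : Lˣ) : L) = z₂ at *
  have hz2n : z₂ ≠ 0 := by rw [← hz2]; exact (Z ^ q).ne_zero
  have hz3 : ((Z ^ (q ^ 2) : Lˣ) : L) = (z₁ * z₂)⁻¹ := by
    have e : Z * Z ^ q * Z ^ (q ^ 2) = 1 := by
      rw [← hZn, ← pow_succ', ← pow_add]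
      congr 1
      ring
    have e2 := congrArg Units.val e
    rw [Units.val_mul, Units.val_mul, hz1, hz2, Units.val_one] at e2
    exact eq_inv_of_mul_eq_one_right e2
  generalize hz3' : (z₁ * z₂)⁻¹ = z₃ at *
  have hprod : z₁ * z₂ * z₃ = 1 := by
    rw [← hz3']
    exact mul_inv_cancel₀ (mul_ne_zero hz1n hz2n)
  have hf1 : frob z₁ = z₂ := by
    rw [hfrob, ← hz1, ← hz2, Units.val_pow_eq_pow_val]
  have hf2 : frob z₂ = z₃ := by
    rw [hfrob, ← hz3, ← hz2, ← Units.val_pow_eq_pow_val, ← pow_mul, pow_two]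
  have hf3 : frob z₃ = z₁ := by
    rw [hfrob, ← hz3, ← hz1, ← Units.val_pow_eq_pow_val, ← pow_mul]
    congr 1
    have e : q ^ 2 * q = q ^ 3 := by ring
    rw [e, hq1, pow_succ, pow_mul', hZn, one_pow, one_mul]
  obtain ⟨a₁, ha₁⟩ := hfix (z₁ + z₂ + z₃) (by rw [map_add, map_add, hf1, hf2, hf3]; ring)
  obtain ⟨a₂, ha₂⟩ := hfix (z₁ * z₂ + z₁ * z₃ + z₂ * z₃) (by
    rw [map_add, map_add, map_mul, map_mul, map_mul, hf1, hf2, hf3]; ring)
  have hne12 : z₁ ≠ z₂ := by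
    intro e
    have h1 := chiT_inj (E := L) hq hZ (r := 8) (s := 7) (by decide) (by decide) (by
      rw [chiT_val8, chiT_val7, hz1, hz2, e])
    omega
  have hne13 : z₁ ≠ z₃ := by
    intro e
    have h1 := chiT_inj (E := L) hq hZ (r := 8) (s := 2) (by decide) (by decide) (by
      rw [chiT_val8, chiT_val2, hz1, hz2, hz3', e])
    omega
  have hne23 : z₂ ≠ z₃ := by
    intro e
    have h1 := chiT_inj (E := L) hq hZ (r := 7) (s := 2) (by decide) (by decide) (by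
      rw [chiT_val7, chiT_val2, hz1, hz2, hz3', e])
    omega
  have hdet : (z₂ - z₁) * (z₃ - z₁) * (z₃ - z₂) ≠ 0 :=
    mul_ne_zero (mul_ne_zero (sub_ne_zero.2 hne12.symm) (sub_ne_zero.2 hne13.symm)) (sub_ne_zero.2 hne23.symm)
  have hδ : ((z₂ - z₁) * (z₃ - z₁) * (z₃ - z₂))⁻¹ * ((z₂ - z₁) * (z₃ - z₁) * (z₃ - z₂)) = 1 := inv_mul_cancel₀ hdet
  generalize ((z₂ - z₁) * (z₃ - z₁) * (z₃ - z₂))⁻¹ = δ at hδ
  have hδ0 : δ ≠ 0 := left_ne_zero_of_mul_eq_one hδ
  refine ⟨⟨!![0, 0, 1; 1, 0, -a₂; 0, 1, a₁], ?_⟩, ⟨!![δ, δ * z₁, δ * z₁ ^ 2; 1, z₂, z₂ ^ 2; 1, z₃, z₃ ^ 2], ?_⟩, δ, hδ0, ?_, rfl⟩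
  · rw [Matrix.det_fin_three]
    simp
  · rw [Matrix.det_fin_three]
    simp only [Matrix.of_apply, Matrix.cons_val', Matrix.cons_val_zero, Matrix.cons_val_one, Matrix.cons_val]
    linear_combination hδ
  · apply Subtype.ext
    show !![δ, δ * z₁, δ * z₁ ^ 2; 1, z₂, z₂ ^ 2; 1, z₃, z₃ ^ 2] * (!![0, 0, 1; 1, 0, -a₂; 0, 1, a₁] : M3 F).map φ =
      (dgS Z (Z ^ q)).1 * !![δ, δ * z₁, δ * z₁ ^ 2; 1, z₂, z₂ ^ 2; 1, z₃, z₃ ^ 2]
    rw [dgS_coe, hz1, hz2, hz3']
    ext i j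
    rw [Matrix.diagonal_mul, Matrix.mul_apply, Fin.sum_univ_three]
    fin_cases i <;> fin_cases j <;> simp [map_neg, ha₁, ha₂]
    all_goals first
      | ring1
      | linear_combination (-δ) * hprod
      | linear_combination (-1 : L) * hprod

/-- The entrywise map on `SL₃` is injective. -/
lemma map_inj (φ : F →+* L) {A B : SpecialLinearGroup (Fin 3) F}
    (h : SpecialLinearGroup.map φ A = SpecialLinearGroup.map φ B) : A = B := by
  apply Subtype.ext
  ext i j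
  have h1 := congrArg (fun X : SpecialLinearGroup (Fin 3) L => X.1 i j) h
  exact φ.injective h1

/-- The elements whose conjugate under the diagonalising matrix is diagonal are the powers of the Singer element. -/
theorem singer_key (φ : F →+* L) {q : ℕ} (frob : L →+* L) (hfrob : ∀ x, frob x = x ^ q)
    (hφ : ∀ a, frob (φ a) = φ a) {Z : Lˣ} (hZ3 : Z ^ (q ^ 2 + q + 1) = 1)
    (hN : ∀ c : Lˣ, c ^ (q ^ 2 + q + 1) = 1 → ∃ k : ℕ, c = Z ^ k)
    {s : SpecialLinearGroup (Fin 3) F} {m : SpecialLinearGroup (Fin 3) L} {δ : L} (hδ : δ ≠ 0)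
    (hsm : m * SpecialLinearGroup.map φ s = dgS Z (Z ^ q) * m)
    (hm : m.1 = !![δ, δ * (Z : L), δ * (Z : L) ^ 2; 1, ((Z ^ q : Lˣ) : L), ((Z ^ q : Lˣ) : L) ^ 2;
        1, (((Z : L) * ((Z ^ q : Lˣ) : L))⁻¹), (((Z : L) * ((Z ^ q : Lˣ) : L))⁻¹) ^ 2])
    (A : SpecialLinearGroup (Fin 3) F) {c₁ c₂ : Lˣ} (h : m * SpecialLinearGroup.map φ A = dgS c₁ c₂ * m) :
    ∃ k : ℕ, A = s ^ k := by
  have hz3 : (((Z : L) * ((Z ^ q : Lˣ) : L))⁻¹) = ((Z ^ (q ^ 2) : Lˣ) : L) := by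
    have e : Z * Z ^ q * Z ^ (q ^ 2) = 1 := by
      rw [← hZ3, ← pow_succ', ← pow_add]
      congr 1
      ring
    have e2 := congrArg Units.val e
    rw [Units.val_mul, Units.val_mul, Units.val_one] at e2
    exact (eq_inv_of_mul_eq_one_right e2).symm
  have hf1 : frob (Z : L) = ((Z ^ q : Lˣ) : L) := by
    rw [hfrob, Units.val_pow_eq_pow_val]
  have hf2 : frob ((Z ^ q : Lˣ) : L) = ((Z ^ (q ^ 2) : Lˣ) : L) := by
    rw [hfrob, ← Units.val_pow_eq_pow_val, ← pow_mul, pow_two]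
  have h' : m.1 * (A.1.map φ) = (dgS c₁ c₂).1 * m.1 := congrArg Subtype.val h
  rw [dgS_coe, hm, hz3] at h'
  have e0 := congrFun (congrFun h' 0) 0
  have e1 := congrFun (congrFun h' 1) 0
  have e2 := congrFun (congrFun h' 2) 0
  rw [Matrix.diagonal_mul, Matrix.mul_apply, Fin.sum_univ_three] at e0 e1 e2
  simp only [Matrix.of_apply, Matrix.cons_val', Matrix.cons_val_zero, Matrix.cons_val_one, Matrix.cons_val, Matrix.map_apply, mul_one] at e0 e1 e2
  have hc₁ : (c₁ : L) = φ (A.1 0 0) + (Z : L) * φ (A.1 1 0) + (Z : L) ^ 2 * φ (A.1 2 0) := by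
    apply mul_right_cancel₀ hδ
    rw [← e0]
    ring
  have hc₂ : (c₂ : L) = φ (A.1 0 0) + ((Z ^ q : Lˣ) : L) * φ (A.1 1 0) + ((Z ^ q : Lˣ) : L) ^ 2 * φ (A.1 2 0) := by
    rw [← e1]
    ring
  have hc₃ : ((c₁ : L) * (c₂ : L))⁻¹ = φ (A.1 0 0) + ((Z ^ (q ^ 2) : Lˣ) : L) * φ (A.1 1 0) + ((Z ^ (q ^ 2) : Lˣ) : L) ^ 2 * φ (A.1 2 0) := by
    rw [← e2]
    ring
  have h1 : c₁ ^ q = c₂ := by
    apply Units.ext
    rw [Units.val_pow_eq_pow_val, ← hfrob, hc₁, hc₂]
    simp only [map_add, map_mul, map_pow, hφ, hf1]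
  have h2 : c₂ ^ q = (c₁ * c₂)⁻¹ := by
    apply Units.ext
    rw [Units.val_pow_eq_pow_val, ← hfrob, Units.val_inv_eq_inv_val, Units.val_mul, hc₃, hc₂]
    simp only [map_add, map_mul, map_pow, hφ, hf2]
  have h3 : c₁ ^ (q ^ 2 + q + 1) = 1 := by
    have e : c₁ ^ (q ^ 2 + q + 1) = (c₁ ^ q) ^ q * c₁ ^ q * c₁ := by
      rw [← pow_mul, ← pow_two, ← pow_add, ← pow_succ]
    rw [e, h1, h2, mul_assoc, mul_comm c₂ c₁, inv_mul_cancel]
  obtain ⟨k, hk⟩ := hN c₁ h3
  refine ⟨k, ?_⟩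
  have h4 : c₂ = (Z ^ q) ^ k := by
    rw [← h1, hk, ← pow_mul, ← pow_mul, mul_comm]
  have h5 : dgS c₁ c₂ = (dgS Z (Z ^ q)) ^ k := by
    rw [dgS_pow, hk, h4]
  have h6 : SemiconjBy m (SpecialLinearGroup.map φ s) (dgS Z (Z ^ q)) := hsm
  have h7 := (h6.pow_right k).eq
  rw [h5, ← h7] at h
  apply map_inj φ
  rw [map_pow]
  exact mul_left_cancel h

/-- The main theorem, for an abstract cubic extension. -/
theorem main_abstract (φ : F →+* L) {q : ℕ} (hq : 3 ≤ q) (frob : L →+* L) (hfrob : ∀ x, frob x = x ^ q)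
    (hfix : ∀ x : L, frob x = x → ∃ a, φ a = x) (hφ : ∀ a, frob (φ a) = φ a) {Z : Lˣ}
    (hZ : orderOf Z = q ^ 2 + q + 1) (hN : ∀ c : Lˣ, c ^ (q ^ 2 + q + 1) = 1 → ∃ k : ℕ, c = Z ^ k) :
    ∃ H : Subgroup ↥(chevG2.group F), IsCyclic ↥H ∧ Nat.card ↥H = q ^ 2 + q + 1 ∧
      Subgroup.centralizer (H : Set ↥(chevG2.group F)) = H := by
  have hZn : Z ^ (q ^ 2 + q + 1) = 1 := by rw [← hZ]; exact pow_orderOf_eq_one Z
  obtain ⟨s, m, δ, hδ, hsm, hm⟩ := exists_singer φ hq frob hfrob hfix hZ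
  have hsc : SemiconjBy m (SpecialLinearGroup.map φ s) (dgS Z (Z ^ q)) := hsm
  have hord : orderOf s = q ^ 2 + q + 1 := by
    rw [← hZ]
    apply orderOf_eq_orderOf_iff.2
    intro k
    have h7 := (hsc.pow_right k).eq
    rw [dgS_pow, ← map_pow] at h7
    constructor
    · intro h
      rw [h, map_one, mul_one] at h7
      have h8 : dgS (Z ^ k) ((Z ^ q) ^ k) = 1 := (mul_eq_right.1 h7.symm)
      have h9 := congrArg (fun X : SpecialLinearGroup (Fin 3) L => X.1 0 0) h8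
      simp [dgS_coe] at h9
      exact Units.ext (by simpa using h9)
    · intro h
      have h8 : (Z ^ q) ^ k = 1 := by rw [← pow_mul, mul_comm, pow_mul, h, one_pow]
      rw [h, h8, dgS_one, one_mul] at h7
      apply map_inj φ
      rw [map_one]
      exact mul_eq_left.1 h7
  let x : ↥(chevG2.group F) := ⟨iota s, iota_mem s⟩
  refine ⟨Subgroup.zpowers x, inferInstance, ?_, ?_⟩
  · rw [Nat.card_zpowers, Subgroup.orderOf_mk, orderOf_injective iota iota_injective, hord]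
  · apply le_antisymm
    · intro y hy
      have hyx : x * y = y * x := (Subgroup.mem_centralizer_iff.1 hy) x (Subgroup.mem_zpowers x)
      obtain ⟨Y, hY⟩ := y
      have hYx : iota s * Y = Y * iota s := congrArg Subtype.val hyx
      have hMem : iota m ∈ chevG2.group L := iota_mem m
      have hYL := glH_mem φ hY
      have hY' : iota m * glH φ Y * (iota m)⁻¹ ∈ chevG2.group L :=
        Subgroup.mul_mem _ (Subgroup.mul_mem _ hMem hYL) (Subgroup.inv_mem _ hMem)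
      have hDm : iota (dgS Z (Z ^ q)) = iota m * glH φ (iota s) * (iota m)⁻¹ := by
        rw [glH_iota, ← map_mul, ← map_inv, ← map_mul, hsm, mul_inv_cancel_right]
      have hcomm : glH φ (iota s) * glH φ Y = glH φ Y * glH φ (iota s) := by
        rw [← map_mul, ← map_mul, hYx]
      have hconj : iota (dgS Z (Z ^ q)) * (iota m * glH φ Y * (iota m)⁻¹) * (iota (dgS Z (Z ^ q)))⁻¹ =
          iota m * glH φ Y * (iota m)⁻¹ := by
        rw [hDm]
        generalize glH φ (iota s) = a at hcomm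
        generalize glH φ Y = b at hcomm
        generalize iota m = c
        have e : c * a * c⁻¹ * (c * b * c⁻¹) * (c * a * c⁻¹)⁻¹ = c * (a * b) * a⁻¹ * c⁻¹ := by group
        rw [e, hcomm]
        group
      obtain ⟨u, v, huv⟩ := dg_centralizer hq hZ hY' hconj
      have hA : glH φ Y = iota (m⁻¹ * dgS u v * m) := by
        rw [map_mul, map_mul, map_inv, ← huv]
        group
      -- the entries are in `F`
      let A₀ : M3 F := Matrix.of fun i j => (Y : Matrix chevG2.Idx chevG2.Idx F) (rI (vI i)) (rI (vI j))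
      have hA₀ : A₀.map φ = (m⁻¹ * dgS u v * m).1 := by
        ext i j
        rw [← iota_V, ← hA, glH_coe]
        rfl
      have hdet : A₀.det = 1 := by
        apply φ.injective
        rw [map_one, RingHom.map_det]
        show (A₀.map φ).det = 1
        rw [hA₀]
        exact (m⁻¹ * dgS u v * m).2
      let A₁ : SpecialLinearGroup (Fin 3) F := ⟨A₀, hdet⟩
      have hAS : SpecialLinearGroup.map φ A₁ = m⁻¹ * dgS u v * m := Subtype.ext hA₀
      have hm2 : m * SpecialLinearGroup.map φ A₁ = dgS u v * m := by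
        rw [hAS]
        group
      obtain ⟨k, hk⟩ := singer_key φ frob hfrob hφ hZn hN hδ hsm hm A₁ hm2
      have hYe : Y = iota A₁ := by
        apply glH_injective φ
        rw [hA, glH_iota, hAS]
      rw [Subgroup.mem_zpowers_iff]
      refine ⟨(k : ℤ), ?_⟩
      apply Subtype.ext
      show ((x ^ (k : ℤ) : ↥(chevG2.group F)) : GL chevG2.Idx F) = Y
      rw [zpow_natCast, Subgroup.coe_pow, hYe, hk, map_pow]
    · intro y hy
      rw [Subgroup.mem_centralizer_iff]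
      intro h hh
      obtain ⟨i, rfl⟩ := Subgroup.mem_zpowers_iff.1 hh
      obtain ⟨j, rfl⟩ := Subgroup.mem_zpowers_iff.1 hy
      exact ((Commute.refl x).zpow_zpow i j).eq

end Singer

section Concrete

open Polynomial

variable {F L : Type*} [Field F] [Field L]

/-- The fixed points of the Frobenius map lie in the small field. -/
lemma frob_fixed [Fintype F] (φ : F →+* L) {q : ℕ} (hF : Fintype.card F = q) (hq : 1 < q) (x : L) (hx : x ^ q = x) :
    ∃ a, φ a = x := by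
  classical
  have hP : (X ^ q - X : L[X]) ≠ 0 := FiniteField.X_pow_card_sub_X_ne_zero L hq
  have hdeg : (X ^ q - X : L[X]).natDegree = q := FiniteField.X_pow_card_sub_X_natDegree_eq L hq
  have hsub : Finset.univ.image φ ⊆ (X ^ q - X : L[X]).roots.toFinset := by
    intro y hy
    obtain ⟨a, -, rfl⟩ := Finset.mem_image.1 hy
    rw [Multiset.mem_toFinset, Polynomial.mem_roots hP]
    simp only [IsRoot.def, eval_sub, eval_pow, eval_X]
    rw [← map_pow, ← hF, FiniteField.pow_card, sub_self]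
  have hcard : (Finset.univ.image φ).card = q := by
    rw [Finset.card_image_of_injective _ φ.injective, Finset.card_univ, hF]
  have hle : (X ^ q - X : L[X]).roots.toFinset.card ≤ (Finset.univ.image φ).card := by
    rw [hcard]
    calc _ ≤ (X ^ q - X : L[X]).roots.card := Multiset.toFinset_card_le _
      _ ≤ (X ^ q - X : L[X]).natDegree := Polynomial.card_roots' _
      _ = q := hdeg
  have hEq := Finset.eq_of_subset_of_card_le hsub hle
  have hxr : x ∈ (X ^ q - X : L[X]).roots.toFinset := by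
    rw [Multiset.mem_toFinset, Polynomial.mem_roots hP]
    simp only [IsRoot.def, eval_sub, eval_pow, eval_X]
    rw [hx, sub_self]
  rw [← hEq] at hxr
  obtain ⟨a, -, rfl⟩ := Finset.mem_image.1 hxr
  exact ⟨a, rfl⟩

/-- The main theorem. -/
theorem main_S2371 {F : Type*} [Field F] [Fintype F] (q : ℕ) (hF : Fintype.card F = q) (hq : 3 ≤ q) :
    ∃ H : Subgroup ↥(chevG2.group F), IsCyclic ↥H ∧ Nat.card ↥H = q ^ 2 + q + 1 ∧
      Subgroup.centralizer (H : Set ↥(chevG2.group F)) = H := by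
  classical
  obtain ⟨p, hp⟩ := CharP.exists F
  haveI : Fact p.Prime := ⟨CharP.char_is_prime F p⟩
  let L := FiniteField.Extension F p 3
  haveI : Fintype L := Fintype.ofFinite L
  have hcardL : Fintype.card L = q ^ 3 := by
    rw [← Nat.card_eq_fintype_card, FiniteField.natCard_extension, Nat.card_eq_fintype_card, hF]
  have hq3 : 1 < q ^ 3 := Nat.one_lt_pow (by norm_num) (by omega)
  let φ : F →+* L := algebraMap F L
  let frob : L →+* L := (FiniteField.Extension.frob F p 3 : L ≃ₐ[F] L).toAlgHom.toRingHom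
  have hfrob : ∀ x, frob x = x ^ q := by
    intro x
    have h := FiniteField.Extension.frob_apply F p 3 (x := x)
    rw [Nat.card_eq_fintype_card, hF] at h
    exact h
  have hφ : ∀ a, frob (φ a) = φ a := by
    intro a
    rw [hfrob, ← map_pow, ← hF, FiniteField.pow_card]
  have hfix : ∀ x : L, frob x = x → ∃ a, φ a = x := by
    intro x hx
    rw [hfrob] at hx
    exact frob_fixed φ hF (by omega) x hx
  obtain ⟨θ, hθ⟩ := IsCyclic.exists_generator (α := Lˣ)
  have hordθ : orderOf θ = q ^ 3 - 1 := by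
    rw [orderOf_eq_card_of_forall_mem_zpowers hθ, Nat.card_eq_fintype_card, Fintype.card_units, hcardL]
  have hfac : q ^ 3 - 1 = (q - 1) * (q ^ 2 + q + 1) := by
    obtain ⟨k, rfl⟩ : ∃ k, q = k + 1 := ⟨q - 1, by omega⟩
    simp only [Nat.add_sub_cancel]
    have : (k + 1) ^ 3 = k * ((k + 1) ^ 2 + (k + 1) + 1) + 1 := by ring
    rw [this, Nat.add_sub_cancel]
  have hq1 : q - 1 ≠ 0 := by omega
  have hZ : orderOf (θ ^ (q - 1)) = q ^ 2 + q + 1 := by
    rw [orderOf_pow_of_dvd hq1 (by rw [hordθ, hfac]; exact dvd_mul_right _ _), hordθ, hfac,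
      Nat.mul_div_cancel_left _ (by omega)]
  refine main_abstract φ hq frob hfrob hfix hφ hZ ?_
  intro c hc
  obtain ⟨j, hj⟩ := (mem_powers_iff_mem_zpowers.2 (hθ c))
  subst hj
  rw [← pow_mul] at hc
  have h1 := orderOf_dvd_of_pow_eq_one hc
  rw [hordθ, hfac, mul_comm j, mul_comm (q - 1)] at h1
  have h2 : q - 1 ∣ j := Nat.dvd_of_mul_dvd_mul_left (by positivity) h1
  obtain ⟨k, rfl⟩ := h2
  exact ⟨k, pow_mul θ (q - 1) k⟩

end Concrete

end Cfsg.Agent.Lib.G2SL
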