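/-
Odd characteristic: descent of involutions of `N` into `H`, for a general table.
-/
import Cfsg.Agent.Lib.Coll.G2OddB
import Cfsg.Agent.Lib.Coll.RegCent

set_option autoImplicit false

namespace Cfsg.Agent.Lib.Coll.OddGen

open Cfsg.Lie Cfsg.Agent.Lib.Chev Cfsg.Agent.Lib.Coll.G2Odd

variable {F : Type*} [Field F] {D : ChevalleyDatum} {T : Tbl}

/-- The sign by which a word in the `N_i` acts on a root element. -/
def sgnL (T : Tbl) : List ℕ → ℕ → ℤ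
  | [], _ => 1
  | i :: l, r => T.eps i (wperm T l r) * sgnL T l r

section

variable (hG : T.Good2 D)
include hG

lemma nProd_sgn {l : List ℕ} (hl : ∀ i ∈ l, i < D.rank) {r : ℕ} (hr : r < D.nroots) (t : F) :
    hG.nProd l * hG.xU hr t * (hG.nProd l)⁻¹ = hG.xU (hG.wperm_lt hl hr) (((sgnL T l r : ℤ) : F) * t) := by
  induction l generalizing t with
  | nil => simp [sgnL]
  | cons i l ih =>
    have hl' : ∀ j ∈ l, j < D.rank := fun j hj => hl j (List.mem_cons_of_mem _ hj)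
    have hi := hl i (by simp)
    rw [hG.nProd_cons, hG.nE_eq hi]
    have e2 : hG.nU hi * hG.nProd l * hG.xU hr t * (hG.nU hi * hG.nProd l)⁻¹ =
        hG.nU hi * (hG.nProd l * hG.xU hr t * (hG.nProd l)⁻¹) * (hG.nU hi)⁻¹ := by group
    rw [e2, ih hl', hG.nU_conj hi (hG.wperm_lt hl' hr)]
    apply hG.xU_congr _ _ rfl
    simp only [sgnL, Int.cast_mul]
    ring

lemma sgn_sq {l : List ℕ} (hl : ∀ i ∈ l, i < D.rank) {r : ℕ} (hr : r < D.nroots) :
    ((sgnL T l r : ℤ) : F) * ((sgnL T l r : ℤ) : F) = 1 := by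
  induction l with
  | nil => simp [sgnL]
  | cons i l ih =>
    have hl' : ∀ j ∈ l, j < D.rank := fun j hj => hl j (List.mem_cons_of_mem _ hj)
    have hi := hl i (by simp)
    have h1 := ih hl'
    have h2 := hG.eps_cases (F := F) hi (hG.wperm_lt hl' hr)
    simp only [sgnL, Int.cast_mul]
    have h3 : ((T.eps i (wperm T l r) : ℤ) : F) * ((T.eps i (wperm T l r) : ℤ) : F) = 1 := by
      rcases h2 with h | h <;> rw [h] <;> simp
    linear_combination ((T.eps i (wperm T l r) : ℤ) : F) * ((T.eps i (wperm T l r) : ℤ) : F) * h1 + h3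

lemma wperm_rev {l : List ℕ} (hl : ∀ i ∈ l, i < D.rank) {r : ℕ} (hr : r < D.nroots) :
    wperm T l (wperm T l.reverse r) = r := by
  induction l generalizing r with
  | nil => rfl
  | cons i l ih =>
    have hl' : ∀ j ∈ l, j < D.rank := fun j hj => hl j (List.mem_cons_of_mem _ hj)
    have hi := hl i (by simp)
    rw [List.reverse_cons, wperm_append, wperm_cons, wperm_cons, wperm_nil, ih hl' (hG.refl_lt' hi hr)]
    exact (hG.facts).refl_refl i r (hG.lt_l hi) (hG.lt_n hr)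

lemma over_perm {l l' : List ℕ} (hl : ∀ i ∈ l, i < D.rank) (hl' : ∀ i ∈ l', i < D.rank)
    (h : ∀ r, r < D.nroots → wperm T l r = wperm T l' r) :
    ∃ z ∈ D.diagonalSubgroup F, hG.nProd (F := F) l = z * hG.nProd l' := by
  have hrev : ∀ i ∈ l'.reverse, i < D.rank := fun i hi => hl' i (List.mem_reverse.1 hi)
  exact over_congr hG hl hl'
    (fun r hr => by rw [wperm_append, h _ (hG.wperm_lt hrev hr), wperm_rev hG hl' hr])
    (fun r hr => by rw [wperm_append, wperm_rev hG hl' hr])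

lemma nR_form {m : List ℕ} {i r : ℕ} (hm : ∀ j ∈ m, j < D.rank) (hi : i < D.rank) (hr : r < D.nroots)
    (e : wperm T m (D.simple i) = r) :
    ∃ z ∈ D.diagonalSubgroup F, hG.nR hr (1 : F) = z * hG.nProd (m ++ i :: m.reverse) := by
  have hs := hG.simple_lt hi
  obtain ⟨c, hc, ec⟩ := hG.nProd_conj_nR (F := F) hm hs
  have e1 := ec 1
  rw [hG.nR_simple hi, hG.nR_congr (hG.wperm_lt hm hs) hr e rfl] at e1
  have hc0 : c * 1 ≠ 0 := by
    rcases hc with rfl | rfl <;> simp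
  rw [hG.nR_eq_hU hr hc0] at e1
  have hrev : ∀ j ∈ m.reverse, j < D.rank := fun j hj => hm j (List.mem_reverse.1 hj)
  have hz₀ := hG.nProd_mem_H (F := F) _ (m ++ m.reverse) rfl
    (fun j hj => (List.mem_append.1 hj).elim (hm j) (hrev j)) (fun q hq => by rw [wperm_append, wperm_rev hG hm hq])
  have hP : hG.nProd (F := F) (m ++ i :: m.reverse) ∈ D.monomialSubgroup F := by
    refine hG.nProd_mem_N ?_
    intro j hj
    rcases List.mem_append.1 hj with h | h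
    · exact hm j h
    · rcases List.mem_cons.1 h with rfl | h
      · exact hi
      · exact hrev j h
  refine ⟨(hG.hU hr hc0)⁻¹ * (hG.nProd (m ++ i :: m.reverse) * (hG.nProd (m ++ m.reverse))⁻¹ * (hG.nProd (m ++ i :: m.reverse))⁻¹),
    Subgroup.mul_mem _ (Subgroup.inv_mem _ (hG.hU_mem hr hc0)) (hG.N_conj_H hP (Subgroup.inv_mem _ hz₀)), ?_⟩
  have e2 : hG.nProd (F := F) (m ++ i :: m.reverse) = hG.nProd m * (hG.nU hi * hG.nProd m.reverse) := by
    rw [hG.nProd_append, hG.nProd_cons, hG.nE_eq hi]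
  rw [e2, hG.nProd_append]
  have e3 : hG.nR hr (1 : F) = (hG.hU hr hc0)⁻¹ * (hG.nProd m * hG.nU hi * (hG.nProd m)⁻¹) := by
    rw [e1]
    group
  rw [e3]
  generalize hG.hU hr hc0 = a
  generalize hG.nProd (F := F) m = b
  generalize hG.nU (F := F) hi = c'
  generalize hG.nProd (F := F) m.reverse = d
  group

lemma twist_over {l l'' m : List ℕ} {i r : ℕ} (hl : ∀ j ∈ l, j < D.rank) (hl'' : ∀ j ∈ l'', j < D.rank)
    (hm : ∀ j ∈ m, j < D.rank) (hi : i < D.rank) (hr : r < D.nroots) (e : wperm T m (D.simple i) = r)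
    (hnext : ∀ q, q < D.nroots → wperm T ((m ++ i :: m.reverse) ++ l) q = wperm T l'' q)
    {h : GL D.Idx F} (hh : h ∈ D.diagonalSubgroup F) {c : F} (hc : c ≠ 0) :
    ∃ h₂ ∈ D.diagonalSubgroup F, hG.nR hr c * (h * hG.nProd l) = h₂ * hG.nProd l'' := by
  obtain ⟨z, hz, ez⟩ := nR_form (F := F) hG hm hi hr e
  have hrev : ∀ j ∈ m.reverse, j < D.rank := fun j hj => hm j (List.mem_reverse.1 hj)
  have hidx : ∀ j ∈ m ++ i :: m.reverse, j < D.rank := by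
    intro j hj
    rcases List.mem_append.1 hj with h | h
    · exact hm j h
    · rcases List.mem_cons.1 h with rfl | h
      · exact hi
      · exact hrev j h
  have hidx2 : ∀ j ∈ (m ++ i :: m.reverse) ++ l, j < D.rank :=
    fun j hj => (List.mem_append.1 hj).elim (hidx j) (hl j)
  obtain ⟨z', hz', ez'⟩ := over_perm (F := F) hG hidx2 hl'' hnext
  have hP := hG.nProd_mem_N (F := F) hidx
  rw [hG.nProd_append] at ez'
  refine ⟨hG.hU hr hc * z * (hG.nProd (m ++ i :: m.reverse) * h * (hG.nProd (m ++ i :: m.reverse))⁻¹) * z',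
    Subgroup.mul_mem _ (Subgroup.mul_mem _ (Subgroup.mul_mem _ (hG.hU_mem hr hc) hz) (hG.N_conj_H hP hh)) hz', ?_⟩
  rw [hG.nR_eq_hU hr hc, ez, mul_assoc _ z' _, ← ez']
  generalize hG.hU hr hc = a
  generalize hG.nProd (F := F) (m ++ i :: m.reverse) = b
  generalize hG.nProd (F := F) l = d
  group

/-- Descent, once the constant is a square. -/
lemma step_of_sq (hε : T.chkRank1 = true) (h2 : (2 : F) ≠ 0) {l l'' m : List ℕ} {i r : ℕ} (hl : ∀ j ∈ l, j < D.rank)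
    (hl'' : ∀ j ∈ l'', j < D.rank) (hm : ∀ j ∈ m, j < D.rank) (hi : i < D.rank) (hr : r < D.nroots)
    (e : wperm T m (D.simple i) = r)
    (hnext : ∀ q, q < D.nroots → wperm T ((m ++ i :: m.reverse) ++ l) q = wperm T l'' q)
    {h : GL D.Idx F} (hh : h ∈ D.diagonalSubgroup F) {ρ : F} (hρ : ρ ≠ 0)
    (h1 : ∀ t, (h * hG.nProd l) * hG.xU hr t * (h * hG.nProd l)⁻¹ = hG.xU (hG.neg_lt hr) (ρ * ρ * t))
    (h1' : ∀ t, (h * hG.nProd l) * hG.xU (hG.neg_lt hr) t * (h * hG.nProd l)⁻¹ = hG.xU hr ((ρ * ρ)⁻¹ * t)) :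
    ∃ g ∈ D.group F, ∃ h₂ ∈ D.diagonalSubgroup F, g * (h * hG.nProd l) * g⁻¹ = h₂ * hG.nProd l'' := by
  obtain ⟨g, hg, eg⟩ := tw_step_sq hG hε h2 hr hρ h1 h1'
  obtain ⟨h₂, hh₂, e₂⟩ := twist_over (F := F) hG hl hl'' hm hi hr e hnext hh (inv_ne_zero hρ)
  exact ⟨g, hg, h₂, hh₂, eg.trans e₂⟩

/-- Descent, in the case of a character relation. -/
lemma step_g (hε : T.chkRank1 = true) (h2 : (2 : F) ≠ 0) {l l'' m : List ℕ} {i r γ : ℕ} (hl : ∀ j ∈ l, j < D.rank)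
    (hl'' : ∀ j ∈ l'', j < D.rank) (hm : ∀ j ∈ m, j < D.rank) (hi : i < D.rank) (hr : r < D.nroots)
    (e : wperm T m (D.simple i) = r)
    (hnext : ∀ q, q < D.nroots → wperm T ((m ++ i :: m.reverse) ++ l) q = wperm T l'' q)
    {h : GL D.Idx F} (hh : h ∈ D.diagonalSubgroup F) {χ : ℕ → F}
    (hχ : ∀ s (hs : s < D.nroots) t, h * hG.xU hs t * h⁻¹ = hG.xU hs (χ s * t))
    (hsq : (h * hG.nProd l) * (h * hG.nProd l) = 1) (er : wperm T l r = D.neg r)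
    (hγ : γ < D.nroots) (eγ : wperm T l (wperm T l γ) = γ) {ρ : F} (hρ : ρ ≠ 0)
    (hρ2 : χ (D.neg r) = χ γ * χ (wperm T l γ) * (ρ * ρ))
    (hsign : sgnL T l r * sgnL T l (wperm T l γ) * sgnL T l γ = 1) :
    ∃ g ∈ D.group F, ∃ h₂ ∈ D.diagonalSubgroup F, g * (h * hG.nProd l) * g⁻¹ = h₂ * hG.nProd l'' := by
  have nform : ∀ s (hs : s < D.nroots) t, (h * hG.nProd l) * hG.xU hs t * (h * hG.nProd l)⁻¹ =
      hG.xU (hG.wperm_lt hl hs) (χ (wperm T l s) * (((sgnL T l s : ℤ) : F) * t)) := by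
    intro s hs t
    have e1 : (h * hG.nProd l) * hG.xU hs t * (h * hG.nProd l)⁻¹ = h * (hG.nProd l * hG.xU hs t * (hG.nProd l)⁻¹) * h⁻¹ := by group
    rw [e1, nProd_sgn hG hl hs, hχ]
  obtain ⟨c, hc, e1, e2⟩ := rev_of_perm hG hh hl hr er hsq
  have hkey := conj_conj_of_sq (hG.xU hγ (1 : F)) hsq
  rw [nform γ hγ, nform _ (hG.wperm_lt hl hγ), hG.xU_congr _ hγ eγ rfl] at hkey
  have hk := xU_inj hG hγ hkey
  rw [eγ] at hk
  have hc_eq : c = ρ * ρ := by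
    have e3 := e1 1
    rw [nform r hr, hG.xU_congr _ (hG.neg_lt hr) er rfl] at e3
    have e4 := xU_inj hG (hG.neg_lt hr) e3
    rw [er] at e4
    have hs3 := sgn_sq (F := F) hG hl hr
    have hsgnF : ((sgnL T l r : ℤ) : F) * ((sgnL T l (wperm T l γ) : ℤ) : F) * ((sgnL T l γ : ℤ) : F) = 1 := by
      have := congrArg (fun z : ℤ => (z : F)) hsign
      simpa using this
    have e5 : c * 1 = χ (D.neg r) * (((sgnL T l r : ℤ) : F) * 1) := e4.symm
    rw [hρ2] at e5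
    obtain ⟨S₃, hS₃⟩ : ∃ S₃, S₃ = ((sgnL T l r : ℤ) : F) := ⟨_, rfl⟩
    obtain ⟨S₁, hS₁⟩ : ∃ S₁, S₁ = ((sgnL T l (wperm T l γ) : ℤ) : F) := ⟨_, rfl⟩
    obtain ⟨S₂, hS₂⟩ : ∃ S₂, S₂ = ((sgnL T l γ : ℤ) : F) := ⟨_, rfl⟩
    rw [← hS₃, ← hS₁, ← hS₂] at hsgnF
    rw [← hS₁, ← hS₂] at hk
    rw [← hS₃] at e5 hs3
    obtain ⟨A, hA⟩ : ∃ A, A = χ γ * χ (wperm T l γ) := ⟨_, rfl⟩
    rw [← hA] at e5
    have hk' : A * (S₁ * S₂) = 1 := by
      rw [hA]
      linear_combination hk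
    have hAS : A = S₃ := by
      have e6 : (A - S₃) * (S₁ * S₂) = 0 := by linear_combination hk' - hsgnF
      have e7 : S₁ * S₂ ≠ 0 := by
        intro e8
        rw [e8, mul_zero] at hk'
        exact zero_ne_one hk'
      exact sub_eq_zero.1 ((mul_eq_zero.1 e6).resolve_right e7)
    rw [hAS] at e5
    linear_combination e5 + (ρ * ρ) * hs3
  have e1' : ∀ t, (h * hG.nProd l) * hG.xU hr t * (h * hG.nProd l)⁻¹ = hG.xU (hG.neg_lt hr) (ρ * ρ * t) := by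
    intro t
    rw [e1, hc_eq]
  have e2' : ∀ t, (h * hG.nProd l) * hG.xU (hG.neg_lt hr) t * (h * hG.nProd l)⁻¹ = hG.xU hr ((ρ * ρ)⁻¹ * t) := by
    intro t
    rw [e2, hc_eq]
  exact step_of_sq hG hε h2 hl hl'' hm hi hr e hnext hh hρ e1' e2'

/-- Descent, by means of an auxiliary reversed root. -/
lemma step_s [Fintype F] (hF : Odd (Fintype.card F)) (hε : T.chkRank1 = true) {l l'' m : List ℕ} {i r s : ℕ}
    (hl : ∀ j ∈ l, j < D.rank) (hl'' : ∀ j ∈ l'', j < D.rank) (hm : ∀ j ∈ m, j < D.rank) (hi : i < D.rank)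
    (hr : r < D.nroots) (e : wperm T m (D.simple i) = r)
    (hnext : ∀ q, q < D.nroots → wperm T ((m ++ i :: m.reverse) ++ l) q = wperm T l'' q)
    {h : GL D.Idx F} (hh : h ∈ D.diagonalSubgroup F)
    (hsq : (h * hG.nProd l) * (h * hG.nProd l) = 1) (er : wperm T l r = D.neg r)
    (hs : s < D.nroots) (es : wperm T l s = D.neg s) {ee : ℤ} (ek : D.pairing s (D.neg r) = 2 * ee + 1)
    (ek' : D.pairing s r = -(2 * ee + 1)) :
    ∃ g ∈ D.group F, ∃ h₂ ∈ D.diagonalSubgroup F, g * (h * hG.nProd l) * g⁻¹ = h₂ * hG.nProd l'' := by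
  have h2 := two_ne hF
  obtain ⟨c, hc, e1, e2⟩ := rev_of_perm hG hh hl hr er hsq
  obtain ⟨c', hc', e1', e2'⟩ := rev_of_perm hG hh hl hs es hsq
  have hlam : c⁻¹ ≠ 0 := inv_ne_zero hc
  obtain ⟨u, z, hnorm⟩ := norm_sol hF hc' hlam
  obtain ⟨g₁, hg₁, eg₁⟩ := tw_step_lam hG hε hs hc' hlam hnorm e1' e2'
  have conj2 : ∀ a b x : GL D.Idx F, (a * b) * x * (a * b)⁻¹ = a * (b * x * b⁻¹) * a⁻¹ := by
    intro a b x
    group
  have hρ : c ^ (-ee) ≠ 0 := zpow_ne_zero _ hc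
  have e3 : ∀ t, (hG.hU hs hlam * h * hG.nProd l) * hG.xU hr t * (hG.hU hs hlam * h * hG.nProd l)⁻¹ =
      hG.xU (hG.neg_lt hr) (c ^ (-ee) * c ^ (-ee) * t) := by
    intro t
    rw [mul_assoc (hG.hU hs hlam), conj2, e1, hG.hU_conj_x, ek]
    apply hG.xU_congr _ _ rfl
    have e4 : (c⁻¹) ^ (2 * ee + 1) * c = c ^ (-ee) * c ^ (-ee) := by
      rw [inv_zpow', ← zpow_add_one₀ hc, ← zpow_add₀ hc]
      congr 1
      ring
    rw [← e4]
    ring
  have e4 : ∀ t, (hG.hU hs hlam * h * hG.nProd l) * hG.xU (hG.neg_lt hr) t * (hG.hU hs hlam * h * hG.nProd l)⁻¹ =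
      hG.xU hr ((c ^ (-ee) * c ^ (-ee))⁻¹ * t) := by
    intro t
    rw [mul_assoc (hG.hU hs hlam), conj2, e2, hG.hU_conj_x, ek']
    apply hG.xU_congr _ _ rfl
    have e5 : (c⁻¹) ^ (-(2 * ee + 1)) * c⁻¹ = (c ^ (-ee) * c ^ (-ee))⁻¹ := by
      rw [inv_zpow', neg_neg, ← zpow_add₀ hc, ← zpow_neg, ← zpow_sub_one₀ hc]
      congr 1
      ring
    rw [← e5]
    ring
  obtain ⟨g₂, hg₂, h₂, hh₂, e₂⟩ := step_of_sq hG hε h2 hl hl'' hm hi hr e hnext
    (Subgroup.mul_mem _ (hG.hU_mem hs hlam) hh) hρ e3 e4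
  refine ⟨g₂ * g₁, Subgroup.mul_mem _ hg₂ hg₁, h₂, hh₂, ?_⟩
  rw [← e₂, mul_assoc (hG.hU hs hlam), ← eg₁]
  group

end

end Cfsg.Agent.Lib.Coll.OddGen
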