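/-
Odd characteristic: the order of the centraliser of an involution `h_r(-1)`, for a general table.
-/
import Cfsg.Agent.Lib.Coll.OddGenA

set_option autoImplicit false

namespace Cfsg.Agent.Lib.Coll.OddGen

open Cfsg.Lie Cfsg.Agent.Lib.Chev Cfsg.Agent.Lib.Coll.G2Odd

variable {F : Type*} [Field F] {D : ChevalleyDatum} {T : Tbl}

/-- Functions supported on a list. -/
def Tau (F : Type*) [Field F] (S : List ℕ) : Type _ := {τ : ℕ → F // ∀ r, r ∉ S → τ r = 0}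

/-- Restriction of a function supported on a list. -/
noncomputable def tauEquiv (F : Type*) [Field F] (S : List ℕ) : Tau F S ≃ (↥S.toFinset → F) :=
  { toFun := fun τ x => τ.1 x.1
    invFun := fun f => ⟨fun r => by classical exact if h : r ∈ S.toFinset then f ⟨r, h⟩ else 0, fun r hr => by
      classical
      show (if h : r ∈ S.toFinset then f ⟨r, h⟩ else 0) = 0
      rw [dif_neg]
      simpa using hr⟩
    left_inv := by
      classical
      rintro ⟨τ, hτ⟩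
      apply Subtype.ext
      funext r
      show (if h : r ∈ S.toFinset then τ r else 0) = τ r
      by_cases h : r ∈ S.toFinset
      · rw [dif_pos h]
      · rw [dif_neg h, hτ r (by simpa using h)]
    right_inv := by
      classical
      intro f
      funext ⟨r, hr⟩
      show (if h : r ∈ S.toFinset then f ⟨r, h⟩ else 0) = f ⟨r, hr⟩
      rw [dif_pos hr] }

instance [Finite F] (S : List ℕ) : Finite (Tau F S) := Finite.of_equiv _ (tauEquiv F S).symm

lemma card_Tau [Fintype F] {S : List ℕ} (hS : S.Nodup) : Nat.card (Tau F S) = Fintype.card F ^ S.length := by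
  rw [Nat.card_congr (tauEquiv F S), Nat.card_fun, Nat.card_eq_fintype_card, Nat.card_eq_fintype_card, Fintype.card_coe,
    List.toFinset_card_of_nodup hS]

lemma pos_of_mem {r : ℕ} (h : r ∈ D.posRoots) : D.IsPosRoot r := of_decide_eq_true (List.mem_filter.1 h).2

lemma mem_of_pos {r : ℕ} (h : D.IsPosRoot r) : r ∈ D.posRoots :=
  List.mem_filter.2 ⟨List.mem_range.2 h.1, decide_eq_true h⟩

lemma posRoots_nodup : D.posRoots.Nodup := List.Nodup.filter _ List.nodup_range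

lemma neg1E {a : ℤ} (h : a % 2 = 0) : (-1 : F) ^ a = 1 :=
  Even.neg_one_zpow (Int.even_iff.2 h)

lemma neg1O {a : ℤ} (h : a % 2 = 1) : (-1 : F) ^ a = -1 :=
  Odd.neg_one_zpow (Int.odd_iff.2 h)

lemma parZ (h2 : (2 : F) ≠ 0) {a b : ℤ} (e : (-1 : F) ^ a = (-1 : F) ^ b) : (a - b) % 2 = 0 := by
  have hne : (-1 : F) ≠ 1 := by
    intro h
    apply h2
    linear_combination -h
  rcases Int.emod_two_eq_zero_or_one a with h | h <;> rcases Int.emod_two_eq_zero_or_one b with h' | h'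
  · omega
  · rw [neg1E h, neg1O h'] at e
    exact absurd e.symm hne
  · rw [neg1O h, neg1E h'] at e
    exact absurd e hne
  · omega

/-- The positive roots with negative image under a word. -/
def Pw (T : Tbl) (D : ChevalleyDatum) (l : List ℕ) (r : ℕ) : Prop := wperm T l r < D.nroots / 2

instance (l : List ℕ) (r : ℕ) : Decidable (Pw T D l r) := Nat.decLt _ _

/-- The positive roots on which `h_{rt}(-1)` acts trivially. -/
def S0 (D : ChevalleyDatum) (rt : ℕ) : List ℕ := D.posRoots.filter fun r => decide (D.pairing rt r % 2 = 0)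

/-- The roots of the part of the canonical form. -/
def Rl (T : Tbl) (D : ChevalleyDatum) (rt : ℕ) (l : List ℕ) : List ℕ :=
  D.posRoots.filter fun r => decide (D.pairing rt r % 2 = 0 ∧ wperm T l r < D.nroots / 2)

/-- The properties of the list of Weyl elements commuting with `h_{rt}(-1)`. -/
structure LtOk (T : Tbl) (D : ChevalleyDatum) (rt : ℕ) (Lt : List (List ℕ)) : Prop where
  idx : ∀ l ∈ Lt, ∀ i ∈ l, i < D.rank
  par : ∀ l ∈ Lt, ∀ s, s < D.nroots → (D.pairing (wperm T l rt) s - D.pairing rt s) % 2 = 0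
  dist : Lt.Pairwise (fun l l' => ∃ r, r < D.nroots ∧ wperm T l r ≠ wperm T l' r)
  comp : ∀ l, (∀ i ∈ l, i < D.rank) → (∀ r, r < D.nroots → (D.pairing rt (wperm T l r) - D.pairing rt r) % 2 = 0) →
    ∃ l' ∈ Lt, ∀ r, r < D.nroots → wperm T l r = wperm T l' r

section

variable (hG : T.Good2 D)
include hG

/-- The element of `U` with given coordinates. -/
noncomputable def wd (τ : ℕ → F) : GL D.Idx F := Classical.choose (hG.U_normal_form.2 τ)

lemma wd_mem (τ : ℕ → F) : wd hG τ ∈ D.posUnipotent F := (Classical.choose_spec (hG.U_normal_form.2 τ)).1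

lemma wd_coe (τ : ℕ → F) : (wd hG τ : Matrix D.Idx D.Idx F) = D.wordMat F (D.posRoots.map fun r => (r, τ r)) :=
  (Classical.choose_spec (hG.U_normal_form.2 τ)).2

lemma wd_inj {τ τ' : ℕ → F} (h : ∀ r, ¬ D.IsPosRoot r → τ r = 0) (h' : ∀ r, ¬ D.IsPosRoot r → τ' r = 0)
    (e : wd hG τ = wd hG τ') : τ = τ' := by
  obtain ⟨_, _, huniq⟩ := hG.U_normal_form.1 _ (wd_mem hG τ)
  rw [huniq τ ⟨h, wd_coe hG τ⟩, huniq τ' ⟨h', by rw [e]; exact wd_coe hG τ'⟩]

lemma wd_surj {u : GL D.Idx F} (hu : u ∈ D.posUnipotent F) :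
    ∃ τ : ℕ → F, (∀ r, ¬ D.IsPosRoot r → τ r = 0) ∧ u = wd hG τ := by
  obtain ⟨τ, ⟨h, e⟩, _⟩ := hG.U_normal_form.1 _ hu
  exact ⟨τ, h, Units.ext (by rw [e, wd_coe])⟩

lemma word_mem (Q : ℕ → Prop) (τ : ℕ → F) (L : List ℕ) (hL : ∀ r ∈ L, r < D.nroots) (hτ : ∀ r ∈ L, ¬ Q r → τ r = 0) :
    ∃ g ∈ rootsGen D F Q, (g : Matrix D.Idx D.Idx F) = D.wordMat F (L.map fun r => (r, τ r)) := by
  induction L with
  | nil => exact ⟨1, Subgroup.one_mem _, by simp [wordMat_nil]⟩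
  | cons r L ih =>
    obtain ⟨g, hg, e⟩ := ih (fun s hs => hL s (List.mem_cons_of_mem _ hs)) (fun s hs => hτ s (List.mem_cons_of_mem _ hs))
    have hr := hL r (by simp)
    by_cases hQ : Q r
    · refine ⟨hG.xU hr (τ r) * g, Subgroup.mul_mem _ (Subgroup.subset_closure ⟨r, τ r, hQ, rfl⟩) hg, ?_⟩
      rw [List.map_cons, wordMat_cons, Units.val_mul, e]
      rfl
    · refine ⟨g, hg, ?_⟩
      rw [List.map_cons, wordMat_cons, hτ r (by simp) hQ, x_zero, one_mul, e]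

lemma wd_mem_gen (Q : ℕ → Prop) {τ : ℕ → F} (hτ : ∀ r ∈ D.posRoots, ¬ Q r → τ r = 0) : wd hG τ ∈ rootsGen D F Q := by
  obtain ⟨g, hg, e⟩ := word_mem hG Q τ D.posRoots (fun r hr => (pos_of_mem hr).1) hτ
  have e1 : wd hG τ = g := Units.ext (by rw [wd_coe, e])
  rw [e1]
  exact hg

lemma A_inf_B {l : List ℕ} (hl : ∀ i ∈ l, i < D.rank) {x : GL D.Idx F}
    (hA : x ∈ rootsGen D F (fun r => D.IsPosRoot r ∧ Pw T D l r))
    (hB : x ∈ rootsGen D F (fun r => D.IsPosRoot r ∧ ¬ Pw T D l r)) : x = 1 := by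
  have hV : hG.nProd l * x * (hG.nProd l)⁻¹ ∈ D.negUnipotent F := by
    refine conj_mem_of_gen _ ?_ hA
    rintro y ⟨r, t, ⟨hr, hP⟩, hy⟩
    rw [hG.eq_xU hr.1 hy]
    obtain ⟨c, _, e⟩ := hG.nProd_conj_x (F := F) hl hr.1
    rw [e]
    exact hG.xU_mem_V _ hP _
  have hU : hG.nProd l * x * (hG.nProd l)⁻¹ ∈ D.posUnipotent F := by
    refine conj_mem_of_gen _ ?_ hB
    rintro y ⟨r, t, ⟨hr, hP⟩, hy⟩
    rw [hG.eq_xU hr.1 hy]
    obtain ⟨c, _, e⟩ := hG.nProd_conj_x (F := F) hl hr.1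
    rw [e]
    exact hG.xU_mem_U _ (not_lt.1 hP) _
  have h1 : hG.nProd l * x * (hG.nProd l)⁻¹ ∈ D.borelSubgroup F ⊓ D.negUnipotent F := ⟨Tbl.Good2.le_borel_U hU, hV⟩
  rw [hG.borel_inf_V, Subgroup.mem_bot] at h1
  have e : x = (hG.nProd l)⁻¹ * (hG.nProd l * x * (hG.nProd l)⁻¹) * hG.nProd l := by group
  rw [e, h1]
  group

theorem A_words [Fintype F] {l : List ℕ} (hl : ∀ i ∈ l, i < D.rank) {u : GL D.Idx F}
    (hu : u ∈ rootsGen D F (fun r => D.IsPosRoot r ∧ Pw T D l r)) :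
    ∃ τ : ℕ → F, (∀ r, r ∉ D.posRoots.filter (fun r => decide (Pw T D l r)) → τ r = 0) ∧ u = wd hG τ := by
  classical
  obtain ⟨La, hLa⟩ : ∃ La, La = D.posRoots.filter (fun r => decide (Pw T D l r)) := ⟨_, rfl⟩
  obtain ⟨Lb, hLb⟩ : ∃ Lb, Lb = D.posRoots.filter (fun r => !(decide (Pw T D l r))) := ⟨_, rfl⟩
  rw [← hLa]
  have hlen : D.nroots / 2 = La.length + Lb.length := by
    rw [hLa, hLb, ← List.length_eq_length_filter_add, hG.posRoots_eq, List.length_range']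
  have hna : La.Nodup := by
    rw [hLa]
    exact List.Nodup.filter _ posRoots_nodup
  have hnb : Lb.Nodup := by
    rw [hLb]
    exact List.Nodup.filter _ posRoots_nodup
  have hma : ∀ {r}, r ∈ La → r ∈ D.posRoots ∧ Pw T D l r := by
    intro r hr
    rw [hLa] at hr
    have := List.mem_filter.1 hr
    exact ⟨this.1, of_decide_eq_true this.2⟩
  have hmb : ∀ {r}, r ∈ Lb → r ∈ D.posRoots ∧ ¬ Pw T D l r := by
    intro r hr
    rw [hLb] at hr
    have := List.mem_filter.1 hr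
    refine ⟨this.1, ?_⟩
    simpa using this.2
  have hma' : ∀ {r}, r ∈ D.posRoots → Pw T D l r → r ∈ La := by
    intro r hr hP
    rw [hLa]
    exact List.mem_filter.2 ⟨hr, decide_eq_true hP⟩
  have hmb' : ∀ {r}, r ∈ D.posRoots → ¬ Pw T D l r → r ∈ Lb := by
    intro r hr hP
    rw [hLb]
    refine List.mem_filter.2 ⟨hr, ?_⟩
    simpa using hP
  obtain ⟨A, hA⟩ : ∃ A, A = rootsGen D F (fun r => D.IsPosRoot r ∧ Pw T D l r) := ⟨_, rfl⟩
  obtain ⟨B, hB⟩ : ∃ B, B = rootsGen D F (fun r => D.IsPosRoot r ∧ ¬ Pw T D l r) := ⟨_, rfl⟩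
  rw [← hA] at hu
  have fAm : ∀ τ : Tau F La, wd hG τ.1 ∈ A := by
    intro τ
    rw [hA]
    refine wd_mem_gen hG _ ?_
    intro r hr hQ
    apply τ.2
    intro hmem
    exact hQ ⟨pos_of_mem hr, (hma hmem).2⟩
  have fBm : ∀ τ : Tau F Lb, wd hG τ.1 ∈ B := by
    intro τ
    rw [hB]
    refine wd_mem_gen hG _ ?_
    intro r hr hQ
    apply τ.2
    intro hmem
    exact hQ ⟨pos_of_mem hr, (hmb hmem).2⟩
  have hfA : Function.Injective (fun τ : Tau F La => (⟨wd hG τ.1, fAm τ⟩ : ↥A)) := by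
    intro τ τ' e
    apply Subtype.ext
    refine wd_inj hG ?_ ?_ (congrArg Subtype.val e)
    · intro r hr
      exact τ.2 r (fun hm => hr (pos_of_mem (hma hm).1))
    · intro r hr
      exact τ'.2 r (fun hm => hr (pos_of_mem (hma hm).1))
  have hfB : Function.Injective (fun τ : Tau F Lb => (⟨wd hG τ.1, fBm τ⟩ : ↥B)) := by
    intro τ τ' e
    apply Subtype.ext
    refine wd_inj hG ?_ ?_ (congrArg Subtype.val e)
    · intro r hr
      exact τ.2 r (fun hm => hr (pos_of_mem (hmb hm).1))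
    · intro r hr
      exact τ'.2 r (fun hm => hr (pos_of_mem (hmb hm).1))
  have hc1 : Nat.card (Tau F La) ≤ Nat.card ↥A := Nat.card_le_card_of_injective _ hfA
  have hc2 : Nat.card (Tau F Lb) ≤ Nat.card ↥B := Nat.card_le_card_of_injective _ hfB
  rw [card_Tau hna] at hc1
  rw [card_Tau hnb] at hc2
  have hAU : A ≤ D.posUnipotent F := by
    rw [hA]
    exact rootsGen_pos_le hG _
  have hBU : B ≤ D.posUnipotent F := by
    rw [hB]
    exact rootsGen_pos_le hG _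
  have hinj : Function.Injective (fun p : ↥A × ↥B => (⟨(p.1 : GL D.Idx F) * p.2, Subgroup.mul_mem _ (hAU p.1.2) (hBU p.2.2)⟩ : ↥(D.posUnipotent F))) := by
    rintro ⟨⟨a, ha⟩, ⟨b, hb⟩⟩ ⟨⟨a', ha'⟩, ⟨b', hb'⟩⟩ e
    have e1 : a * b = a' * b' := congrArg Subtype.val e
    have e2 : a'⁻¹ * a = b' * b⁻¹ := by
      have e3 : a = a' * b' * b⁻¹ := by
        rw [← e1]
        group
      rw [e3]
      group
    have hx : a'⁻¹ * a = 1 := by
      refine A_inf_B hG hl ?_ ?_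
      · rw [← hA]
        exact Subgroup.mul_mem _ (Subgroup.inv_mem _ ha') ha
      · rw [← hB, e2]
        exact Subgroup.mul_mem _ hb' (Subgroup.inv_mem _ hb)
    have hy : a = a' := by
      have := inv_mul_eq_one.1 hx
      exact this.symm
    subst hy
    have hz : b = b' := mul_left_cancel e1
    subst hz
    rfl
  have hc3 : Nat.card ↥A * Nat.card ↥B ≤ Fintype.card F ^ (D.nroots / 2) := by
    have h1 := Nat.card_le_card_of_injective _ hinj
    rw [Nat.card_prod, hG.card_U, Nat.card_eq_fintype_card (α := F)] at h1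
    exact h1
  have hq : 0 < Fintype.card F ^ Lb.length := pow_pos Fintype.card_pos _
  have hc4 : Nat.card ↥A ≤ Fintype.card F ^ La.length := by
    apply Nat.le_of_mul_le_mul_right _ hq
    calc Nat.card ↥A * Fintype.card F ^ Lb.length ≤ Nat.card ↥A * Nat.card ↥B := Nat.mul_le_mul_left _ hc2
      _ ≤ Fintype.card F ^ (D.nroots / 2) := hc3
      _ = Fintype.card F ^ La.length * Fintype.card F ^ Lb.length := by rw [hlen, pow_add]
  have hbij := hfA.bijective_of_nat_card_le (by rw [card_Tau hna]; exact hc4)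
  obtain ⟨τ, hτ⟩ := hbij.2 ⟨u, hu⟩
  exact ⟨τ.1, τ.2, (congrArg Subtype.val hτ).symm⟩

lemma Cl_le {h : GL D.Idx F} (hh : h ∈ D.diagonalSubgroup F) {l : List ℕ} (hl : ∀ i ∈ l, i < D.rank) {u : GL D.Idx F}
    (hu : u ∈ Subgroup.closure {x : GL D.Idx F | ∃ (r : ℕ) (t : F), D.IsPosRoot r ∧
      (D.rootSubgroup F r).map (MulAut.conj (h * hG.nProd l)).toMonoidHom ≤ D.negUnipotent F ∧
      (x : Matrix D.Idx D.Idx F) = D.x F r t}) :
    u ∈ rootsGen D F (fun r => D.IsPosRoot r ∧ Pw T D l r) := by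
  refine (Subgroup.closure_le _).2 ?_ hu
  rintro x ⟨r, t, hr, hP, hx⟩
  refine Subgroup.subset_closure ⟨r, t, ⟨hr, ?_⟩, hx⟩
  by_contra hn
  have hn' : D.nroots / 2 ≤ wperm T l r := not_lt.1 hn
  obtain ⟨c, hc, e⟩ := perm_form hG hh hl hr.1
  have h1 := hG.conj_le_V hr.1 hP (1 : F)
  rw [e] at h1
  have h2 := hG.xU_mem_U (F := F) (hG.wperm_lt hl hr.1) hn' (c * 1)
  have h3 : hG.xU (hG.wperm_lt hl hr.1) (c * 1) ∈ D.borelSubgroup F ⊓ D.negUnipotent F := ⟨Tbl.Good2.le_borel_U h2, h1⟩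
  rw [hG.borel_inf_V, Subgroup.mem_bot] at h3
  have h4 := (hG.x_eq_one_iff (hG.wperm_lt hl hr.1) _).1 (congrArg Units.val h3)
  rw [mul_one] at h4
  exact hc h4

lemma wd_mem_Cl {l : List ℕ} (hl : ∀ i ∈ l, i < D.rank) {τ : ℕ → F} (hτ : ∀ r ∈ D.posRoots, ¬ Pw T D l r → τ r = 0) :
    wd hG τ ∈ Subgroup.closure {x : GL D.Idx F | ∃ (r : ℕ) (t : F), D.IsPosRoot r ∧
      (D.rootSubgroup F r).map (MulAut.conj (hG.nProd l)).toMonoidHom ≤ D.negUnipotent F ∧
      (x : Matrix D.Idx D.Idx F) = D.x F r t} := by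
  have h1 := wd_mem_gen hG (τ := τ) (fun r => D.IsPosRoot r ∧
    (D.rootSubgroup F r).map (MulAut.conj (hG.nProd l)).toMonoidHom ≤ D.negUnipotent F) (by
      intro r hr hQ
      apply hτ r hr
      intro hP
      apply hQ
      have hp := pos_of_mem hr
      refine ⟨hp, ?_⟩
      rintro _ ⟨g, hg, rfl⟩
      obtain ⟨a, rfl⟩ := hG.rootSubgroup_mem hp.1 hg
      show hG.nProd l * hG.xU hp.1 a * (hG.nProd l)⁻¹ ∈ _
      obtain ⟨c, _, e⟩ := hG.nProd_conj_x (F := F) hl hp.1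
      rw [e]
      exact hG.xU_mem_V _ hP _)
  refine (Subgroup.closure_mono ?_) h1
  rintro x ⟨r, t, ⟨hr, hP⟩, hx⟩
  exact ⟨r, t, hr, hP, hx⟩

lemma nProd_conj_hU' {l : List ℕ} (hl : ∀ i ∈ l, i < D.rank) {r : ℕ} (hr : r < D.nroots) {c : F} (hc : c ≠ 0) :
    hG.nProd l * hG.hU hr hc * (hG.nProd l)⁻¹ = hG.hU (hG.wperm_lt hl hr) hc := by
  induction l with
  | nil => simp
  | cons i l ih =>
    have hl' : ∀ j ∈ l, j < D.rank := fun j hj => hl j (List.mem_cons_of_mem _ hj)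
    have hi := hl i (by simp)
    rw [hG.nProd_cons, hG.nE_eq hi]
    have e : ∀ a b x : GL D.Idx F, (a * b) * x * (a * b)⁻¹ = a * (b * x * b⁻¹) * a⁻¹ := by
      intro a b x
      group
    rw [e, ih hl', hG.nU_conj_h hi]
    rfl

lemma hU_par {r r' : ℕ} (hr : r < D.nroots) (hr' : r' < D.nroots) (hn : (-1 : F) ≠ 0)
    (hpar : ∀ s, s < D.nroots → (D.pairing r s - D.pairing r' s) % 2 = 0) :
    hG.hU hr hn = hG.hU hr' hn := by
  apply Units.ext
  rw [hG.hU_coe, hG.hU_coe, hG.hMat_eq hr hn, hG.hMat_eq hr' hn]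
  apply Tbl.Good2.diagM_congr
  intro s hs
  obtain ⟨k, hk⟩ := Int.dvd_of_emod_eq_zero (hpar s hs)
  have e : D.pairing r s = D.pairing r' s + 2 * k := by omega
  show (-1 : F) ^ D.pairing r s = (-1 : F) ^ D.pairing r' s
  rw [e, zpow_add₀ hn, zpow_mul]
  simp

lemma perm_of_H' {l l' : List ℕ} (hl : ∀ i ∈ l, i < D.rank) (hl' : ∀ i ∈ l', i < D.rank)
    (hd : (hG.nProd (F := F) l)⁻¹ * hG.nProd l' ∈ D.diagonalSubgroup F) {r : ℕ} (hr : r < D.nroots) :
    wperm T l r = wperm T l' r := by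
  obtain ⟨c₁, hc₁, e₁⟩ := hG.nProd_conj_x (F := F) hl hr
  obtain ⟨c₂, hc₂, e₂⟩ := hG.nProd_conj_x (F := F) hl' hr
  obtain ⟨c₃, hc₃, e₃⟩ := hG.H_conj_x hd hr
  have e : hG.nProd (F := F) l' = hG.nProd l * ((hG.nProd l)⁻¹ * hG.nProd l') := by group
  have e4 := e₂ 1
  rw [e] at e4
  have e5 : ∀ a b x : GL D.Idx F, (a * b) * x * (a * b)⁻¹ = a * (b * x * b⁻¹) * a⁻¹ := by
    intro a b x
    group
  rw [e5, e₃, e₁] at e4
  have hne : c₁ * (c₃ * 1) ≠ 0 := by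
    have : c₁ ≠ 0 := by rcases hc₁ with rfl | rfl <;> simp
    exact mul_ne_zero this (by simpa using hc₃)
  exact hG.x_root_unique (hG.wperm_lt hl hr) (hG.wperm_lt hl' hr) hne (congrArg Units.val e4)

lemma wd_H_inj {τ τ' : ℕ → F} (hτ : ∀ r, ¬ D.IsPosRoot r → τ r = 0) (hτ' : ∀ r, ¬ D.IsPosRoot r → τ' r = 0)
    {h h' : GL D.Idx F} (hh : h ∈ D.diagonalSubgroup F) (hh' : h' ∈ D.diagonalSubgroup F)
    (e : wd hG τ * h = wd hG τ' * h') : τ = τ' ∧ h = h' := by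
  have e1 : (wd hG τ')⁻¹ * wd hG τ = h' * h⁻¹ := by
    have e2 : wd hG τ = wd hG τ' * h' * h⁻¹ := by
      rw [← e]
      group
    rw [e2]
    group
  have hU1 : h' * h⁻¹ ∈ D.posUnipotent F := by
    rw [← e1]
    exact Subgroup.mul_mem _ (Subgroup.inv_mem _ (wd_mem hG _)) (wd_mem hG _)
  have hmem : h' * h⁻¹ ∈ D.posUnipotent F ⊓ D.diagonalSubgroup F := ⟨hU1, Subgroup.mul_mem _ hh' (Subgroup.inv_mem _ hh)⟩
  rw [hG.U_inf_H, Subgroup.mem_bot] at hmem
  have e3 : h' = h := mul_inv_eq_one.1 hmem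
  subst e3
  exact ⟨wd_inj hG hτ hτ' (mul_right_cancel e), rfl⟩

end

section

variable (hG : T.Good2 D) {rt : ℕ} (hrt : rt < D.nroots)

/-- The involution attached to a root. -/
noncomputable def tt : GL D.Idx F := hG.hU hrt (neg_ne_zero.2 one_ne_zero : (-1 : F) ≠ 0)

lemma tt_coe : ((tt hG hrt : GL D.Idx F) : Matrix D.Idx D.Idx F) = diagM D F (fun s => (-1 : F) ^ D.pairing rt s) := by
  rw [tt, hG.hU_coe, hG.hMat_eq hrt (neg_ne_zero.2 one_ne_zero : (-1 : F) ≠ 0)]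

include hG in
lemma tt_char : IsChar D (fun s => (-1 : F) ^ D.pairing rt s) :=
  isChar_zpow (hG.addF_pairing rt) (neg_ne_zero.2 one_ne_zero)

lemma tt_mem : tt (F := F) hG hrt ∈ D.diagonalSubgroup F := hG.hU_mem hrt _

lemma tt_conj {r : ℕ} (hr : r < D.nroots) (s : F) :
    tt hG hrt * hG.xU hr s * (tt hG hrt)⁻¹ = hG.xU hr ((-1 : F) ^ D.pairing rt r * s) :=
  hG.hU_conj_x hrt hr (neg_ne_zero.2 one_ne_zero) s

lemma wd_tt (τ : ℕ → F) : tt hG hrt * wd hG τ = wd hG (fun r => (-1 : F) ^ D.pairing rt r * τ r) * tt hG hrt := by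
  apply Units.ext
  rw [Units.val_mul, Units.val_mul, tt_coe, wd_coe, wd_coe, hG.reg_word (tt_char hG) _ (by
    intro x hx
    obtain ⟨r, hr, rfl⟩ := List.mem_map.1 hx
    exact (pos_of_mem hr).1), List.map_map]
  rfl

lemma wd_fixed_of {τ : ℕ → F} (h : ∀ r, D.pairing rt r % 2 = 1 → τ r = 0) :
    tt hG hrt * wd hG τ * (tt hG hrt)⁻¹ = wd hG τ := by
  have e : (fun r => (-1 : F) ^ D.pairing rt r * τ r) = τ := by
    funext r
    rcases Int.emod_two_eq_zero_or_one (D.pairing rt r) with h1 | h1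
    · rw [neg1E h1, one_mul]
    · rw [h r h1, mul_zero]
  have e1 := wd_tt hG hrt τ
  rw [e] at e1
  exact mul_inv_eq_iff_eq_mul.2 e1

lemma supp_of_fixed (h2 : (2 : F) ≠ 0) {τ : ℕ → F} (hτ : ∀ r, ¬ D.IsPosRoot r → τ r = 0)
    (hc : tt hG hrt * wd hG τ * (tt hG hrt)⁻¹ = wd hG τ) : ∀ r, D.pairing rt r % 2 = 1 → τ r = 0 := by
  have e1 : wd hG τ = wd hG (fun r => (-1 : F) ^ D.pairing rt r * τ r) := by
    have e2 := wd_tt hG hrt τ
    have e3 : wd hG τ * tt hG hrt = wd hG (fun r => (-1 : F) ^ D.pairing rt r * τ r) * tt hG hrt := by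
      rw [← e2]
      exact (mul_inv_eq_iff_eq_mul.1 hc).symm
    exact mul_right_cancel e3
  have e3 := wd_inj hG hτ (fun r hr => by simp only [hτ r hr, mul_zero]) e1
  intro r hr
  have e4 : τ r = (-1 : F) ^ D.pairing rt r * τ r := congrFun e3 r
  rw [neg1O hr] at e4
  have e5 : 2 * τ r = 0 := by linear_combination e4
  exact (mul_eq_zero.1 e5).resolve_left h2

lemma tt_conj_U {u : GL D.Idx F} (hu : u ∈ D.posUnipotent F) :
    tt hG hrt * u * (tt hG hrt)⁻¹ ∈ D.posUnipotent F := by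
  refine conj_mem_of_gen _ ?_ hu
  rintro y ⟨r, t, hr, hy⟩
  rw [hG.eq_xU hr.1 hy, tt_conj hG hrt hr.1]
  exact Subgroup.subset_closure ⟨r, _, hr, rfl⟩

lemma parity_comm (h2 : (2 : F) ≠ 0) {h : GL D.Idx F} (hh : h ∈ D.diagonalSubgroup F) {l : List ℕ}
    (hl : ∀ i ∈ l, i < D.rank) (hc : (h * hG.nProd l) * (tt hG hrt)⁻¹ * (h * hG.nProd l)⁻¹ = (tt hG hrt)⁻¹)
    {r : ℕ} (hr : r < D.nroots) :
    (D.pairing rt (wperm T l r) - D.pairing rt r) % 2 = 0 := by
  obtain ⟨c, hc0, e⟩ := perm_form hG hh hl hr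
  obtain ⟨n, hn⟩ : ∃ n, n = h * hG.nProd l := ⟨_, rfl⟩
  rw [← hn] at e hc
  have hc' : tt hG hrt * n = n * tt hG hrt := by
    have e1 : n * (tt hG hrt)⁻¹ = (tt hG hrt)⁻¹ * n := by
      rw [mul_inv_eq_iff_eq_mul] at hc
      exact hc
    calc tt hG hrt * n = tt hG hrt * (n * (tt hG hrt)⁻¹) * tt hG hrt := by group
      _ = n * tt hG hrt := by rw [e1]; group
  have e2 : tt hG hrt * (n * hG.xU hr (1 : F) * n⁻¹) * (tt hG hrt)⁻¹ = n * (tt hG hrt * hG.xU hr 1 * (tt hG hrt)⁻¹) * n⁻¹ := by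
    have e3 : (tt hG hrt)⁻¹ * n⁻¹ = n⁻¹ * (tt hG hrt)⁻¹ := by
      rw [← mul_inv_rev, ← mul_inv_rev, hc']
    calc tt hG hrt * (n * hG.xU hr (1 : F) * n⁻¹) * (tt hG hrt)⁻¹ = (tt hG hrt * n) * hG.xU hr 1 * (n⁻¹ * (tt hG hrt)⁻¹) := by
          group
      _ = n * (tt hG hrt * hG.xU hr 1 * (tt hG hrt)⁻¹) * n⁻¹ := by
          rw [hc', ← e3]
          group
  rw [e, tt_conj hG hrt, tt_conj hG hrt, e] at e2
  have e4 := xU_inj hG _ e2
  apply parZ h2
  field_simp at e4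
  linear_combination e4

end

end Cfsg.Agent.Lib.Coll.OddGen
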