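/-
Odd characteristic: the order of the centraliser of an involution `h_r(-1)`, for a general table.
-/
import Cfsg.Agent.Lib.Coll.OddGenB

set_option autoImplicit false

namespace Cfsg.Agent.Lib.Coll.OddGen

open Cfsg.Lie Cfsg.Agent.Lib.Chev Cfsg.Agent.Lib.Coll.G2Odd

variable {F : Type*} [Field F] {D : ChevalleyDatum} {T : Tbl}

variable (hG : T.Good2 D) {rt : ℕ} (hrt : rt < D.nroots) {Lt : List (List ℕ)}

/-- The parameters of the centraliser. -/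
abbrev Dom (F : Type*) [Field F] (T : Tbl) (D : ChevalleyDatum) (rt : ℕ) (Lt : List (List ℕ)) : Type _ :=
  Tau F (S0 D rt) × ↥(D.diagonalSubgroup F) × (Σ k : Fin Lt.length, Tau F (Rl T D rt (Lt.get k)))

/-- The parametrisation of the centraliser. -/
noncomputable def phi (p : Dom F T D rt Lt) : GL D.Idx F :=
  wd hG p.1.1 * (p.2.1 : GL D.Idx F) * hG.nProd (Lt.get p.2.2.1) * wd hG p.2.2.2.1

/-- The centraliser of `tt` in `G`. -/
def KC : Set (GL D.Idx F) := {g | g ∈ D.group F ∧ tt hG hrt * g * (tt hG hrt)⁻¹ = g}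

lemma S0_mem {r : ℕ} (h : r ∈ S0 D rt) : r ∈ D.posRoots ∧ D.pairing rt r % 2 = 0 := by
  have := List.mem_filter.1 h
  exact ⟨this.1, of_decide_eq_true this.2⟩

lemma Rl_mem {l : List ℕ} {r : ℕ} (h : r ∈ Rl T D rt l) :
    r ∈ D.posRoots ∧ D.pairing rt r % 2 = 0 ∧ Pw T D l r := by
  have := List.mem_filter.1 h
  have h2 := of_decide_eq_true this.2
  exact ⟨this.1, h2.1, h2.2⟩

lemma tau_S0_odd (τ : Tau F (S0 D rt)) : ∀ r, D.pairing rt r % 2 = 1 → τ.1 r = 0 := by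
  intro r hr
  apply τ.2
  intro hm
  have := (S0_mem hm).2
  omega

lemma tau_S0_pos (τ : Tau F (S0 D rt)) : ∀ r, ¬ D.IsPosRoot r → τ.1 r = 0 := by
  intro r hr
  apply τ.2
  intro hm
  exact hr (pos_of_mem (S0_mem hm).1)

lemma tau_Rl_odd {l : List ℕ} (τ : Tau F (Rl T D rt l)) : ∀ r, D.pairing rt r % 2 = 1 → τ.1 r = 0 := by
  intro r hr
  apply τ.2
  intro hm
  have := (Rl_mem hm).2.1
  omega

lemma tau_Rl_pos {l : List ℕ} (τ : Tau F (Rl T D rt l)) : ∀ r, ¬ D.IsPosRoot r → τ.1 r = 0 := by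
  intro r hr
  apply τ.2
  intro hm
  exact hr (pos_of_mem (Rl_mem hm).1)

lemma tau_Rl_P {l : List ℕ} (τ : Tau F (Rl T D rt l)) : ∀ r ∈ D.posRoots, ¬ Pw T D l r → τ.1 r = 0 := by
  intro r _ hP
  apply τ.2
  intro hm
  exact hP (Rl_mem hm).2.2

lemma get_idx (hL : LtOk T D rt Lt) (k : Fin Lt.length) : ∀ i ∈ Lt.get k, i < D.rank :=
  hL.idx _ (List.get_mem _ _)

lemma tt_comm_n (hL : LtOk T D rt Lt) (k : Fin Lt.length) :
    tt hG hrt * hG.nProd (F := F) (Lt.get k) * (tt hG hrt)⁻¹ = hG.nProd (Lt.get k) := by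
  have e1 : hG.nProd (Lt.get k) * tt (F := F) hG hrt * (hG.nProd (Lt.get k))⁻¹ = tt hG hrt := by
    rw [tt, nProd_conj_hU' hG (get_idx hL k)]
    exact hU_par hG _ _ _ (hL.par _ (List.get_mem _ _))
  have e3 : hG.nProd (Lt.get k) * tt (F := F) hG hrt = tt hG hrt * hG.nProd (Lt.get k) := by
    rw [mul_inv_eq_iff_eq_mul] at e1
    exact e1
  rw [← e3]
  group

lemma phi_mem (hL : LtOk T D rt Lt) (p : Dom F T D rt Lt) : phi hG p ∈ KC hG hrt := by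
  obtain ⟨τ, h, k, τ'⟩ := p
  constructor
  · exact Subgroup.mul_mem _ (Subgroup.mul_mem _ (Subgroup.mul_mem _ (hG.U_le_group (wd_mem hG _)) (hG.H_le_group h.2))
      (hG.N_le_group (hG.nProd_mem_N (get_idx hL k)))) (hG.U_le_group (wd_mem hG _))
  · show tt hG hrt * (wd hG τ.1 * (h : GL D.Idx F) * hG.nProd (Lt.get k) * wd hG τ'.1) * (tt hG hrt)⁻¹ = _
    have e0 : tt (F := F) hG hrt * (h : GL D.Idx F) * (tt (F := F) hG hrt)⁻¹ = h := by
      rw [diagSub_comm (hG.diagonalSubgroup_le (tt_mem (F := F) hG hrt)) (hG.diagonalSubgroup_le h.2)]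
      group
    have e : ∀ t a b c d : GL D.Idx F, t * (a * b * c * d) * t⁻¹ =
        (t * a * t⁻¹) * (t * b * t⁻¹) * (t * c * t⁻¹) * (t * d * t⁻¹) := by
      intro t a b c d
      group
    rw [e, wd_fixed_of hG hrt (tau_S0_odd τ), e0, tt_comm_n hG hrt hL, wd_fixed_of hG hrt (tau_Rl_odd τ')]
    rfl

lemma index_eq (hL : LtOk T D rt Lt) {k k' : Fin Lt.length}
    (h : ∀ r, r < D.nroots → wperm T (Lt.get k) r = wperm T (Lt.get k') r) : k = k' := by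
  have hp := List.pairwise_iff_getElem.1 hL.dist
  rcases lt_trichotomy k.1 k'.1 with h1 | h1 | h1
  · obtain ⟨r, hr, e⟩ := hp k.1 k'.1 k.2 k'.2 h1
    exact absurd (h r hr) e
  · exact Fin.ext h1
  · obtain ⟨r, hr, e⟩ := hp k'.1 k.1 k'.2 k.2 h1
    exact absurd (h r hr).symm e

lemma phi_inj (hL : LtOk T D rt Lt) {p p' : Dom F T D rt Lt} (e : phi hG p = phi hG p') : p = p' := by
  obtain ⟨τ, h, k, τ'⟩ := p
  obtain ⟨τ₂, h₂, k₂, τ₂'⟩ := p'
  have hmemB : ∀ (a : Tau F (S0 D rt)) (z : ↥(D.diagonalSubgroup F)), wd hG a.1 * (z : GL D.Idx F) ∈ D.borelSubgroup F :=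
    fun a z => Subgroup.mul_mem _ (Tbl.Good2.le_borel_U (wd_mem hG _)) (Tbl.Good2.le_borel_H z.2)
  obtain ⟨hd, hnn⟩ := (hG.canonical_form (F := F)).2 _ _ _ _ _ _ (hmemB τ h) (hmemB τ₂ h₂)
    (hG.nProd_mem_N (get_idx hL k)) (hG.nProd_mem_N (get_idx hL k₂))
    (wd_mem_Cl hG (get_idx hL k) (tau_Rl_P τ')) (wd_mem_Cl hG (get_idx hL k₂) (tau_Rl_P τ₂')) e
  have hk : k = k₂ := index_eq hL (fun r hr => perm_of_H' hG (get_idx hL k) (get_idx hL k₂) hd hr)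
  subst hk
  obtain ⟨e3, e4⟩ := hnn rfl
  obtain ⟨e5, e6⟩ := wd_H_inj hG (tau_S0_pos τ) (tau_S0_pos τ₂) h.2 h₂.2 e3
  have e7 := wd_inj hG (tau_Rl_pos τ') (tau_Rl_pos τ₂') e4
  have e8 : τ = τ₂ := Subtype.ext e5
  have e9 : τ' = τ₂' := Subtype.ext e7
  have e10 : h = h₂ := Subtype.ext e6
  subst e8 e9 e10
  rfl

lemma phi_surj [Fintype F] (h2 : (2 : F) ≠ 0) (hL : LtOk T D rt Lt) {g : GL D.Idx F} (hg : g ∈ KC hG hrt) :
    ∃ p : Dom F T D rt Lt, phi hG p = g := by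
  obtain ⟨hgG, hgc⟩ := hg
  obtain ⟨b, hb, n, hn, u, hu, rfl⟩ := (hG.canonical_form (F := F)).1 g hgG
  have huq := (hG.canonical_form (F := F)).2
  obtain ⟨t, ht⟩ : ∃ t, t = tt (F := F) hG hrt := ⟨_, rfl⟩
  rw [← ht] at hgc
  have htH : t ∈ D.diagonalSubgroup F := by rw [ht]; exact tt_mem hG hrt
  obtain ⟨d, hd⟩ : ∃ d, d = t * (n * t⁻¹ * n⁻¹) := ⟨_, rfl⟩
  have hdH : d ∈ D.diagonalSubgroup F := by
    rw [hd]
    exact Subgroup.mul_mem _ htH (hG.N_conj_H hn (Subgroup.inv_mem _ htH))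
  have e : (t * b * t⁻¹ * d) * n * (t * u * t⁻¹) = b * n * u := by
    rw [← hgc, hd]
    group
  have hu' : t * u * t⁻¹ ∈ Subgroup.closure {x : GL D.Idx F | ∃ (r : ℕ) (t : F), D.IsPosRoot r ∧
      (D.rootSubgroup F r).map (MulAut.conj n).toMonoidHom ≤ D.negUnipotent F ∧ (x : Matrix D.Idx D.Idx F) = D.x F r t} := by
    refine conj_mem_of_gen _ ?_ hu
    rintro y ⟨r, s, hr, hP, hy⟩
    rw [hG.eq_xU hr.1 hy, ht, tt_conj hG hrt hr.1]
    exact Subgroup.subset_closure ⟨r, _, hr, hP, rfl⟩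
  have hbb : t * b * t⁻¹ * d ∈ D.borelSubgroup F :=
    Subgroup.mul_mem _ (Subgroup.mul_mem _ (Subgroup.mul_mem _ (Tbl.Good2.le_borel_H htH) hb)
      (Subgroup.inv_mem _ (Tbl.Good2.le_borel_H htH))) (Tbl.Good2.le_borel_H hdH)
  obtain ⟨e₁, e₂⟩ := (huq _ _ _ _ _ _ hbb hb hn hn hu' hu e).2 rfl
  obtain ⟨v, hv, h₀, hh₀, rfl⟩ := hG.mem_borel hb
  have e3 : t * h₀ * t⁻¹ = h₀ := by
    rw [diagSub_comm (hG.diagonalSubgroup_le htH) (hG.diagonalSubgroup_le hh₀)]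
    group
  have e4 : (t * v * t⁻¹) * (h₀ * d) = v * h₀ := by
    rw [← e₁]
    have e5 : t * (v * h₀) * t⁻¹ * d = (t * v * t⁻¹) * (t * h₀ * t⁻¹) * d := by group
    rw [e5, e3]
    group
  have e5 : v⁻¹ * (t * v * t⁻¹) = h₀ * d⁻¹ * h₀⁻¹ := by
    have e6 : t * v * t⁻¹ = v * h₀ * (h₀ * d)⁻¹ := by
      rw [← e4]
      group
    rw [e6]
    group
  have hmem : v⁻¹ * (t * v * t⁻¹) ∈ D.posUnipotent F ⊓ D.diagonalSubgroup F := by
    constructor
    · refine Subgroup.mul_mem _ (Subgroup.inv_mem _ hv) ?_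
      rw [ht]
      exact tt_conj_U hG hrt hv
    · rw [e5]
      exact Subgroup.mul_mem _ (Subgroup.mul_mem _ hh₀ (Subgroup.inv_mem _ hdH)) (Subgroup.inv_mem _ hh₀)
  rw [hG.U_inf_H, Subgroup.mem_bot] at hmem
  have hvc : t * v * t⁻¹ = v := by
    have := inv_mul_eq_one.1 hmem
    exact this.symm
  have hd1 : d = 1 := by
    rw [hmem] at e5
    have e6 : h₀ * d⁻¹ = h₀ := (mul_inv_eq_one.1 e5.symm)
    have e7 : d⁻¹ = 1 := mul_left_cancel (a := h₀) (by rw [e6, mul_one])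
    exact inv_eq_one.1 e7
  have hnc : n * t⁻¹ * n⁻¹ = t⁻¹ := by
    rw [hd1] at hd
    exact (eq_inv_of_mul_eq_one_right hd.symm)
  have huU : u ∈ D.posUnipotent F := by
    refine (Subgroup.closure_le _).2 ?_ hu
    rintro x ⟨r, s, hr, _, hx⟩
    exact Subgroup.subset_closure ⟨r, s, hr, hx⟩
  rw [ht] at hvc e₂ hnc
  obtain ⟨τ, hτ, rfl⟩ := wd_surj hG hv
  have hτodd := supp_of_fixed hG hrt h2 hτ hvc
  obtain ⟨h₁, hh₁, l, hl, rfl⟩ := hG.N_form hn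
  obtain ⟨l', hl', hperm⟩ := hL.comp l hl (fun r hr => parity_comm hG hrt h2 hh₁ hl hnc hr)
  have hidx := hL.idx l' hl'
  obtain ⟨z, hz, ez⟩ := over_perm (F := F) hG hl hidx hperm
  have e0 : h₁ * hG.nProd l = (h₁ * z) * hG.nProd l' := by rw [ez, mul_assoc]
  rw [e0] at hu
  have hh₂ : h₁ * z ∈ D.diagonalSubgroup F := Subgroup.mul_mem _ hh₁ hz
  obtain ⟨τ', hτ', rfl⟩ := A_words hG hidx (Cl_le hG hh₂ hidx hu)
  have hτ'pos : ∀ r, ¬ D.IsPosRoot r → τ' r = 0 := by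
    intro r hr
    apply hτ'
    intro hm
    exact hr (pos_of_mem (List.mem_filter.1 hm).1)
  have hτ'odd := supp_of_fixed hG hrt h2 hτ'pos e₂
  obtain ⟨k, hk⟩ := List.mem_iff_get.1 hl'
  subst hk
  refine ⟨(⟨τ, ?_⟩, ⟨h₀ * (h₁ * z), Subgroup.mul_mem _ hh₀ hh₂⟩, ⟨k, ⟨τ', ?_⟩⟩), ?_⟩
  · intro r hr
    by_cases hp : D.IsPosRoot r
    · rcases Int.emod_two_eq_zero_or_one (D.pairing rt r) with h1 | h1
      · exact absurd (List.mem_filter.2 ⟨mem_of_pos hp, decide_eq_true h1⟩) hr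
      · exact hτodd r h1
    · exact hτ r hp
  · intro r hr
    by_cases hp : r ∈ D.posRoots
    · rcases Int.emod_two_eq_zero_or_one (D.pairing rt r) with h1 | h1
      · apply hτ'
        intro hm
        exact hr (List.mem_filter.2 ⟨hp, decide_eq_true ⟨h1, of_decide_eq_true (List.mem_filter.1 hm).2⟩⟩)
      · exact hτ'odd r h1
    · exact hτ'pos r (fun h => hp (mem_of_pos h))
  · show wd hG τ * (h₀ * (h₁ * z)) * hG.nProd (Lt.get k) * wd hG τ' = wd hG τ * h₀ * (h₁ * hG.nProd l) * wd hG τ'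
    rw [e0]
    group

/-- The order of the centraliser of `tt`. -/
theorem card_KC' [Fintype F] (h2 : (2 : F) ≠ 0) (hL : LtOk T D rt Lt) :
    Nat.card ↥(KC (F := F) hG hrt) = Fintype.card F ^ (S0 D rt).length * Nat.card ↥(D.diagonalSubgroup F) *
      (Lt.map fun l => Fintype.card F ^ (Rl T D rt l).length).sum := by
  have hcard : Nat.card (Dom F T D rt Lt) = Nat.card ↥(KC (F := F) hG hrt) := by
    refine Nat.card_congr (Equiv.ofBijective (fun p => (⟨phi hG p, phi_mem hG hrt hL p⟩ : ↥(KC (F := F) hG hrt))) ⟨?_, ?_⟩)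
    · intro p p' e
      exact phi_inj hG hL (congrArg Subtype.val e)
    · rintro ⟨g, hg⟩
      obtain ⟨p, hp⟩ := phi_surj hG hrt h2 hL hg
      exact ⟨p, Subtype.ext hp⟩
  have e0 : Nat.card (Tau F (S0 D rt)) = Fintype.card F ^ (S0 D rt).length := card_Tau (List.Nodup.filter _ posRoots_nodup)
  rw [← hcard, Nat.card_prod, Nat.card_prod, Nat.card_sigma, e0]
  have e : ∀ k : Fin Lt.length, Nat.card (Tau F (Rl T D rt (Lt.get k))) = Fintype.card F ^ (Rl T D rt (Lt.get k)).length :=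
    fun k => card_Tau (List.Nodup.filter _ posRoots_nodup)
  simp only [e]
  have e2 := Fin.sum_univ_fun_getElem Lt (fun l => Fintype.card F ^ (Rl T D rt l).length)
  have e3 : ∑ k : Fin Lt.length, Fintype.card F ^ (Rl T D rt (Lt.get k)).length = (Lt.map fun l => Fintype.card F ^ (Rl T D rt l).length).sum := e2
  rw [e3, mul_assoc]

end Cfsg.Agent.Lib.Coll.OddGen
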