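/-
Twisted groups: an element of `N` interchanging the positive and the negative roots is the longest element of the
Weyl group of the fixed points, and non-trivial elements of `U` fix no chamber of the big cell.
-/
import Cfsg.Agent.Lib.Coll.BNCent
import Cfsg.Agent.Lib.Tw.BN3

set_option autoImplicit false

namespace Cfsg.Agent.Lib.Chev

open Cfsg Cfsg.Lie Cfsg.Agent.Lib.BN Cfsg.Agent.Lib.BNSt

variable {F : Type*} [Field F] {D : ChevalleyDatum} {T : Tbl}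

namespace TwN

variable {hG : T.Good2 D} {S : Tw hG F} {O : TwOrb T D S.τ} (A : TwN S O)
include A

/-- An element of `N` taking the negative roots to positive ones has the longest label. -/
theorem isW0_of_opp {m : ↥S.fix} (hmN : (m : GL D.Idx F) ∈ D.monomialSubgroup F)
    (hV : ∀ v ∈ D.negUnipotent F, (m : GL D.Idx F) * v * (m : GL D.Idx F)⁻¹ ∈ D.posUnipotent F) :
    IsW0 A.bn (ws A.bn m) := by
  set P := A.bn with hP
  have hm : m ∈ P.N := Subgroup.mem_subgroupOf.2 hmN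
  refine (coxLen P).top_of_right subset_rfl ((coxLen P).closure_S _) ?_
  rintro _ ⟨s, hs, rfl⟩
  by_contra hcon
  have hstep := (coxLen P).step_r (s := ws P s) ⟨s, hs, rfl⟩ (ws P m)
  have hup : wlen P (ws P m * ws P s) = wlen P (ws P m) + 1 := by
    change wlen P _ = wlen P _ + 1 ∨ wlen P _ + 1 = wlen P _ at hstep
    change ¬ wlen P _ < wlen P _ at hcon
    omega
  have hs' := hs
  obtain ⟨j, hj, hsj⟩ := hs'
  obtain ⟨x, hx, hxf, hne⟩ := A.nontriv j hj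
  have hsN : s ∈ P.N := S_mem_N hs
  have hxB : (⟨x, hxf⟩ : ↥S.fix) ∈ P.B := Subgroup.mem_subgroupOf.2 (Tbl.Good2.le_borel_U (X_le_U _ hx))
  -- the conjugate
  set z : ↥S.fix := s * ⟨x, hxf⟩ * s⁻¹ with hz
  have hzV : (z : GL D.Idx F) ∈ D.negUnipotent F := by
    show (s : GL D.Idx F) * x * (s : GL D.Idx F)⁻¹ ∈ _
    rw [hsj]
    exact Y_le_V _ (A.conj_X hj hx)
  have hz1 : z ≠ 1 := by
    intro h1
    rw [hz, conj_eq_one_iff] at h1
    exact hne (congrArg Subtype.val h1)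
  have hzB : z ∉ P.B := by
    intro h1
    have h2 : (z : GL D.Idx F) ∈ D.borelSubgroup F ⊓ D.negUnipotent F := ⟨Subgroup.mem_subgroupOf.1 h1, hzV⟩
    rw [hG.borel_inf_V, Subgroup.mem_bot] at h2
    exact hz1 (Subtype.ext h2)
  have hsq : s * s ∈ P.B := P.sq_mem s hs
  have hzC : z ∈ C P s := by
    rcases P.mul_mem_union s hs s⁻¹ (inv_mem hsN) _ hxB with h1 | h1
    · exfalso
      apply hzB
      rw [mul_inv_cancel] at h1
      obtain ⟨b₁, hb₁, b₂, hb₂, e⟩ := mem_C.1 h1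
      rw [hz, e]
      simpa using mul_mem hb₁ hb₂
    · have e1 : s⁻¹ ∈ C P s := by
        have e : s⁻¹ = s * (s * s)⁻¹ := by group
        rw [e]
        exact mem_C_mul_right (inv_mem hsq)
      have e2 : C P s⁻¹ = C P s := C_eq_of_mem e1
      rw [← e2]
      exact h1
  have hl1 : lbl P z = ws P s := lbl_of_mem hsN hzC
  have hl2 : lbl P m = ws P m := lbl_ws hm
  have h1 : lbl P (m * z) = ws P m * ws P s := by
    rw [lbl_mul_add (by rw [hl1, hl2, hup, (coxLen P).len_S (s := ws P s) ⟨s, hs, rfl⟩ |> fun h => (show wlen P (ws P s) = 1 from h)]),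
      hl1, hl2]
  have hyU : (m : GL D.Idx F) * z * (m : GL D.Idx F)⁻¹ ∈ D.posUnipotent F := hV _ hzV
  have e2 : m * z = (m * z * m⁻¹) * m := by group
  have hyB : m * z * m⁻¹ ∈ P.B := Subgroup.mem_subgroupOf.2 (Tbl.Good2.le_borel_U (by exact_mod_cast hyU))
  rw [e2, lbl_B_mul hyB, hl2] at h1
  have h3 : ws P s = 1 := by
    have := mul_left_cancel (a := ws P m) (b := 1) (c := ws P s) (by rw [mul_one]; exact h1)
    exact this.symm
  exact S_not_mem_T hs ((ws_eq_one_iff hsN).1 h3)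

/-- Non-trivial elements of `U` fix no chamber of the big cell. -/
theorem no_fix_big {m : ↥S.fix} (hmN : (m : GL D.Idx F) ∈ D.monomialSubgroup F)
    (hV : ∀ v ∈ D.negUnipotent F, (m : GL D.Idx F) * v * (m : GL D.Idx F)⁻¹ ∈ D.posUnipotent F)
    (hU : ∀ u ∈ D.posUnipotent F, (m : GL D.Idx F)⁻¹ * u * (m : GL D.Idx F) ∈ D.negUnipotent F)
    {t : ↥S.fix} (ht : (t : GL D.Idx F) ∈ D.posUnipotent F) (ht1 : t ≠ 1) (Q : ↥S.fix ⧸ A.bn.B) (hQ : t • Q = Q) :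
    ¬ IsW0 A.bn (lblQ Q) := by
  obtain ⟨g, rfl⟩ := QuotientGroup.mk_surjective Q
  intro htop
  rw [lblQ_mk] at htop
  set P := A.bn with hP
  have hm : m ∈ P.N := Subgroup.mem_subgroupOf.2 hmN
  have e := (coxLen P).top_unique subset_rfl htop (A.isW0_of_opp hmN hV)
  obtain ⟨b₁, hb₁, b₂, hb₂, rfl⟩ := mem_C.1 (mem_C_of_lbl hm e)
  have h1 : (b₁ * m * b₂)⁻¹ * (t * (b₁ * m * b₂)) ∈ P.B := QuotientGroup.eq.1 hQ.symm
  have e1 : (b₁ * m * b₂)⁻¹ * (t * (b₁ * m * b₂)) = b₂⁻¹ * (m⁻¹ * (b₁⁻¹ * t * b₁) * m) * b₂ := by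
    group
  rw [e1] at h1
  have h2 : m⁻¹ * (b₁⁻¹ * t * b₁) * m ∈ P.B := by
    have e3 : m⁻¹ * (b₁⁻¹ * t * b₁) * m = b₂ * (b₂⁻¹ * (m⁻¹ * (b₁⁻¹ * t * b₁) * m) * b₂) * b₂⁻¹ := by group
    rw [e3]
    exact mul_mem (mul_mem hb₂ h1) (inv_mem hb₂)
  have hb₁' : (b₁ : GL D.Idx F) ∈ D.borelSubgroup F := Subgroup.mem_subgroupOf.1 hb₁
  -- the conjugate of `t` lies in `U`
  have h3 : (b₁ : GL D.Idx F)⁻¹ * t * b₁ ∈ D.posUnipotent F := by
    obtain ⟨u, hu, k, hk, e4⟩ := hG.mem_borel hb₁'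
    rw [e4]
    have e5 : (u * k)⁻¹ * (t : GL D.Idx F) * (u * k) = k⁻¹ * (u⁻¹ * t * u) * k := by group
    rw [e5]
    have h4 : u⁻¹ * (t : GL D.Idx F) * u ∈ D.posUnipotent F := mul_mem (mul_mem (inv_mem hu) ht) hu
    have h5 := (Subgroup.mem_normalizer_iff.1 (hG.H_le_normalizer_U (inv_mem hk)) _).1 h4
    simpa using h5
  have h6 := hU _ h3
  have h7 : (m : GL D.Idx F)⁻¹ * ((b₁ : GL D.Idx F)⁻¹ * t * b₁) * m ∈ D.borelSubgroup F ⊓ D.negUnipotent F :=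
    ⟨by
      have := Subgroup.mem_subgroupOf.1 h2
      simpa using this, h6⟩
  rw [hG.borel_inf_V, Subgroup.mem_bot] at h7
  have h8 : (b₁ : GL D.Idx F)⁻¹ * t * b₁ = 1 := by
    have e6 : (b₁ : GL D.Idx F)⁻¹ * t * b₁ = m * ((m : GL D.Idx F)⁻¹ * ((b₁ : GL D.Idx F)⁻¹ * t * b₁) * m) * (m : GL D.Idx F)⁻¹ := by group
    rw [e6, h7]
    group
  apply ht1
  apply Subtype.ext
  have h9 : (t : GL D.Idx F) = b₁ * ((b₁ : GL D.Idx F)⁻¹ * t * b₁) * (b₁ : GL D.Idx F)⁻¹ := by group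
  rw [h9, h8]
  simp

end TwN

end Cfsg.Agent.Lib.Chev
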