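/-
The group ²F₄(q): the primes dividing the order of the centraliser of an involution.
-/
import Cfsg.Agent.Lib.Coll.TwTop
import Cfsg.Agent.Lib.Coll.ReeG

set_option autoImplicit false
set_option maxRecDepth 100000

namespace Cfsg.Agent.Lib.Chev

open Cfsg Cfsg.Lie Coll Cfsg.Agent.Lib.BN Cfsg.Agent.Lib.BNSt

/-- A word for the longest element of the Weyl group. -/
def longF4 : List ℕ := ([[0, 3], [1, 2, 1, 2], [0, 3], [1, 2, 1, 2], [0, 3], [1, 2, 1, 2], [0, 3], [1, 2, 1, 2]] : List (List ℕ)).flatten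

theorem longF4_neg : ∀ r, r < 48 → wperm digF4.tbl longF4 r = chevF4.neg r ∧ chevF4.neg (chevF4.neg r) = r ∧ chevF4.neg r < 48 ∧
    (24 ≤ r → chevF4.neg r < 24) ∧ (r < 24 → 24 ≤ chevF4.neg r) := by decide +kernel

theorem longF4_lt : ∀ i ∈ longF4, i < chevF4.rank := by decide +kernel

/-- Labels of the parabolic subgroup of the long orbit. -/
def parOrbF4L : List (ℕ × ℕ) := [(281474959933440, 0), (281473455882240, 2)]

theorem chkParOrbF4L : digF4.tbl.chkOrbT 2 inJF4 wJF4 hdF4 wtF4 6 0 281474959933440 parOrbF4L = true := by decide +kernel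

theorem sumParOrbF4L (q : ℕ) : (parOrbF4L.map fun e => q ^ e.2).sum = 1 + q ^ 2 := by
  simp only [parOrbF4L, List.map_cons, List.map_nil, List.sum_cons, List.sum_nil]
  ring

section

variable {K : Type*} [Field K] [CharP K 2]

/-- The element interchanging positive and negative roots. -/
noncomputable def nLongF4 : GL chevF4.Idx K := good3F4.toGood2.nProd longF4

lemma nLongF4_xN {r : ℕ} (hr : r < 48) (t : K) :
    nLongF4 * good3F4.toGood2.xN r t * nLongF4⁻¹ = good3F4.toGood2.xN (chevF4.neg r) t := by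
  unfold nLongF4
  rw [good3F4.toGood2.nProd_xN longF4_lt hr t, (longF4_neg r hr).1]

lemma nLongF4_inv_xN {r : ℕ} (hr : r < 48) (t : K) :
    nLongF4⁻¹ * good3F4.toGood2.xN r t * nLongF4 = good3F4.toGood2.xN (chevF4.neg r) t := by
  have h := longF4_neg r hr
  have e := nLongF4_xN (K := K) h.2.2.1 t
  rw [h.2.1] at e
  rw [← e]
  group

lemma nLongF4_V {v : GL chevF4.Idx K} (hv : v ∈ chevF4.negUnipotent K) : nLongF4 * v * nLongF4⁻¹ ∈ chevF4.posUnipotent K := by
  have hG := good3F4.toGood2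
  have key : chevF4.negUnipotent K ≤ (chevF4.posUnipotent K).comap (MulAut.conj (nLongF4 (K := K))).toMonoidHom := by
    refine (Subgroup.closure_le _).2 ?_
    rintro g ⟨r, t, hr, hg⟩
    have hrl : r < chevF4.nroots := hr.1
    have e : g = good3F4.toGood2.xN r t := by
      rw [good3F4.toGood2.xN_of_lt hrl]
      exact good3F4.toGood2.eq_xU hrl hg
    show nLongF4 * g * nLongF4⁻¹ ∈ chevF4.posUnipotent K
    rw [e, nLongF4_xN hrl t]
    have h := longF4_neg r hrl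
    have hneg : r < 24 := by
      have := (hG.isNeg_iff hrl).1 hr
      exact this
    rw [good3F4.toGood2.xN_of_lt h.2.2.1]
    exact good3F4.toGood2.xU_mem_U _ (h.2.2.2.2 hneg) _
  exact key hv

lemma nLongF4_U {u : GL chevF4.Idx K} (hu : u ∈ chevF4.posUnipotent K) : nLongF4⁻¹ * u * nLongF4 ∈ chevF4.negUnipotent K := by
  have hG := good3F4.toGood2
  have key : chevF4.posUnipotent K ≤ (chevF4.negUnipotent K).comap (MulAut.conj (nLongF4 (K := K))⁻¹).toMonoidHom := by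
    refine (Subgroup.closure_le _).2 ?_
    rintro g ⟨r, t, hr, hg⟩
    have hrl : r < chevF4.nroots := hr.1
    have e : g = good3F4.toGood2.xN r t := by
      rw [good3F4.toGood2.xN_of_lt hrl]
      exact good3F4.toGood2.eq_xU hrl hg
    show nLongF4⁻¹ * g * nLongF4⁻¹⁻¹ ∈ chevF4.negUnipotent K
    rw [inv_inv, e, nLongF4_inv_xN hrl t]
    have h := longF4_neg r hrl
    have hpos : 24 ≤ r := (hG.isPos_iff hrl).1 hr
    rw [good3F4.toGood2.xN_of_lt h.2.2.1]
    exact good3F4.toGood2.xU_mem_V _ (h.2.2.2.1 hpos) _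
  have := key hu
  simpa using this

end

section

variable {K : Type*} [Field K] [CharP K 2] (hperf : ∀ x : K, ∃ y : K, y ^ 2 = x) (φ : K ≃+* K)

lemma nLongF4_fix (hφ : ∀ x, φ (φ (x ^ 2)) = x) : (nLongF4 : GL chevF4.Idx K) ∈ (twF4 hperf φ).fix :=
  nProd_n0n1_fix hperf φ hφ [[0, 3], [1, 2, 1, 2], [0, 3], [1, 2, 1, 2], [0, 3], [1, 2, 1, 2], [0, 3], [1, 2, 1, 2]] (by simp)

/-- The generators of the Weyl group of the fixed points. -/
noncomputable def rF4 (hφ : ∀ x, φ (φ (x ^ 2)) = x) (j : ℕ) : ↥(twF4 hperf φ).fix :=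
  if h : j < 2 then (twnF4 hperf φ hφ).sF j h else 1

lemma rF4_coe (hφ : ∀ x, φ (φ (x ^ 2)) = x) {j : ℕ} (h : j < 2) : (rF4 hperf φ hφ j : GL chevF4.Idx K) = (twnF4 hperf φ hφ).n j := by
  unfold rF4
  rw [dif_pos h]
  rfl

lemma isGens_rF4 (hφ : ∀ x, φ (φ (x ^ 2)) = x) : IsGens (twnF4 hperf φ hφ).bn (Finset.range 2) (rF4 hperf φ hφ) where
  mem i hi := ⟨i, Finset.mem_range.1 hi, rF4_coe hperf φ hφ (Finset.mem_range.1 hi)⟩
  surj s hs := by
    obtain ⟨j, hj, e⟩ := hs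
    have hj' : j < 2 := hj
    exact ⟨j, Finset.mem_range.2 hj', Subtype.ext ((rF4_coe hperf φ hφ hj').trans e.symm)⟩

/-- A proper parabolic subgroup of the fixed points lies in one of two subgroups. -/
lemma par_le_mask (hφ : ∀ x, φ (φ (x ^ 2)) = x) {J : Finset ℕ} {M i : ℕ} (hi : i < 4) (hiM : M.testBit i = true) (hi2 : inJF4 i < 2)
    (hJ : ∀ j ∈ J, j = inJF4 i) (hM : ∀ a, a < 4 → ∀ b, b < 4 → inJF4 a = inJF4 b → M.testBit a = M.testBit b) {x : ↥(twF4 hperf φ).fix}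
    (hx : x ∈ (twnF4 hperf φ hφ).bn.parabolic (rF4 hperf φ hφ '' (J : Set ℕ))) :
    (x : GL chevF4.Idx K) ∈ chevF4.parabolicSubgroup K (maskSet M) ⊓ (twF4 hperf φ).fix := by
  refine ⟨?_, x.2⟩
  have hle : (twnF4 hperf φ hφ).bn.parabolic (rF4 hperf φ hφ '' (J : Set ℕ)) ≤ (chevF4.parabolicSubgroup K (maskSet M)).subgroupOf (twF4 hperf φ).fix := by
    refine sup_le ?_ ((Subgroup.closure_le _).2 ?_)
    · intro g hg
      exact Subgroup.mem_subgroupOf.2 (Tbl.Good2.B_le_parabolic good3F4.toGood2 _ (Subgroup.mem_subgroupOf.1 hg))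
    · rintro _ ⟨j, hj, rfl⟩
      have hj' := hJ j hj
      subst hj'
      refine Subgroup.mem_subgroupOf.2 ?_
      rw [rF4_coe hperf φ hφ hi2]
      have hlet : ∀ j, j < orbF4.m → ∀ i ∈ orbF4.wJ j, orbF4.inJ i = j := by
        have : ∀ j, j < 2 → ∀ i ∈ wJF4 j, inJF4 i = j := by decide +kernel
        exact this
      refine (twnF4 hperf φ hφ).n_mem_par hlet (i := i) ?_ hi hiM
      intro a b ha hb e
      have := hM a ha b hb e
      show M.testBit a = true ↔ M.testBit b = true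
      rw [this]
  exact Subgroup.mem_subgroupOf.1 (hle hx)

/-- An element of prime order commuting with a non-trivial element of `U`. -/
theorem comm_U_F4 (hφ : ∀ x, φ (φ (x ^ 2)) = x) [Finite K] {t b : ↥(twF4 hperf φ).fix} (ht : (t : GL chevF4.Idx K) ∈ chevF4.posUnipotent K) (ht1 : t ≠ 1)
    (hc : Commute t b) {p : ℕ} (hp : p.Prime) (hb : orderOf b = p) :
    p ∣ Nat.card ↥(chevF4.parabolicSubgroup K (maskSet 9) ⊓ (twF4 hperf φ).fix) ∨ p ∣ Nat.card ↥(chevF4.parabolicSubgroup K (maskSet 6) ⊓ (twF4 hperf φ).fix) := by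
  classical
  set A := twnF4 hperf φ hφ with hA
  haveI : Finite ↥(twF4 hperf φ).fix := inferInstance
  let m : ↥(twF4 hperf φ).fix := ⟨nLongF4, nLongF4_fix hperf φ hφ⟩
  have hmN : (m : GL chevF4.Idx K) ∈ chevF4.monomialSubgroup K := good3F4.toGood2.nProd_mem_N longF4_lt
  have hB : t ∈ A.bn.B := Subgroup.mem_subgroupOf.2 (Tbl.Good2.le_borel_U ht)
  obtain ⟨J, hJ, hne, g, hg⟩ := exists_conj_parabolic (isGens_rF4 hperf φ hφ) hB
    (fun Q hQ => A.no_fix_big hmN (fun v hv => nLongF4_V hv) (fun u hu => nLongF4_U hu) ht ht1 Q hQ) hc hp hb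
  have hJ' : J ⊆ {0, 1} := by
    intro j hj
    have := Finset.mem_range.1 (Finset.mem_powerset.1 hJ hj)
    simp only [Finset.mem_insert, Finset.mem_singleton]
    omega
  have hord : orderOf (g * b * g⁻¹) = p := by
    rw [← hb]
    exact MulEquiv.orderOf_eq (MulAut.conj g) _
  have key : ∀ (M : ℕ), ((g * b * g⁻¹ : ↥(twF4 hperf φ).fix) : GL chevF4.Idx K) ∈ chevF4.parabolicSubgroup K (maskSet M) ⊓ (twF4 hperf φ).fix →
      p ∣ Nat.card ↥(chevF4.parabolicSubgroup K (maskSet M) ⊓ (twF4 hperf φ).fix) := by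
    intro M hM
    have h1 := orderOf_dvd_natCard (⟨_, hM⟩ : ↥(chevF4.parabolicSubgroup K (maskSet M) ⊓ (twF4 hperf φ).fix))
    rw [Subgroup.orderOf_mk, Subgroup.orderOf_coe, hord] at h1
    exact h1
  by_cases h1 : (1 : ℕ) ∈ J
  · -- then `0 ∉ J`
    have h0 : (0 : ℕ) ∉ J := by
      intro h0
      apply hne
      apply Finset.Subset.antisymm (Finset.mem_powerset.1 hJ)
      intro a ha
      have := Finset.mem_range.1 ha
      interval_cases a
      · exact h0
      · exact h1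
    right
    refine key 6 (par_le_mask hperf φ hφ (i := 1) (by decide) (by decide) (by decide) ?_ (by decide) hg)
    intro j hj
    have := hJ' hj
    simp only [Finset.mem_insert, Finset.mem_singleton] at this
    rcases this with rfl | rfl
    · exact (h0 hj).elim
    · rfl
  · left
    refine key 9 (par_le_mask hperf φ hφ (i := 0) (by decide) (by decide) (by decide) ?_ (by decide) hg)
    intro j hj
    have := hJ' hj
    simp only [Finset.mem_insert, Finset.mem_singleton] at this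
    rcases this with rfl | rfl
    · rfl
    · exact (h1 hj).elim

end

section

variable {K : Type*} [Field K] [Fintype K] {m : ℕ} [CharP K 2] (hperf : ∀ x : K, ∃ y : K, y ^ 2 = x) (φ : K ≃+* K)

theorem card_par_F4 (hK : Fintype.card K = 2 ^ (2 * m + 1)) (hφ : ∀ x, φ (φ (x ^ 2)) = x) :
    Nat.card ↥(chevF4.parabolicSubgroup K (maskSet 9) ⊓ (twF4 hperf φ).fix) =
      (1 + (2 ^ (2 * m + 1)) ^ 1) * ((2 ^ (2 * m + 1)) ^ 12 * (2 ^ (2 * m + 1) - 1) ^ 2) ∧
    Nat.card ↥(chevF4.parabolicSubgroup K (maskSet 6) ⊓ (twF4 hperf φ).fix) =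
      (1 + (2 ^ (2 * m + 1)) ^ 2) * ((2 ^ (2 * m + 1)) ^ 12 * (2 ^ (2 * m + 1) - 1) ^ 2) := by
  have A := twnF4 hperf φ hφ
  have hXq : ∀ j, j < orbF4.m → Nat.card ↥(XJ chevF4 K (orbF4.J j) ⊓ (twF4 hperf φ).fix) = (2 ^ (2 * m + 1)) ^ wtF4 j := by
    intro j hj
    have hj' : j < 2 := hj
    interval_cases j
    · rw [cardX0F4 hperf φ hφ, cardK_F4 hK]
      exact (pow_one _).symm
    · rw [cardX1F4 hperf φ hφ, cardK_F4 hK]
      rfl
  have hhd : ∀ j, j < orbF4.m → hdF4 j < chevF4.rank ∧ orbF4.inJ (hdF4 j) = j := by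
    have : ∀ j, j < 2 → hdF4 j < chevF4.rank ∧ inJF4 (hdF4 j) = j := by decide +kernel
    exact this
  have hlet : ∀ j, j < orbF4.m → ∀ i ∈ orbF4.wJ j, orbF4.inJ i = j := by
    have : ∀ j, j < 2 → ∀ i ∈ wJF4 j, inJF4 i = j := by decide +kernel
    exact this
  have h1 := A.card_par_step hlet hhd hXq chkParOrbF41
  have h2 := A.card_par_step hlet hhd hXq chkParOrbF4L
  rw [Tbl.Good3.parabolic_zero, TwN.card_B_fix, cardUF4 hperf φ hφ, cardHF4 hperf φ hK hφ, cardK_F4 hK] at h1 h2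
  rw [h1, h2, sumParOrbF41, sumParOrbF4L]
  exact ⟨rfl, rfl⟩

/-- The primes dividing the centraliser of an involution. -/
theorem centr_primes_F4 (hK : Fintype.card K = 2 ^ (2 * m + 1)) (hφ : ∀ x, φ (φ (x ^ 2)) = x) (a b : ↥(twF4 hperf φ).fix) (ha : orderOf a = 2)
    (hab : Commute a b) :
    (orderOf b).primeFactors ⊆ (2 ^ (2 * m + 1) * ((2 ^ (2 * m + 1)) ^ 4 - 1)).primeFactors := by
  classical
  haveI : Fact (Nat.Prime 2) := ⟨Nat.prime_two⟩
  intro p hp
  have hpp := Nat.prime_of_mem_primeFactors hp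
  have hpd := Nat.dvd_of_mem_primeFactors hp
  have hq : 2 ≤ 2 ^ (2 * m + 1) := by
    calc 2 = 2 ^ 1 := rfl
      _ ≤ 2 ^ (2 * m + 1) := Nat.pow_le_pow_right (by decide) (by omega)
  obtain ⟨h1, h2⟩ := U1_sylow hperf φ hK hφ
  obtain ⟨g, hg⟩ := exists_conj_of_sylow h1 h2 (x := a) ⟨1, by simpa using ha⟩
  have hb0 : orderOf b ≠ 0 := (orderOf_pos b).ne'
  have hb' : orderOf (b ^ (orderOf b / p)) = p := orderOf_pow_orderOf_div hb0 hpd
  have hne : g * a * g⁻¹ ≠ 1 := by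
    intro h3
    rw [conj_eq_one_iff] at h3
    rw [h3, orderOf_one] at ha
    omega
  have hc : Commute (g * a * g⁻¹) (g * b ^ (orderOf b / p) * g⁻¹) := by
    have h3 : Commute a (b ^ (orderOf b / p)) := hab.pow_right _
    show g * a * g⁻¹ * (g * b ^ (orderOf b / p) * g⁻¹) = g * b ^ (orderOf b / p) * g⁻¹ * (g * a * g⁻¹)
    have e1 : g * a * g⁻¹ * (g * b ^ (orderOf b / p) * g⁻¹) = g * (a * b ^ (orderOf b / p)) * g⁻¹ := by group
    have e2 : g * b ^ (orderOf b / p) * g⁻¹ * (g * a * g⁻¹) = g * (b ^ (orderOf b / p) * a) * g⁻¹ := by group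
    rw [e1, e2, h3.eq]
  have hord : orderOf (g * b ^ (orderOf b / p) * g⁻¹) = p :=
    (MulEquiv.orderOf_eq (MulAut.conj g) _).trans hb'
  have hmain := comm_U_F4 hperf φ hφ (t := g * a * g⁻¹) (b := g * b ^ (orderOf b / p) * g⁻¹) hg hne hc hpp hord
  obtain ⟨c1, c2⟩ := card_par_F4 (m := m) hperf φ hK hφ
  rw [c1, c2] at hmain
  generalize 2 ^ (2 * m + 1) = q at hq hmain ⊢
  obtain ⟨k, rfl⟩ : ∃ k, q = k + 1 := ⟨q - 1, by omega⟩
  have hk : k + 1 - 1 = k := by omega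
  rw [hk] at hmain
  have e : (k + 1) ^ 4 - 1 = k * (k + 2) * ((k + 1) ^ 2 + 1) := by
    have : (k + 1) ^ 4 = k * (k + 2) * ((k + 1) ^ 2 + 1) + 1 := by ring
    omega
  have hdvd : p ∣ (k + 1) * ((k + 1) ^ 4 - 1) := by
    rw [e]
    rcases hmain with h3 | h3
    · rcases (Nat.Prime.dvd_mul hpp).1 h3 with h4 | h4
      · -- `p ∣ 1 + q`
        refine Dvd.dvd.mul_left (Dvd.dvd.mul_right (Dvd.dvd.mul_left ?_ _) _) _
        have : 1 + (k + 1) ^ 1 = k + 2 := by ring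
        rwa [this] at h4
      · rcases (Nat.Prime.dvd_mul hpp).1 h4 with h5 | h5
        · exact Dvd.dvd.mul_right (hpp.dvd_of_dvd_pow h5) _
        · exact Dvd.dvd.mul_left (Dvd.dvd.mul_right (Dvd.dvd.mul_right (hpp.dvd_of_dvd_pow h5) _) _) _
    · rcases (Nat.Prime.dvd_mul hpp).1 h3 with h4 | h4
      · refine Dvd.dvd.mul_left (Dvd.dvd.mul_left ?_ _) _
        have : 1 + (k + 1) ^ 2 = (k + 1) ^ 2 + 1 := by ring
        rwa [this] at h4
      · rcases (Nat.Prime.dvd_mul hpp).1 h4 with h5 | h5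
        · exact Dvd.dvd.mul_right (hpp.dvd_of_dvd_pow h5) _
        · exact Dvd.dvd.mul_left (Dvd.dvd.mul_right (Dvd.dvd.mul_right (hpp.dvd_of_dvd_pow h5) _) _) _
  refine Nat.mem_primeFactors.2 ⟨hpp, ?_, ?_⟩
  · rw [e] at hdvd ⊢
    exact hdvd
  · rw [e]
    have hk0 : 0 < k := by omega
    positivity

end

end Cfsg.Agent.Lib.Chev
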