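/-
The group ²F₄(q), `q = 2^(2m+1)`, `m ≥ 1`: the commutators of the letters of the chain and the abelianization of the
fixed points of `U`.
-/
import Cfsg.Agent.Lib.Coll.ReeCent

set_option autoImplicit false
set_option maxRecDepth 100000

namespace Cfsg.Agent.Lib.Chev

open Cfsg.Lie Coll

/-- A subgroup of a finite nilpotent group generating it modulo the commutator subgroup is everything. -/
theorem eq_top_of_sup_commutatorF {G : Type*} [Group G] [Finite G] [Group.IsNilpotent G] (W : Subgroup G)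
    (h : W ⊔ commutator G = ⊤) : W = ⊤ := by
  by_contra hW
  obtain ⟨M, hM, hWM⟩ := (eq_top_or_exists_le_coatom W).resolve_left hW
  have hlt : M < ⊤ := lt_top_iff_ne_top.2 hM.1
  have hN : Subgroup.normalizer (M : Set G) = ⊤ := by
    have h1 := normalizerCondition_of_isNilpotent (G := G) M hlt
    exact hM.2 _ h1
  haveI hMn : M.Normal := Subgroup.normalizer_eq_top_iff.1 hN
  obtain ⟨g, hg⟩ : ∃ g, g ∉ M := by
    by_contra hall
    push_neg at hall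
    exact hM.1 (eq_top_iff.2 fun x _ => hall x)
  have hsup : Subgroup.zpowers g ⊔ M = ⊤ :=
    hM.2 _ (lt_of_le_of_ne le_sup_right (fun e => hg (e ▸ Subgroup.mem_sup_left (Subgroup.mem_zpowers g))))
  have hcomm : commutator G ≤ M := by
    rw [commutator_def, Subgroup.commutator_le]
    intro a _ b _
    have hpi : ∀ x : G, ∃ k : ℤ, (QuotientGroup.mk x : G ⧸ M) = (QuotientGroup.mk g : G ⧸ M) ^ k := by
      intro x
      have hx : x ∈ Subgroup.zpowers g ⊔ M := hsup ▸ Subgroup.mem_top x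
      rw [← SetLike.mem_coe, Subgroup.mul_normal] at hx
      obtain ⟨z, hz, m, hm, rfl⟩ := Set.mem_mul.1 hx
      obtain ⟨k, rfl⟩ := Subgroup.mem_zpowers_iff.1 hz
      refine ⟨k, ?_⟩
      have e1 : (QuotientGroup.mk m : G ⧸ M) = 1 := (QuotientGroup.eq_one_iff m).2 hm
      rw [QuotientGroup.mk_mul, e1, mul_one, QuotientGroup.mk_zpow]
    obtain ⟨i, hi⟩ := hpi a
    obtain ⟨j, hj⟩ := hpi b
    rw [← QuotientGroup.eq_one_iff]
    show (QuotientGroup.mk (a * b * a⁻¹ * b⁻¹) : G ⧸ M) = 1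
    rw [QuotientGroup.mk_mul, QuotientGroup.mk_mul, QuotientGroup.mk_mul, QuotientGroup.mk_inv, QuotientGroup.mk_inv, hi, hj]
    have hc : Commute ((QuotientGroup.mk g : G ⧸ M) ^ i) ((QuotientGroup.mk g : G ⧸ M) ^ j) :=
      (Commute.refl _).zpow_zpow i j
    rw [hc.eq]
    group
  apply hM.1
  rw [eq_top_iff, ← h]
  exact sup_le hWM hcomm

namespace Coll

theorem chkC3 : digF4.tbl.chkDiff 100000 100000 (lS 34 26 36 42 0 ++ lS 29 41 44 47 4) ([(38, [[1,5]]), (43, [[0,4]])] ++ (lS 29 41 44 47 4 ++ lS 34 26 36 42 0)) [[]] = true := by decide +kernel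

theorem chkC5 : digF4.tbl.chkDiff 100000 100000 (lS 29 41 44 47 0 ++ lS 35 31 40 46 4) ([(39, [[1,5]]), (45, [[0,4]])] ++ (lS 35 31 40 46 4 ++ lS 29 41 44 47 0)) [[]] = true := by decide +kernel

theorem chkC7 : digF4.tbl.chkDiff 100000 100000 (lS 35 31 40 46 0 ++ lS 27 25 28 30 4) ([(37, [[1,5]]), (32, [[0,4]])] ++ (lS 27 25 28 30 4 ++ lS 35 31 40 46 0)) [[]] = true := by decide +kernel

theorem chkC2 : digF4.tbl.chkDiff 100000 100000 (lP 33 24 0 ++ lS 29 41 44 47 2) ([(36, [[1,3]]), (42, [[0,2]])] ++ (lS 29 41 44 47 2 ++ lP 33 24 0)) [[]] = true := by decide +kernel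

theorem chkC4 : digF4.tbl.chkDiff 100000 100000 (lP 38 43 0 ++ lS 35 31 40 46 2) ([(44, [[1,3]]), (47, [[0,2]])] ++ (lS 35 31 40 46 2 ++ lP 38 43 0)) [[]] = true := by decide +kernel

theorem chkC6 : digF4.tbl.chkDiff 100000 100000 (lP 39 45 0 ++ lS 27 25 28 30 2) ([(40, [[1,3]]), (46, [[0,2]])] ++ (lS 27 25 28 30 2 ++ lP 39 45 0)) [[]] = true := by decide +kernel

/-- Data of the collector. -/
def L3L : List PP := [[[0]], [[20],[28]], [[2],[24]], [[21],[29]], [[21,28],[22],[30]], [[9],[21,24],[24,29]], [[20,21,21],[21,21,28],[23],[28,29,29],[31]], [[14],[21,21,24],[24,29,29]], [[14,20],[14,28],[18],[20,21,21,24],[21,21,24,28],[23,24],[24,28,29,29],[24,31]], [[1]], [[1,21],[1,29],[3],[25]], [[1,21,28],[1,22],[1,30],[3,20],[3,28],[15]], [[1,9],[1,21,24],[1,24,29],[3,24],[4],[26]], [[1,20,21,21],[1,21,22],[1,21,28,29],[1,21,30],[1,22,29],[1,23],[1,28,29,29],[1,29,30],[1,31],[3,20,21],[3,20,29],[3,22],[3,28,29],[3,30],[15,21],[15,29],[19]],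 [[1,9,21],[1,9,29],[1,14],[3,9],[4,21],[4,29],[7]], [[1,9,21,28],[1,9,22],[1,9,30],[1,14,20],[1,14,28],[1,18],[1,20,21,21,24],[1,21,22,24],[1,21,24,28,29],[1,21,24,30],[1,22,24,29],[1,23,24],[1,24,28,29,29],[1,24,29,30],[1,24,31],[3,9,20],[3,9,28],[3,20,21,24],[3,20,24,29],[3,22,24],[3,24,28,29],[3,24,30],[4,21,28],[4,22],[4,30],[7,20],[7,28],[13],[15,21,24],[15,24,29],[19,24]], [[1,9,20,21,21],[1,9,21,22],[1,9,21,28,29],[1,9,21,30],[1,9,22,29],[1,9,23],[1,9,28,29,29],[1,9,29,30],[1,9,31],[1,14,20,21],[1,14,20,29],[1,14,22],[1,14,28,29],[1,14,30],[1,18,21],[1,18,29],[3,9,20,21],[3,9,20,29],[3,9,22],[3,9,28,29],[3,9,30],[3,18],[4,20,21,21],[4,21,22],[4,21,28,29],[4,21,30],[4,22,29],[4,23],[4,28,29,29],[4,29,30],[4,31],[7,20,21],[7,20,29],[7,22],[7,28,29],[7,30],[13,21],[13,29],[16]], [[1,1,20,21,21],[1,1,21,21,28],[1,1,23],[1,1,28,29,29],[1,1,31],[3,3,20],[3,3,28],[8]],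 [[1,1,14],[1,1,21,21,24],[1,1,24,29,29],[2,3,3],[3,3,24],[5],[24,25,25],[27]], [[1,1,14,20],[1,1,14,28],[1,1,18],[1,1,20,21,21,24],[1,1,21,21,24,28],[1,1,23,24],[1,1,24,28,29,29],[1,1,24,31],[2,3,3,20],[2,3,3,28],[3,3,20,24],[3,3,24,28],[5,20],[5,28],[6],[8,24]], [[1,1,9,20,21,21],[1,1,9,21,22],[1,1,9,21,28,29],[1,1,9,21,30],[1,1,9,22,29],[1,1,9,23],[1,1,9,28,29,29],[1,1,9,29,30],[1,1,9,31],[1,1,14,20,21],[1,1,14,20,29],[1,1,14,22],[1,1,14,28,29],[1,1,14,30],[1,1,18,21],[1,1,18,29],[1,3,9,20,21],[1,3,9,20,29],[1,3,9,22],[1,3,9,28,29],[1,3,9,30],[1,3,18],[1,4,20,21,21],[1,4,21,22],[1,4,21,28,29],[1,4,21,30],[1,4,22,29],[1,4,23],[1,4,28,29,29],[1,4,29,30],[1,4,31],[1,9,15,21],[1,9,15,29],[1,9,21,25,28],[1,9,22,25],[1,9,25,30],[1,14,15],[1,14,20,25],[1,14,25,28],[1,18,25],[1,20,21,21,24,25],[1,20,21,21,26],[1,21,22,24,25],[1,21,22,26],[1,21,24,25,28,29],[1,21,24,25,3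0],[1,21,26,28,29],[1,21,26,30],[1,22,24,25,29],[1,22,26,29],[1,23,24,25],[1,23,26],[1,24,25,28,29,29],[1,24,25,29,30],[1,24,25,31],[1,26,28,29,29],[1,26,29,30],[1,26,31],[2,3,3,20,21],[2,3,3,20,29],[2,3,3,22],[2,3,3,28,29],[2,3,3,30],[3,4,20,21],[3,4,20,29],[3,4,22],[3,4,28,29],[3,4,30],[3,9,15],[3,9,20,25],[3,9,25,28],[3,20,21,24,25],[3,20,21,26],[3,20,24,25,29],[3,20,26,29],[3,22,24,25],[3,22,26],[3,24,25,28,29],[3,24,25,30],[3,26,28,29],[3,26,30],[4,15,21],[4,15,29],[4,21,25,28],[4,22,25],[4,25,30],[5,20,21],[5,20,29],[5,22],[5,28,29],[5,30],[6,21],[6,29],[7,15],[7,20,25],[7,25,28],[8,9],[10],[13,25],[15,21,24,25],[15,21,26],[15,24,25,29],[15,26,29],[19,24,25],[19,26]], [[1,1,14,20,29,29],[1,1,14,23],[1,1,14,31],[1,1,18,21,21],[1,1,18,29,29],[2,3,3,20,29,29],[2,3,3,23],[2,3,3,31],[3,3,18],[5,20,29,29],[5,23],[5,31],[6,21,21],[6,29,29],[8,14],[12]], [[1,1,14,20,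20,21,21],[1,1,14,20,23],[1,1,14,20,28,29,29],[1,1,14,20,31],[1,1,14,22,22],[1,1,14,23,28],[1,1,14,28,28,29,29],[1,1,14,28,31],[1,1,14,30,30],[1,1,18,20,21,21],[1,1,18,21,21,28],[1,1,18,23],[1,1,18,28,29,29],[1,1,18,31],[1,1,20,20,21,21,21,21,24],[1,1,21,21,22,22,24],[1,1,21,21,24,28,28,29,29],[1,1,21,21,24,30,30],[1,1,22,22,24,29,29],[1,1,23,23,24],[1,1,24,28,28,29,29,29,29],[1,1,24,29,29,30,30],[1,1,24,31,31],[2,3,3,20,20,21,21],[2,3,3,20,23],[2,3,3,20,28,29,29],[2,3,3,20,31],[2,3,3,22,22],[2,3,3,23,28],[2,3,3,28,28,29,29],[2,3,3,28,31],[2,3,3,30,30],[3,3,18,20],[3,3,18,28],[3,3,20,20,21,21,24],[3,3,20,20,24,29,29],[3,3,22,22,24],[3,3,24,28,28,29,29],[3,3,24,30,30],[5,20,20,21,21],[5,20,23],[5,20,28,29,29],[5,20,31],[5,22,22],[5,23,28],[5,28,28,29,29],[5,28,31],[5,30,30],[6,20,21,21],[6,21,21,28],[6,23],[6,28,29,29],[6,31],[8,14,20],[8,14,28],[8,18],[12,20],[12,28],[14,15,15],[15,15,21,21,24],[15,15,24,29,29],[17],[19,19,24]],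 [[1,1,9,9,20,21,21],[1,1,9,9,21,21,28],[1,1,9,9,23],[1,1,9,9,28,29,29],[1,1,9,9,31],[1,1,14,14,20],[1,1,14,14,28],[1,1,14,18],[1,1,14,20,24,29,29],[1,1,14,23,24],[1,1,14,24,31],[1,1,18,21,21,24],[1,1,18,24,29,29],[2,3,3,18],[2,3,3,20,24,29,29],[2,3,3,23,24],[2,3,3,24,31],[3,3,9,9,20],[3,3,9,9,28],[3,3,18,24],[4,4,20,21,21],[4,4,21,21,28],[4,4,23],[4,4,28,29,29],[4,4,31],[5,18],[5,20,24,29,29],[5,23,24],[5,24,31],[6,14],[6,21,21,24],[6,24,29,29],[7,7,20],[7,7,28],[8,14,24],[11],[12,24]]]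

theorem nf3L : digF4.tbl.collectNF 100000 (wPc ++ (lS 27 25 28 30 28 ++ lS 34 26 36 42 24)) = some L3L := by decide +kernel

/-- Data of the collector. -/
def L3R : List PP := [[], [[28]], [[24]], [[29]], [[30]], [], [[28,29,29],[31]], [], [], [], [[25]], [[25,28]], [[26]], [[25,28,29],[25,30]], [[26,29]], [[26,30]], [[26,28,29,29],[26,29,30],[26,31]], [[25,25,28]], [[24,25,25],[27]], [[24,25,25,28],[27,28]], [[24,25,25,28,29],[24,25,25,30],[25,26,28,29],[25,26,30],[27,28,29],[27,30]], [[24,25,25,31],[27,31]], [[24,25,25,28,28,29,29],[24,25,25,28,31],[24,25,25,30,30],[27,28,28,29,29],[27,28,31],[27,30,30]], [[26,26,28,29,29],[26,26,31]]]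

theorem nf3R : digF4.tbl.collectNF 100000 (lS 34 26 36 42 24 ++ lS 27 25 28 30 28) = some L3R := by decide +kernel

/-- Data of the collector. -/
def L4L : List PP := [[[0],[24]], [[20],[26]], [[2],[20,24],[24,26]], [[21],[27]], [[21,26],[22],[28]], [[9],[21,24,26],[22,24],[24,28]], [[20,21,21],[21,21,26],[23],[26,27,27],[29]], [[14],[20,21,21,24],[21,21,24,26],[23,24],[24,26,27,27],[24,29]], [[14,20],[14,26],[18],[21,21,24,26,26],[22,22,24],[24,28,28]], [[1],[25]], [[1,21],[1,27],[3]], [[1,21,26],[1,22],[1,28],[3,20],[3,26],[15]], [[1,9],[1,21,24,26],[1,22,24],[1,24,28],[3,20,24],[3,24,26],[4],[15,24]], [[1,20,21,21],[1,21,22],[1,21,26,27],[1,21,28],[1,22,27],[1,23],[1,26,27,27],[1,27,28],[1,29],[3,20,21],[3,20,27],[3,22],[3,26,27],[3,28],[15,21],[15,27],[19]], [[1,9,21],[1,9,27],[1,14],[1,20,21,21,24],[1,21,22,24],[1,21,24,26,27],[1,21,24,28],[1,22,24,27],[1,23,24],[1,24,26,27,27],[1,24,27,28],[1,24,29],[3,9],[3,20,21,24],[3,20,24,27],[3,22,24],[3,24,26,27],[3,24,28],[4,21],[4,27],[7],[15,21,24],[15,24,27],[19,24]],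 [[1,9,21,26],[1,9,22],[1,9,28],[1,14,20],[1,14,26],[1,18],[3,9,20],[3,9,26],[4,21,26],[4,22],[4,28],[7,20],[7,26],[13]], [[1,9,20,21,21],[1,9,21,22],[1,9,21,26,27],[1,9,21,28],[1,9,22,27],[1,9,23],[1,9,26,27,27],[1,9,27,28],[1,9,29],[1,14,20,21],[1,14,20,27],[1,14,22],[1,14,26,27],[1,14,28],[1,18,21],[1,18,27],[3,9,20,21],[3,9,20,27],[3,9,22],[3,9,26,27],[3,9,28],[3,18],[4,20,21,21],[4,21,22],[4,21,26,27],[4,21,28],[4,22,27],[4,23],[4,26,27,27],[4,27,28],[4,29],[7,20,21],[7,20,27],[7,22],[7,26,27],[7,28],[13,21],[13,27],[16]], [[1,1,20,21,21],[1,1,21,21,26],[1,1,23],[1,1,26,27,27],[1,1,29],[3,3,20],[3,3,26],[8]], [[1,1,14],[1,1,20,21,21,24],[1,1,21,21,24,26],[1,1,23,24],[1,1,24,26,27,27],[1,1,24,29],[2,3,3],[3,3,20,24],[3,3,24,26],[5],[8,24]], [[1,1,14,20],[1,1,14,26],[1,1,18],[1,1,21,21,24,26,26],[1,1,22,22,24],[1,1,24,28,28],[2,3,3,20],[2,3,3,26],[3,3,20,20,24],[3,3,24,26,26],[5,20],[5,26],[6],[15,15,24]],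 [[1,1,9,20,21,21],[1,1,9,21,22],[1,1,9,21,26,27],[1,1,9,21,28],[1,1,9,22,27],[1,1,9,23],[1,1,9,26,27,27],[1,1,9,27,28],[1,1,9,29],[1,1,14,20,21],[1,1,14,20,27],[1,1,14,22],[1,1,14,26,27],[1,1,14,28],[1,1,18,21],[1,1,18,27],[1,3,9,20,21],[1,3,9,20,27],[1,3,9,22],[1,3,9,26,27],[1,3,9,28],[1,3,18],[1,4,20,21,21],[1,4,21,22],[1,4,21,26,27],[1,4,21,28],[1,4,22,27],[1,4,23],[1,4,26,27,27],[1,4,27,28],[1,4,29],[1,9,15,21],[1,9,15,27],[1,9,20,21,21,25],[1,9,21,22,25],[1,9,21,25,26,27],[1,9,21,25,28],[1,9,22,25,27],[1,9,23,25],[1,9,25,26,27,27],[1,9,25,27,28],[1,9,25,29],[1,14,15],[1,14,20,21,25],[1,14,20,25,27],[1,14,22,25],[1,14,25,26,27],[1,14,25,28],[1,18,21,25],[1,18,25,27],[2,3,3,20,21],[2,3,3,20,27],[2,3,3,22],[2,3,3,26,27],[2,3,3,28],[3,4,20,21],[3,4,20,27],[3,4,22],[3,4,26,27],[3,4,28],[3,9,15],[3,9,20,21,25],[3,9,20,25,27],[3,9,22,25],[3,9,25,26,27],[3,9,25,28],[3,18,25],[4,15,21],[4,15,27],[4,20,21,21,25],[4,21,22,25],[4,21,25,26,27],[4,21,25,28],[4,22,25,27],[4,23,25],[4,25,26,27,27],[4,25,27,28],[4,25,29],[5,20,21],[5,20,27],[5,22],[5,26,27],[5,28],[6,21],[6,27],[7,15],[7,20,21,25],[7,20,25,27],[7,22,25],[7,25,26,27],[7,25,28],[8,9],[10],[13,21,25],[13,25,27],[16,25]],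 [[1,1,14,20,27,27],[1,1,14,23],[1,1,14,29],[1,1,18,21,21],[1,1,18,27,27],[1,1,20,20,21,21,21,21,24],[1,1,21,21,22,22,24],[1,1,21,21,24,26,26,27,27],[1,1,21,21,24,28,28],[1,1,22,22,24,27,27],[1,1,23,23,24],[1,1,24,26,26,27,27,27,27],[1,1,24,27,27,28,28],[1,1,24,29,29],[2,3,3,20,27,27],[2,3,3,23],[2,3,3,29],[3,3,18],[3,3,20,20,21,21,24],[3,3,20,20,24,27,27],[3,3,22,22,24],[3,3,24,26,26,27,27],[3,3,24,28,28],[5,20,27,27],[5,23],[5,29],[6,21,21],[6,27,27],[8,14],[12],[15,15,21,21,24],[15,15,24,27,27],[19,19,24]], [[1,1,14,20,20,21,21],[1,1,14,20,23],[1,1,14,20,26,27,27],[1,1,14,20,29],[1,1,14,22,22],[1,1,14,23,26],[1,1,14,26,26,27,27],[1,1,14,26,29],[1,1,14,28,28],[1,1,18,20,21,21],[1,1,18,21,21,26],[1,1,18,23],[1,1,18,26,27,27],[1,1,18,29],[2,3,3,20,20,21,21],[2,3,3,20,23],[2,3,3,20,26,27,27],[2,3,3,20,29],[2,3,3,22,22],[2,3,3,23,26],[2,3,3,26,26,27,27],[2,3,3,26,29],[2,3,3,28,28],[3,3,18,20],[3,3,18,26],[5,20,20,21,21],[5,20,23],[5,20,26,27,27],[5,20,29],[5,22,22],[5,23,26],[5,26,26,27,27],[5,26,29],[5,28,28],[6,20,21,21],[6,21,21,26],[6,23],[6,26,27,27],[6,29],[8,14,20],[8,14,26],[8,18],[12,20],[12,26],[14,15,15],[17]],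 [[1,1,9,9,20,21,21],[1,1,9,9,21,21,26],[1,1,9,9,23],[1,1,9,9,26,27,27],[1,1,9,9,29],[1,1,14,14,20],[1,1,14,14,26],[1,1,14,18],[1,1,14,20,20,21,21,24],[1,1,14,20,23,24],[1,1,14,20,24,26,27,27],[1,1,14,20,24,29],[1,1,14,22,22,24],[1,1,14,23,24,26],[1,1,14,24,26,26,27,27],[1,1,14,24,26,29],[1,1,14,24,28,28],[1,1,18,20,21,21,24],[1,1,18,21,21,24,26],[1,1,18,23,24],[1,1,18,24,26,27,27],[1,1,18,24,29],[2,3,3,18],[2,3,3,20,20,21,21,24],[2,3,3,20,23,24],[2,3,3,20,24,26,27,27],[2,3,3,20,24,29],[2,3,3,22,22,24],[2,3,3,23,24,26],[2,3,3,24,26,26,27,27],[2,3,3,24,26,29],[2,3,3,24,28,28],[3,3,9,9,20],[3,3,9,9,26],[3,3,18,20,24],[3,3,18,24,26],[4,4,20,21,21],[4,4,21,21,26],[4,4,23],[4,4,26,27,27],[4,4,29],[5,18],[5,20,20,21,21,24],[5,20,23,24],[5,20,24,26,27,27],[5,20,24,29],[5,22,22,24],[5,23,24,26],[5,24,26,26,27,27],[5,24,26,29],[5,24,28,28],[6,14],[6,20,21,21,24],[6,21,21,24,26],[6,23,24],[6,24,26,27,27],[6,24,29],[7,7,20],[7,7,26],[8,14,20,24],[8,14,24,26],[8,18,24],[11],[12,20,24],[12,24,26],[14,15,15,24],[17,24]]]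

theorem nf4L : digF4.tbl.collectNF 100000 (wPc ++ (lS 27 25 28 30 26 ++ lP 33 24 24)) = some L4L := by decide +kernel

/-- Data of the collector. -/
def L4R : List PP := [[[24]], [[26]], [], [[27]], [[28]], [], [[26,27,27],[29]], [], [], [[25]], [[25,27]], [[25,28]], [], [[25,26,27,27],[25,27,28],[25,29]], [], [], [], [[25,25,26,27,27],[25,25,29]], [], [], [], [], [], []]

theorem nf4R : digF4.tbl.collectNF 100000 (lP 33 24 24 ++ lS 27 25 28 30 26) = some L4R := by decide +kernel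

end Coll

section Gw

variable {K : Type*} [Field K] [CharP K 2]

/-- Words in the positive roots lie in `U`. -/
lemma gW_pos_memF (l : List (ℕ × K)) (h : ∀ e ∈ l, 24 ≤ e.1 ∧ e.1 < 48) : good3F4.toGood2.gW l ∈ chevF4.posUnipotent K := by
  induction l with
  | nil => exact Subgroup.one_mem _
  | cons e l ih =>
    rw [Tbl.Good2.gW_cons]
    refine Subgroup.mul_mem _ ?_ (ih fun x hx => h x (List.mem_cons_of_mem _ hx))
    obtain ⟨h1, h2⟩ := h e (by simp)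
    rw [good3F4.toGood2.xN_of_lt h2]
    exact good3F4.toGood2.xU_mem_U _ h1 _

/-- Words in the negative roots lie in `V`. -/
lemma gW_neg_memF (l : List (ℕ × K)) (h : ∀ e ∈ l, e.1 < 24) : good3F4.toGood2.gW l ∈ chevF4.negUnipotent K := by
  induction l with
  | nil => exact Subgroup.one_mem _
  | cons e l ih =>
    rw [Tbl.Good2.gW_cons]
    refine Subgroup.mul_mem _ ?_ (ih fun x hx => h x (List.mem_cons_of_mem _ hx))
    have h1 := h e (by simp)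
    have h2 : e.1 < chevF4.nroots := lt_of_lt_of_le h1 (by decide)
    rw [good3F4.toGood2.xN_of_lt h2]
    exact good3F4.toGood2.xU_mem_V _ h1 _

end Gw

section

variable {K : Type*} [Field K] [CharP K 2] (hperf : ∀ x : K, ∃ y : K, y ^ 2 = x) (φ : K ≃+* K)

/-- The fixed points of `U`. -/
noncomputable abbrev UF4 : Subgroup (GL chevF4.Idx K) := chevF4.posUnipotent K ⊓ (twF4 hperf φ).fix

open Classical in
/-- The image in the abelianization of the fixed points of `U`. -/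
noncomputable def tauUF (x : GL chevF4.Idx K) : Abelianization ↥(UF4 hperf φ) :=
  if h : x ∈ UF4 hperf φ then Abelianization.of ⟨x, h⟩ else 1

/-- The letter of the short orbit on two roots. -/
noncomputable def pLet (r1 r2 : ℕ) (a : K) : GL chevF4.Idx K := good3F4.toGood2.gW [(r1, φ a), (r2, a)]

/-- The letter of the long orbit on four roots. -/
noncomputable def sLet (r1 r2 r3 r4 : ℕ) (a b : K) : GL chevF4.Idx K :=
  good3F4.toGood2.gW [(r1, φ a), (r2, a), (r3, φ a * a + b), (r4, φ (b ^ 2))]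

/-- The conditions on a letter of the short orbit. -/
def IsPLet (r1 r2 : ℕ) : Prop :=
  ∃ pre : List ℕ, (∀ i ∈ pre, i < chevF4.rank) ∧ (good3F4.toGood2.nProd pre : GL chevF4.Idx K) ∈ (twF4 hperf φ).fix ∧
    wperm digF4.tbl pre 33 = r1 ∧ wperm digF4.tbl pre 24 = r2 ∧ 24 ≤ r1 ∧ r1 < 48 ∧ 24 ≤ r2 ∧ r2 < 48

/-- The conditions on a letter of the long orbit. -/
def IsSLet (r1 r2 r3 r4 : ℕ) : Prop :=
  ∃ pre : List ℕ, (∀ i ∈ pre, i < chevF4.rank) ∧ (good3F4.toGood2.nProd pre : GL chevF4.Idx K) ∈ (twF4 hperf φ).fix ∧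
    wperm digF4.tbl pre 27 = r1 ∧ wperm digF4.tbl pre 25 = r2 ∧ wperm digF4.tbl pre 28 = r3 ∧ wperm digF4.tbl pre 30 = r4 ∧
    24 ≤ r1 ∧ r1 < 48 ∧ 24 ≤ r2 ∧ r2 < 48 ∧ 24 ≤ r3 ∧ r3 < 48 ∧ 24 ≤ r4 ∧ r4 < 48

variable {hperf φ}

lemma pLet_mem (hφ : ∀ x, φ (φ (x ^ 2)) = x) {r1 r2 : ℕ} (h : IsPLet hperf φ r1 r2) (a : K) : pLet φ r1 r2 a ∈ UF4 hperf φ := by
  obtain ⟨pre, h1, h2, h3, h4, h5, h6, h7, h8⟩ := h
  refine ⟨gW_pos_memF _ ?_, ?_⟩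
  · intro e he
    simp only [List.mem_cons, List.not_mem_nil, or_false] at he
    rcases he with rfl | rfl
    · exact ⟨h5, h6⟩
    · exact ⟨h7, h8⟩
  · have e := lett0 φ h1 h3 h4 a 0
    unfold pLet
    rw [← e]
    exact lett_fix hperf φ hφ h2 0 a 0

lemma sLet_mem (hφ : ∀ x, φ (φ (x ^ 2)) = x) {r1 r2 r3 r4 : ℕ} (h : IsSLet hperf φ r1 r2 r3 r4) (a b : K) : sLet φ r1 r2 r3 r4 a b ∈ UF4 hperf φ := by
  obtain ⟨pre, h1, h2, h3, h4, h5, h6, h7, h8, h9, h10, h11, h12, h13, h14⟩ := h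
  refine ⟨gW_pos_memF _ ?_, ?_⟩
  · intro e he
    simp only [List.mem_cons, List.not_mem_nil, or_false] at he
    rcases he with rfl | rfl | rfl | rfl
    · exact ⟨h7, h8⟩
    · exact ⟨h9, h10⟩
    · exact ⟨h11, h12⟩
    · exact ⟨h13, h14⟩
  · have e := lett1 φ h1 h3 h4 h5 h6 a b
    unfold sLet
    rw [← e]
    exact lett_fix hperf φ hφ h2 1 a b

lemma sLet_mul (hφ : ∀ x, φ (φ (x ^ 2)) = x) {r1 r2 r3 r4 : ℕ} (h : IsSLet hperf φ r1 r2 r3 r4) (a b a' b' : K) :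
    sLet φ r1 r2 r3 r4 a b * sLet φ r1 r2 r3 r4 a' b' = sLet φ r1 r2 r3 r4 (a + a') (b + b' + φ a * a') := by
  obtain ⟨pre, h1, h2, h3, h4, h5, h6, -⟩ := h
  unfold sLet
  rw [← lett1 φ h1 h3 h4 h5 h6, ← lett1 φ h1 h3 h4 h5 h6, ← lett1 φ h1 h3 h4 h5 h6]
  unfold lettF4
  simp only [show ¬ (1 : ℕ) = 0 by decide, if_false]
  rw [← suzU_mul hφ]
  group

lemma pLet_zero (r1 r2 : ℕ) : pLet φ r1 r2 (0 : K) = 1 := by
  simp [pLet, Tbl.Good2.gW_cons, Tbl.Good2.xN_zero]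

/-- The letter of the second layer of the long orbit. -/
lemma sLet_zero (r1 r2 r3 r4 : ℕ) (u : K) :
    sLet φ r1 r2 r3 r4 0 u = good3F4.toGood2.gW [(r3, u), (r4, φ (u ^ 2))] := by
  simp [sLet, Tbl.Good2.gW_cons, Tbl.Good2.xN_zero]

/-- The commutator of two letters of the long orbit. -/
lemma comm_SS {r1 r2 r3 r4 s1 s2 s3 s4 t1 t2 : ℕ}
    (h : digF4.tbl.chkDiff 100000 100000 (lS r1 r2 r3 r4 0 ++ lS s1 s2 s3 s4 4) ([(t1, [[1, 5]]), (t2, [[0, 4]])] ++ (lS s1 s2 s3 s4 4 ++ lS r1 r2 r3 r4 0)) [[]] = true)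
    (a b c d : K) :
    sLet φ r1 r2 r3 r4 a b * sLet φ s1 s2 s3 s4 c d = pLet φ t1 t2 (a * c) * (sLet φ s1 s2 s3 s4 c d * sLet φ r1 r2 r3 r4 a b) := by
  have e := good3F4.toGood2.gW_eq_of_diff (vL [a, φ a, b, φ (b ^ 2), c, φ c, d, φ (d ^ 2)]) h (by simp [pval])
  rw [gW_wval_append, gW_wval_append, gW_wval_append, gW_lS φ _ (i := 0) r1 r2 r3 r4 (a := a) (b := b) rfl rfl rfl rfl,
    gW_lS φ _ (i := 4) s1 s2 s3 s4 (a := c) (b := d) rfl rfl rfl rfl] at e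
  have e2 : good3F4.toGood2.gW (wval (vL [a, φ a, b, φ (b ^ 2), c, φ c, d, φ (d ^ 2)]) [(t1, [[1, 5]]), (t2, [[0, 4]])]) = pLet φ t1 t2 (a * c) := by
    simp [wval, pval, mval, vL, pLet, map_mul]
  rw [e2] at e
  exact e

/-- The commutator of a letter of the short orbit with one of the long orbit. -/
lemma comm_PS {r1 r2 s1 s2 s3 s4 t1 t2 t3 t4 : ℕ} (hφ : ∀ x, φ (φ (x ^ 2)) = x)
    (h : digF4.tbl.chkDiff 100000 100000 (lP r1 r2 0 ++ lS s1 s2 s3 s4 2) ([(t3, [[1, 3]]), (t4, [[0, 2]])] ++ (lS s1 s2 s3 s4 2 ++ lP r1 r2 0)) [[]] = true)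
    (a c d : K) :
    pLet φ r1 r2 a * sLet φ s1 s2 s3 s4 c d = sLet φ t1 t2 t3 t4 0 (φ (a * c)) * (sLet φ s1 s2 s3 s4 c d * pLet φ r1 r2 a) := by
  have e := good3F4.toGood2.gW_eq_of_diff (vL [a, φ a, c, φ c, d, φ (d ^ 2)]) h (by simp [pval])
  rw [gW_wval_append, gW_wval_append, gW_wval_append, gW_lP φ _ (i := 0) r1 r2 (a := a) rfl rfl,
    gW_lS φ _ (i := 2) s1 s2 s3 s4 (a := c) (b := d) rfl rfl rfl rfl] at e
  have h3 : φ ((φ (a * c)) ^ 2) = a * c := by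
    rw [← map_pow]
    exact hφ _
  have e2 : good3F4.toGood2.gW (wval (vL [a, φ a, c, φ c, d, φ (d ^ 2)]) [(t3, [[1, 3]]), (t4, [[0, 2]])]) = sLet φ t1 t2 t3 t4 0 (φ (a * c)) := by
    rw [sLet_zero, h3]
    simp [wval, pval, mval, vL, map_mul]
  rw [e2] at e
  exact e

end

end Cfsg.Agent.Lib.Chev
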