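/-
The group ²F₄(q), `q = 2^(2m+1)`, `m ≥ 1`: the abelianization of the fixed points of `U` is generated by the
letters of the two simple orbits.
-/
import Cfsg.Agent.Lib.Coll.TwoF4a

set_option autoImplicit false
set_option maxRecDepth 100000

namespace Cfsg.Agent.Lib.Chev

open Cfsg.Lie Coll

section

variable {K : Type*} [Field K] [CharP K 2] {hperf : ∀ x : K, ∃ y : K, y ^ 2 = x} {φ : K ≃+* K}

lemma tauUF_of {x : GL chevF4.Idx K} (h : x ∈ UF4 hperf φ) : tauUF hperf φ x = Abelianization.of ⟨x, h⟩ := dif_pos h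

lemma tauUF_mul {x y : GL chevF4.Idx K} (hx : x ∈ UF4 hperf φ) (hy : y ∈ UF4 hperf φ) :
    tauUF hperf φ (x * y) = tauUF hperf φ x * tauUF hperf φ y := by
  rw [tauUF_of hx, tauUF_of hy, tauUF_of (Subgroup.mul_mem _ hx hy), ← map_mul]
  rfl

lemma tauUF_one : tauUF hperf φ (1 : GL chevF4.Idx K) = 1 := by
  rw [tauUF_of (Subgroup.one_mem _)]
  exact map_one _

lemma tauUF_inv {x : GL chevF4.Idx K} (hx : x ∈ UF4 hperf φ) : tauUF hperf φ x⁻¹ = (tauUF hperf φ x)⁻¹ := by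
  rw [tauUF_of hx, tauUF_of (Subgroup.inv_mem _ hx), ← map_inv]
  rfl

lemma tauUF_comm {x y z : GL chevF4.Idx K} (hx : x ∈ UF4 hperf φ) (hy : y ∈ UF4 hperf φ) (hz : z ∈ UF4 hperf φ)
    (e : x * y = z * (y * x)) : tauUF hperf φ z = 1 := by
  have h := congrArg (tauUF hperf φ) e
  rw [tauUF_mul hx hy, tauUF_mul hz (Subgroup.mul_mem _ hy hx), tauUF_mul hy hx, mul_comm (tauUF hperf φ y)] at h
  exact mul_eq_right.1 h.symm

section Let

variable (hφ : ∀ x, φ (φ (x ^ 2)) = x)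
include hφ

/-- The prefix words of the chain. -/
lemma isP1 : IsPLet hperf φ 33 24 := ⟨[], by simp, Subgroup.one_mem _, by decide +kernel, by decide +kernel, by decide, by decide, by decide, by decide⟩

lemma isS2 : IsSLet hperf φ 34 26 36 42 := ⟨[0, 3], by decide, nProd_n0n1_fix hperf φ hφ [[0, 3]] (by simp),
  by decide +kernel, by decide +kernel, by decide +kernel, by decide +kernel, by decide, by decide, by decide, by decide, by decide, by decide, by decide, by decide⟩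

lemma isP3 : IsPLet hperf φ 38 43 := ⟨[0, 3, 1, 2, 1, 2], by decide, nProd_n0n1_fix hperf φ hφ [[0, 3], [1, 2, 1, 2]] (by simp),
  by decide +kernel, by decide +kernel, by decide, by decide, by decide, by decide⟩

lemma isS4 : IsSLet hperf φ 29 41 44 47 := ⟨[0, 3, 1, 2, 1, 2, 0, 3], by decide, nProd_n0n1_fix hperf φ hφ [[0, 3], [1, 2, 1, 2], [0, 3]] (by simp),
  by decide +kernel, by decide +kernel, by decide +kernel, by decide +kernel, by decide, by decide, by decide, by decide, by decide, by decide, by decide, by decide⟩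

lemma isP5 : IsPLet hperf φ 39 45 := ⟨[0, 3, 1, 2, 1, 2, 0, 3, 1, 2, 1, 2], by decide, nProd_n0n1_fix hperf φ hφ [[0, 3], [1, 2, 1, 2], [0, 3], [1, 2, 1, 2]] (by simp),
  by decide +kernel, by decide +kernel, by decide, by decide, by decide, by decide⟩

lemma isS6 : IsSLet hperf φ 35 31 40 46 := ⟨[0, 3, 1, 2, 1, 2, 0, 3, 1, 2, 1, 2, 0, 3], by decide, nProd_n0n1_fix hperf φ hφ [[0, 3], [1, 2, 1, 2], [0, 3], [1, 2, 1, 2], [0, 3]] (by simp),
  by decide +kernel, by decide +kernel, by decide +kernel, by decide +kernel, by decide, by decide, by decide, by decide, by decide, by decide, by decide, by decide⟩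

lemma isP7 : IsPLet hperf φ 37 32 := ⟨[0, 3, 1, 2, 1, 2, 0, 3, 1, 2, 1, 2, 0, 3, 1, 2, 1, 2], by decide, nProd_n0n1_fix hperf φ hφ [[0, 3], [1, 2, 1, 2], [0, 3], [1, 2, 1, 2], [0, 3], [1, 2, 1, 2]] (by simp),
  by decide +kernel, by decide +kernel, by decide, by decide, by decide, by decide⟩

lemma isS8 : IsSLet hperf φ 27 25 28 30 := ⟨[], by simp, Subgroup.one_mem _,
  by decide +kernel, by decide +kernel, by decide +kernel, by decide +kernel, by decide, by decide, by decide, by decide, by decide, by decide, by decide, by decide⟩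

omit hφ in
lemma parU_eq_pLet (a : K) : parU φ a = pLet φ 33 24 a := parU_gW φ a

omit hφ in
lemma suzU_eq_sLet (a b : K) : suzU φ a b = sLet φ 27 25 28 30 a b := suzU_gW φ a b

omit hφ in
/-- The chain as a product of letters. -/
theorem chain_expandF (a1 a2 b2 a3 a4 b4 a5 a6 b6 a7 a8 b8 : K) (X : List K) :
    good3F4.toGood2.gW (wval (vPF φ a1 a2 b2 a3 a4 b4 a5 a6 b6 a7 a8 b8 X) wPc) =
      pLet φ 33 24 a1 * (sLet φ 34 26 36 42 a2 b2 * (pLet φ 38 43 a3 * (sLet φ 29 41 44 47 a4 b4 * (pLet φ 39 45 a5 *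
        (sLet φ 35 31 40 46 a6 b6 * (pLet φ 37 32 a7 * sLet φ 27 25 28 30 a8 b8)))))) := by
  simp only [wPc, gW_wval_append]
  rw [gW_lP φ (vPF φ a1 a2 b2 a3 a4 b4 a5 a6 b6 a7 a8 b8 X) (i := 0) 33 24 (a := a1) rfl rfl,
    gW_lS φ (vPF φ a1 a2 b2 a3 a4 b4 a5 a6 b6 a7 a8 b8 X) (i := 2) 34 26 36 42 (a := a2) (b := b2) rfl rfl rfl rfl,
    gW_lP φ (vPF φ a1 a2 b2 a3 a4 b4 a5 a6 b6 a7 a8 b8 X) (i := 6) 38 43 (a := a3) rfl rfl,
    gW_lS φ (vPF φ a1 a2 b2 a3 a4 b4 a5 a6 b6 a7 a8 b8 X) (i := 8) 29 41 44 47 (a := a4) (b := b4) rfl rfl rfl rfl,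
    gW_lP φ (vPF φ a1 a2 b2 a3 a4 b4 a5 a6 b6 a7 a8 b8 X) (i := 12) 39 45 (a := a5) rfl rfl,
    gW_lS φ (vPF φ a1 a2 b2 a3 a4 b4 a5 a6 b6 a7 a8 b8 X) (i := 14) 35 31 40 46 (a := a6) (b := b6) rfl rfl rfl rfl,
    gW_lP φ (vPF φ a1 a2 b2 a3 a4 b4 a5 a6 b6 a7 a8 b8 X) (i := 18) 37 32 (a := a7) rfl rfl,
    gW_lS φ (vPF φ a1 a2 b2 a3 a4 b4 a5 a6 b6 a7 a8 b8 X) (i := 20) 27 25 28 30 (a := a8) (b := b8) rfl rfl rfl rfl]
  simp only [mul_assoc, pLet, sLet]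

/-- The letters of the short orbit in the middle of the chain. -/
theorem tauP3 (t : K) : tauUF hperf φ (pLet φ 38 43 t) = 1 := by
  have e := comm_SS (φ := φ) chkC3 t 0 1 0
  rw [mul_one] at e
  exact tauUF_comm (sLet_mem hφ (isS2 hφ) _ _) (sLet_mem hφ (isS4 hφ) _ _) (pLet_mem hφ (isP3 hφ) _) e

theorem tauP5 (t : K) : tauUF hperf φ (pLet φ 39 45 t) = 1 := by
  have e := comm_SS (φ := φ) chkC5 t 0 1 0
  rw [mul_one] at e
  exact tauUF_comm (sLet_mem hφ (isS4 hφ) _ _) (sLet_mem hφ (isS6 hφ) _ _) (pLet_mem hφ (isP5 hφ) _) e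

theorem tauP7 (t : K) : tauUF hperf φ (pLet φ 37 32 t) = 1 := by
  have e := comm_SS (φ := φ) chkC7 t 0 1 0
  rw [mul_one] at e
  exact tauUF_comm (sLet_mem hφ (isS6 hφ) _ _) (sLet_mem hφ (isS8 hφ) _ _) (pLet_mem hφ (isP7 hφ) _) e

/-- The second layers of the letters of the long orbit in the middle of the chain. -/
theorem tauS2z (u : K) : tauUF hperf φ (sLet φ 34 26 36 42 0 u) = 1 := by
  have e := comm_PS (φ := φ) (t1 := 34) (t2 := 26) hφ chkC2 (φ.symm u) 1 0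
  rw [mul_one, RingEquiv.apply_symm_apply] at e
  exact tauUF_comm (pLet_mem hφ (isP1 hφ) _) (sLet_mem hφ (isS4 hφ) _ _) (sLet_mem hφ (isS2 hφ) _ _) e

theorem tauS4z (u : K) : tauUF hperf φ (sLet φ 29 41 44 47 0 u) = 1 := by
  have e := comm_PS (φ := φ) (t1 := 29) (t2 := 41) hφ chkC4 (φ.symm u) 1 0
  rw [mul_one, RingEquiv.apply_symm_apply] at e
  exact tauUF_comm (pLet_mem hφ (isP3 hφ) _) (sLet_mem hφ (isS6 hφ) _ _) (sLet_mem hφ (isS4 hφ) _ _) e

theorem tauS6z (u : K) : tauUF hperf φ (sLet φ 35 31 40 46 0 u) = 1 := by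
  have e := comm_PS (φ := φ) (t1 := 35) (t2 := 31) hφ chkC6 (φ.symm u) 1 0
  rw [mul_one, RingEquiv.apply_symm_apply] at e
  exact tauUF_comm (pLet_mem hφ (isP5 hφ) _) (sLet_mem hφ (isS8 hφ) _ _) (sLet_mem hφ (isS6 hφ) _ _) e

omit hφ [CharP K 2] in
lemma sLet_zero_zero (r1 r2 r3 r4 : ℕ) : sLet φ r1 r2 r3 r4 (0 : K) 0 = 1 := by
  simp [sLet, Tbl.Good2.gW_cons, Tbl.Good2.xN_zero]

omit hφ in
lemma add_eq_zero_charF {a b : K} (h : a + b = 0) : a = b := by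
  have h2 := two_eq_zero_K (K := K)
  linear_combination h - b * h2

/-- The map `c ↦ φ(c) c` is onto. -/
lemma exists_phi_mul [Finite K] {u : K} (hu : u ≠ 0) : ∃ c : K, c ≠ 0 ∧ φ c * c = u := by
  let f : Kˣ →* Kˣ := (Units.map (φ : K →* K)) * (MonoidHom.id Kˣ)
  have hf : ∀ c : Kˣ, ((f c : Kˣ) : K) = φ c * c := fun c => rfl
  have hinj : Function.Injective f := by
    rw [injective_iff_map_eq_one]
    intro c hc
    have h1 : φ (c : K) * c = 1 := by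
      rw [← hf, hc]
      rfl
    have h2 : φ (φ (c : K)) * φ (c : K) = 1 := by
      have := congrArg φ h1
      rwa [map_mul, map_one] at this
    have h3 : φ (φ (c : K)) = c := by
      have hne : φ (c : K) ≠ 0 := (map_ne_zero φ).2 c.ne_zero
      exact mul_right_cancel₀ hne (by rw [h2, mul_comm]; exact h1.symm)
    have h4 := sq_phi_phi φ hφ (c : K)
    rw [h3] at h4
    apply Units.ext
    have h5 : (c : K) * ((c : K) - 1) = 0 := by linear_combination h4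
    rcases mul_eq_zero.1 h5 with h6 | h6
    · exact absurd h6 c.ne_zero
    · simpa using sub_eq_zero.1 h6
  obtain ⟨c, hc⟩ := (Finite.injective_iff_surjective.1 hinj) (Units.mk0 u hu)
  refine ⟨c, c.ne_zero, ?_⟩
  rw [← hf, hc]
  rfl

/-- The second layer of the last letter. -/
theorem tauS8z [Finite K] {t0 : K} (ht0 : φ t0 ≠ t0) (u : K) : tauUF hperf φ (sLet φ 27 25 28 30 0 u) = 1 := by
  by_cases hu : u = 0
  · subst hu
    rw [sLet_zero_zero, tauUF_one]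
  have hv : φ t0 + t0 ≠ 0 := fun h => ht0 (add_eq_zero_charF h)
  obtain ⟨c, hc0, hc⟩ := exists_phi_mul hφ (div_ne_zero hu hv)
  have hs := isS8 (hperf := hperf) hφ
  have h2 := two_eq_zero_K (K := K)
  have e : sLet φ 27 25 28 30 (c * t0) 0 * sLet φ 27 25 28 30 c 0 =
      sLet φ 27 25 28 30 0 u * (sLet φ 27 25 28 30 c 0 * sLet φ 27 25 28 30 (c * t0) 0) := by
    rw [sLet_mul hφ hs, sLet_mul hφ hs, sLet_mul hφ hs, map_zero, zero_mul]
    have e1 : u = φ c * c * (φ t0 + t0) := by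
      rw [hc]
      field_simp
    congr 1
    · ring
    · rw [map_mul, e1]
      linear_combination (-(φ c * c * t0)) * h2
  exact tauUF_comm (sLet_mem hφ hs _ _) (sLet_mem hφ hs _ _) (sLet_mem hφ hs _ _) e

/-- The image of a letter of the long orbit only depends on the first coordinate. -/
lemma tau_split {r1 r2 r3 r4 : ℕ} (hs : IsSLet hperf φ r1 r2 r3 r4) (hz : ∀ u, tauUF hperf φ (sLet φ r1 r2 r3 r4 0 u) = 1) (t u : K) :
    tauUF hperf φ (sLet φ r1 r2 r3 r4 t u) = tauUF hperf φ (sLet φ r1 r2 r3 r4 t 0) := by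
  have e : sLet φ r1 r2 r3 r4 t 0 * sLet φ r1 r2 r3 r4 0 u = sLet φ r1 r2 r3 r4 t u := by
    rw [sLet_mul hφ hs]
    simp
  rw [← e, tauUF_mul (sLet_mem hφ hs _ _) (sLet_mem hφ hs _ _), hz, mul_one]

/-- The first coordinate is additive. -/
lemma tau_add {r1 r2 r3 r4 : ℕ} (hs : IsSLet hperf φ r1 r2 r3 r4) (hz : ∀ u, tauUF hperf φ (sLet φ r1 r2 r3 r4 0 u) = 1) (t t' : K) :
    tauUF hperf φ (sLet φ r1 r2 r3 r4 (t + t') 0) = tauUF hperf φ (sLet φ r1 r2 r3 r4 t 0) * tauUF hperf φ (sLet φ r1 r2 r3 r4 t' 0) := by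
  rw [← tauUF_mul (sLet_mem hφ hs _ _) (sLet_mem hφ hs _ _), sLet_mul hφ hs, tau_split hφ hs hz _ (0 + 0 + φ t * t')]

/-- The image of a chain. -/
theorem tau_chain (a1 a2 b2 a3 a4 b4 a5 a6 b6 a7 a8 b8 : K) :
    tauUF hperf φ (good3F4.toGood2.gW (wval (vPF φ a1 a2 b2 a3 a4 b4 a5 a6 b6 a7 a8 b8 []) wPc)) =
      tauUF hperf φ (pLet φ 33 24 a1) * (tauUF hperf φ (sLet φ 34 26 36 42 a2 b2) * (tauUF hperf φ (pLet φ 38 43 a3) * (tauUF hperf φ (sLet φ 29 41 44 47 a4 b4) *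
        (tauUF hperf φ (pLet φ 39 45 a5) * (tauUF hperf φ (sLet φ 35 31 40 46 a6 b6) * (tauUF hperf φ (pLet φ 37 32 a7) * tauUF hperf φ (sLet φ 27 25 28 30 a8 b8))))))) := by
  rw [chain_expandF]
  have h1 := pLet_mem hφ (isP1 (hperf := hperf) hφ) a1
  have h2 := sLet_mem hφ (isS2 (hperf := hperf) hφ) a2 b2
  have h3 := pLet_mem hφ (isP3 (hperf := hperf) hφ) a3
  have h4 := sLet_mem hφ (isS4 (hperf := hperf) hφ) a4 b4
  have h5 := pLet_mem hφ (isP5 (hperf := hperf) hφ) a5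
  have h6 := sLet_mem hφ (isS6 (hperf := hperf) hφ) a6 b6
  have h7 := pLet_mem hφ (isP7 (hperf := hperf) hφ) a7
  have h8 := sLet_mem hφ (isS8 (hperf := hperf) hφ) a8 b8
  have m7 := Subgroup.mul_mem _ h7 h8
  have m6 := Subgroup.mul_mem _ h6 m7
  have m5 := Subgroup.mul_mem _ h5 m6
  have m4 := Subgroup.mul_mem _ h4 m5
  have m3 := Subgroup.mul_mem _ h3 m4
  have m2 := Subgroup.mul_mem _ h2 m3
  rw [tauUF_mul h1 m2, tauUF_mul h2 m3, tauUF_mul h3 m4, tauUF_mul h4 m5, tauUF_mul h5 m6, tauUF_mul h6 m7, tauUF_mul h7 h8]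

/-- The image of a chain. -/
theorem tau_chain2 [Finite K] {t0 : K} (ht0 : φ t0 ≠ t0) (a1 a2 b2 a3 a4 b4 a5 a6 b6 a7 a8 b8 : K) :
    tauUF hperf φ (good3F4.toGood2.gW (wval (vPF φ a1 a2 b2 a3 a4 b4 a5 a6 b6 a7 a8 b8 []) wPc)) =
      tauUF hperf φ (pLet φ 33 24 a1) * (tauUF hperf φ (sLet φ 34 26 36 42 a2 0) * (tauUF hperf φ (sLet φ 29 41 44 47 a4 0) *
        (tauUF hperf φ (sLet φ 35 31 40 46 a6 0) * tauUF hperf φ (sLet φ 27 25 28 30 a8 0)))) := by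
  rw [tau_chain hφ, tauP3 hφ, tauP5 hφ, tauP7 hφ, one_mul, one_mul, one_mul,
    tau_split hφ (isS2 hφ) (tauS2z hφ) a2 b2, tau_split hφ (isS4 hφ) (tauS4z hφ) a4 b4,
    tau_split hφ (isS6 hφ) (tauS6z hφ) a6 b6, tau_split hφ (isS8 hφ) (tauS8z hφ ht0) a8 b8]

/-- The relation coming from the commutator of the second and last letters. -/
theorem tau_rel [Finite K] {t0 : K} (ht0 : φ t0 ≠ t0) (a b c d : K) :
    tauUF hperf φ (sLet φ 29 41 44 47 (φ a ^ 2 * c) 0) * tauUF hperf φ (sLet φ 35 31 40 46 (a * φ c ^ 2) 0) = 1 := by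
  have hx := sLet_mem hφ (isS2 (hperf := hperf) hφ) a b
  have hy := sLet_mem hφ (isS8 (hperf := hperf) hφ) c d
  have hm1 := Subgroup.mul_mem _ hy hx
  have hg := Subgroup.mul_mem _ (Subgroup.mul_mem _ hx hy) (Subgroup.inv_mem _ hm1)
  obtain ⟨a1, a2, b2, a3, a4, b4, a5, a6, b6, a7, a8, b8, e⟩ := chainP_full hperf φ hφ hg
  have htau := tauUF_comm hx hy hg (by group)
  rw [e, tau_chain2 hφ ht0] at htau
  have hmain : good3F4.toGood2.gW (wval (vPF φ a1 a2 b2 a3 a4 b4 a5 a6 b6 a7 a8 b8 [a, φ a, b, φ (b ^ 2), c, φ c, d, φ (d ^ 2)]) (wPc ++ (lS 27 25 28 30 28 ++ lS 34 26 36 42 24))) =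
      good3F4.toGood2.gW (wval (vPF φ a1 a2 b2 a3 a4 b4 a5 a6 b6 a7 a8 b8 [a, φ a, b, φ (b ^ 2), c, φ c, d, φ (d ^ 2)]) (lS 34 26 36 42 24 ++ lS 27 25 28 30 28)) := by
    rw [gW_wval_append, gW_wval_append, gW_wval_append, gW_vPF_X φ _ _ _ _ _ _ _ _ _ _ _ _ [a, φ a, b, φ (b ^ 2), c, φ c, d, φ (d ^ 2)] [], ← e,
      gW_lS φ _ (i := 28) 27 25 28 30 (a := c) (b := d) rfl rfl rfl rfl, gW_lS φ _ (i := 24) 34 26 36 42 (a := a) (b := b) rfl rfl rfl rfl]
    show sLet φ 34 26 36 42 a b * sLet φ 27 25 28 30 c d * (sLet φ 27 25 28 30 c d * sLet φ 34 26 36 42 a b)⁻¹ * (sLet φ 27 25 28 30 c d * sLet φ 34 26 36 42 a b) = sLet φ 34 26 36 42 a b * sLet φ 27 25 28 30 c d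
    group
  have c0 : a1 * 1 + 0 = 0 := good3F4.toGood2.coords _ _ nf3L nf3R hmain 0 (by decide)
  have c1 : a8 * 1 + (c * 1 + 0) = c * 1 + 0 := good3F4.toGood2.coords _ _ nf3L nf3R hmain 1 (by decide)
  have c2 : a2 * 1 + (a * 1 + 0) = a * 1 + 0 := good3F4.toGood2.coords _ _ nf3L nf3R hmain 2 (by decide)
  have c7 : a6 * 1 + ((φ a8) * ((φ a8) * (a * 1)) + (a * ((φ c) * ((φ c) * 1)) + 0)) = 0 := good3F4.toGood2.coords _ _ nf3L nf3R hmain 7 (by decide)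
  have c17 : (φ a1) * ((φ a1) * (a8 * ((φ a8) * ((φ a8) * 1)))) + ((φ a1) * ((φ a1) * ((φ a8) * ((φ a8) * (c * 1)))) + ((φ a1) * ((φ a1) * ((φ (b8 ^ 2)) * 1)) + ((φ a1) * ((φ a1) * (c * ((φ c) * ((φ c) * 1)))) + ((φ a1) * ((φ a1) * ((φ (d ^ 2)) * 1)) + ((φ a2) * ((φ a2) * (a8 * 1)) + ((φ a2) * ((φ a2) * (c * 1)) + (a4 * 1 + 0))))))) = (φ a) * ((φ a) * (c * 1)) + 0 := good3F4.toGood2.coords _ _ nf3L nf3R hmain 17 (by decide)
  have h1 : a1 = 0 := by simpa using c0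
  have h8 : a8 = 0 := by simpa using c1
  have h2 : a2 = 0 := by simpa using c2
  subst h1 h8 h2
  have h2K := two_eq_zero_K (K := K)
  have h6 : a6 = a * φ c ^ 2 := by
    simp only [map_zero, zero_mul, mul_zero, mul_one, add_zero, zero_add] at c7
    linear_combination c7 - (a * φ c ^ 2) * h2K
  have h4 : a4 = φ a ^ 2 * c := by
    simp only [map_zero, zero_mul, mul_zero, mul_one, add_zero, zero_add] at c17
    linear_combination c17
  rw [h4, h6, pLet_zero, tauUF_one, one_mul, sLet_zero_zero, tauUF_one, one_mul, sLet_zero_zero, tauUF_one, mul_one] at htau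
  exact htau

/-- The images of the letters in the middle of the chain are trivial. -/
theorem tauS6 [Finite K] {t0 : K} (ht0 : φ t0 ≠ t0) (t : K) : tauUF hperf φ (sLet φ 35 31 40 46 t 0) = 1 := by
  have hadd := tau_add hφ (isS6 (hperf := hperf) hφ) (tauS6z hφ)
  have h1phi : ∀ x : K, φ ((φ x) ^ 2) = x := fun x => by
    rw [← map_pow]
    exact hφ x
  have hi : ∀ y : K, tauUF hperf φ (sLet φ 29 41 44 47 y 0) * tauUF hperf φ (sLet φ 35 31 40 46 (φ y) 0) = 1 := by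
    intro y
    have e := tau_rel (hperf := hperf) hφ ht0 (φ y) 0 1 0
    rw [sq_phi_phi φ hφ, mul_one, map_one, one_pow, mul_one] at e
    exact e
  have hii : ∀ a c : K, tauUF hperf φ (sLet φ 35 31 40 46 (a * φ c ^ 2) 0) = tauUF hperf φ (sLet φ 35 31 40 46 (a * φ c) 0) := by
    intro a c
    have e1 := tau_rel (hperf := hperf) hφ ht0 a 0 c 0
    have e2 := hi (φ a ^ 2 * c)
    rw [map_mul, h1phi] at e2
    exact mul_left_cancel (e1.trans e2.symm)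
  have hzero : tauUF hperf φ (sLet φ 35 31 40 46 (0 : K) 0) = 1 := tauS6z hφ 0
  have hsq : ∀ x : K, tauUF hperf φ (sLet φ 35 31 40 46 x 0) * tauUF hperf φ (sLet φ 35 31 40 46 x 0) = 1 := by
    intro x
    rw [← hadd, CharTwo.add_self_eq_zero, hzero]
  have hne : φ t0 ^ 2 + φ t0 ≠ 0 := by
    intro h
    have h3 : φ t0 * (φ t0 + 1) = 0 := by linear_combination h
    rcases mul_eq_zero.1 h3 with h4 | h4
    · have h5 : t0 = 0 := (map_eq_zero φ).1 h4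
      rw [h5, map_zero] at ht0
      exact ht0 rfl
    · have h5 : φ t0 = 1 := add_eq_zero_charF h4
      have h6 : t0 = 1 := (map_eq_one_iff φ φ.injective).1 h5
      rw [h6, map_one] at ht0
      exact ht0 rfl
  have e : t = (t / (φ t0 ^ 2 + φ t0)) * φ t0 ^ 2 + (t / (φ t0 ^ 2 + φ t0)) * φ t0 := by
    rw [← mul_add, div_mul_cancel₀ _ hne]
  rw [e, hadd, hii]
  exact hsq _

theorem tauS4 [Finite K] {t0 : K} (ht0 : φ t0 ≠ t0) (t : K) : tauUF hperf φ (sLet φ 29 41 44 47 t 0) = 1 := by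
  have e := tau_rel (hperf := hperf) hφ ht0 (φ t) 0 1 0
  rw [sq_phi_phi φ hφ, mul_one, map_one, one_pow, mul_one, tauS6 hφ ht0, mul_one] at e
  exact e

/-- The relation coming from the commutator of the first and last letters. -/
theorem tauS2 [Finite K] {t0 : K} (ht0 : φ t0 ≠ t0) (t : K) : tauUF hperf φ (sLet φ 34 26 36 42 t 0) = 1 := by
  have hx := pLet_mem hφ (isP1 (hperf := hperf) hφ) t
  have hy := sLet_mem hφ (isS8 (hperf := hperf) hφ) (1 : K) 0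
  have hm1 := Subgroup.mul_mem _ hy hx
  have hg := Subgroup.mul_mem _ (Subgroup.mul_mem _ hx hy) (Subgroup.inv_mem _ hm1)
  obtain ⟨a1, a2, b2, a3, a4, b4, a5, a6, b6, a7, a8, b8, e⟩ := chainP_full hperf φ hφ hg
  have htau := tauUF_comm hx hy hg (by group)
  rw [e, tau_chain2 hφ ht0, tauS4 hφ ht0, tauS6 hφ ht0, one_mul] at htau
  have hmain : good3F4.toGood2.gW (wval (vPF φ a1 a2 b2 a3 a4 b4 a5 a6 b6 a7 a8 b8 [t, φ t, 1, φ 1, 0, φ ((0 : K) ^ 2)]) (wPc ++ (lS 27 25 28 30 26 ++ lP 33 24 24))) =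
      good3F4.toGood2.gW (wval (vPF φ a1 a2 b2 a3 a4 b4 a5 a6 b6 a7 a8 b8 [t, φ t, 1, φ 1, 0, φ ((0 : K) ^ 2)]) (lP 33 24 24 ++ lS 27 25 28 30 26)) := by
    rw [gW_wval_append, gW_wval_append, gW_wval_append, gW_vPF_X φ _ _ _ _ _ _ _ _ _ _ _ _ [t, φ t, 1, φ 1, 0, φ ((0 : K) ^ 2)] [], ← e,
      gW_lS φ _ (i := 26) 27 25 28 30 (a := 1) (b := 0) rfl rfl rfl rfl, gW_lP φ _ (i := 24) 33 24 (a := t) rfl rfl]
    show pLet φ 33 24 t * sLet φ 27 25 28 30 1 0 * (sLet φ 27 25 28 30 1 0 * pLet φ 33 24 t)⁻¹ * (sLet φ 27 25 28 30 1 0 * pLet φ 33 24 t) = pLet φ 33 24 t * sLet φ 27 25 28 30 1 0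
    group
  have c0 : a1 * 1 + (t * 1 + 0) = t * 1 + 0 := good3F4.toGood2.coords _ _ nf4L nf4R hmain 0 (by decide)
  have c1 : a8 * 1 + ((1 : K) * 1 + 0) = (1 : K) * 1 + 0 := good3F4.toGood2.coords _ _ nf4L nf4R hmain 1 (by decide)
  have c2 : a2 * 1 + (a8 * (t * 1) + (t * ((1 : K) * 1) + 0)) = 0 := good3F4.toGood2.coords _ _ nf4L nf4R hmain 2 (by decide)
  have h1 : a1 = 0 := by simpa using c0
  have h8 : a8 = 0 := by simpa using c1
  subst h1 h8
  have h2K := two_eq_zero_K (K := K)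
  have h2 : a2 = t := by
    simp only [zero_mul, mul_zero, mul_one, add_zero, zero_add] at c2
    linear_combination c2 - t * h2K
  rw [h2, pLet_zero, tauUF_one, one_mul, sLet_zero_zero, tauUF_one, mul_one, mul_one] at htau
  exact htau

/-- Every element of the abelianization comes from the two simple orbits. -/
theorem tau_form [Finite K] {t0 : K} (ht0 : φ t0 ≠ t0) {g : GL chevF4.Idx K} (hg : g ∈ UF4 hperf φ) :
    ∃ a c : K, tauUF hperf φ g = tauUF hperf φ (parU φ a) * tauUF hperf φ (suzU φ c 0) := by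
  obtain ⟨a1, a2, b2, a3, a4, b4, a5, a6, b6, a7, a8, b8, e⟩ := chainP_full hperf φ hφ hg
  refine ⟨a1, a8, ?_⟩
  rw [e, tau_chain2 hφ ht0, tauS2 hφ ht0, tauS4 hφ ht0, tauS6 hφ ht0, one_mul, one_mul, one_mul, parU_eq_pLet, suzU_eq_sLet]

end Let

end

end Cfsg.Agent.Lib.Chev
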