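/-
The group ²F₄(2): a homomorphism from the fixed points of `U` onto the group with two elements.
-/
import Cfsg.Agent.Lib.Coll.TwoF4b
import Cfsg.Agent.Lib.Coll.ReeH

set_option autoImplicit false
set_option maxRecDepth 100000

namespace Cfsg.Agent.Lib.Chev

open Cfsg.Lie Coll

namespace Coll

/-- Data of the collector. -/
def LTP : List PP := [[[0]], [[20]], [[2]], [[21]], [[22]], [[9]], [[20,21,21],[23]], [[14]], [[14,20],[18]], [[1]], [[1,21],[3]], [[1,22],[3,20],[15]], [[1,9],[4]], [[1,20,21,21],[1,21,22],[1,23],[3,20,21],[3,22],[15,21],[19]], [[1,9,21],[1,14],[3,9],[4,21],[7]], [[1,9,22],[1,14,20],[1,18],[3,9,20],[4,22],[7,20],[13]], [[1,9,20,21,21],[1,9,21,22],[1,9,23],[1,14,20,21],[1,14,22],[1,18,21],[3,9,20,21],[3,9,22],[3,18],[4,20,21,21],[4,21,22],[4,23],[7,20,21],[7,22],[13,21],[16]], [[1,1,20,21,21],[1,1,23],[3,3,20],[8]],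 [[1,1,14],[2,3,3],[5]], [[1,1,14,20],[1,1,18],[2,3,3,20],[5,20],[6]], [[1,1,9,20,21,21],[1,1,9,21,22],[1,1,9,23],[1,1,14,20,21],[1,1,14,22],[1,1,18,21],[1,3,9,20,21],[1,3,9,22],[1,3,18],[1,4,20,21,21],[1,4,21,22],[1,4,23],[1,9,15,21],[1,14,15],[2,3,3,20,21],[2,3,3,22],[3,4,20,21],[3,4,22],[3,9,15],[4,15,21],[5,20,21],[5,22],[6,21],[7,15],[8,9],[10]], [[1,1,14,23],[1,1,18,21,21],[2,3,3,23],[3,3,18],[5,23],[6,21,21],[8,14],[12]], [[1,1,14,20,20,21,21],[1,1,14,20,23],[1,1,14,22,22],[1,1,18,20,21,21],[1,1,18,23],[2,3,3,20,20,21,21],[2,3,3,20,23],[2,3,3,22,22],[3,3,18,20],[5,20,20,21,21],[5,20,23],[5,22,22],[6,20,21,21],[6,23],[8,14,20],[8,18],[12,20],[14,15,15],[17]], [[1,1,9,9,20,21,21],[1,1,9,9,23],[1,1,14,14,20],[1,1,14,18],[2,3,3,18],[3,3,9,9,20],[4,4,20,21,21],[4,4,23],[5,18],[6,14],[7,7,20],[11]]]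

theorem nfTP : digF4.tbl.collectNF 100000 wPc = some LTP := by decide +kernel

/-- Data of the collector. -/
def LT1 : List PP := [[[0],[24]], [[20]], [[2],[20,24]], [[21]], [[22]], [[9],[22,24]], [[20,21,21],[23]], [[14],[20,21,21,24],[23,24]], [[14,20],[18],[22,22,24]], [[1],[25]], [[1,21],[3]], [[1,22],[3,20],[15]], [[1,9],[1,22,24],[3,20,24],[4],[15,24]], [[1,20,21,21],[1,21,22],[1,23],[3,20,21],[3,22],[15,21],[19]], [[1,9,21],[1,14],[1,20,21,21,24],[1,21,22,24],[1,23,24],[3,9],[3,20,21,24],[3,22,24],[4,21],[7],[15,21,24],[19,24]], [[1,9,22],[1,14,20],[1,18],[3,9,20],[4,22],[7,20],[13]], [[1,9,20,21,21],[1,9,21,22],[1,9,23],[1,14,20,21],[1,14,22],[1,18,21],[3,9,20,21],[3,9,22],[3,18],[4,20,21,21],[4,21,22],[4,23],[7,20,21],[7,22],[13,21],[16]], [[1,1,20,21,21],[1,1,23],[3,3,20],[8]], [[1,1,14],[1,1,20,21,21,24],[1,1,23,24],[2,3,3],[3,3,20,24],[5],[8,24]],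 [[1,1,14,20],[1,1,18],[1,1,22,22,24],[2,3,3,20],[3,3,20,20,24],[5,20],[6],[15,15,24]], [[1,1,9,20,21,21],[1,1,9,21,22],[1,1,9,23],[1,1,14,20,21],[1,1,14,22],[1,1,18,21],[1,3,9,20,21],[1,3,9,22],[1,3,18],[1,4,20,21,21],[1,4,21,22],[1,4,23],[1,9,15,21],[1,9,20,21,21,25],[1,9,21,22,25],[1,9,23,25],[1,14,15],[1,14,20,21,25],[1,14,22,25],[1,18,21,25],[2,3,3,20,21],[2,3,3,22],[3,4,20,21],[3,4,22],[3,9,15],[3,9,20,21,25],[3,9,22,25],[3,18,25],[4,15,21],[4,20,21,21,25],[4,21,22,25],[4,23,25],[5,20,21],[5,22],[6,21],[7,15],[7,20,21,25],[7,22,25],[8,9],[10],[13,21,25],[16,25]], [[1,1,14,23],[1,1,18,21,21],[1,1,20,20,21,21,21,21,24],[1,1,21,21,22,22,24],[1,1,23,23,24],[2,3,3,23],[3,3,18],[3,3,20,20,21,21,24],[3,3,22,22,24],[5,23],[6,21,21],[8,14],[12],[15,15,21,21,24],[19,19,24]], [[1,1,14,20,20,21,21],[1,1,14,20,23],[1,1,14,22,22],[1,1,18,20,21,21],[1,1,18,23],[2,3,3,20,20,21,21],[2,3,3,20,23],[2,3,3,22,22],[3,3,18,20],[5,20,20,21,21],[5,20,23],[5,22,22],[6,20,21,21],[6,23],[8,14,20],[8,18],[12,20],[14,15,15],[17]],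 [[1,1,9,9,20,21,21],[1,1,9,9,23],[1,1,14,14,20],[1,1,14,18],[1,1,14,20,20,21,21,24],[1,1,14,20,23,24],[1,1,14,22,22,24],[1,1,18,20,21,21,24],[1,1,18,23,24],[2,3,3,18],[2,3,3,20,20,21,21,24],[2,3,3,20,23,24],[2,3,3,22,22,24],[3,3,9,9,20],[3,3,18,20,24],[4,4,20,21,21],[4,4,23],[5,18],[5,20,20,21,21,24],[5,20,23,24],[5,22,22,24],[6,14],[6,20,21,21,24],[6,23,24],[7,7,20],[8,14,20,24],[8,18,24],[11],[12,20,24],[14,15,15,24],[17,24]]]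

theorem nfT1 : digF4.tbl.collectNF 100000 (wPc ++ lP 33 24 24) = some LT1 := by decide +kernel

/-- Data of the collector. -/
def LT2 : List PP := [[[0]], [[20]], [[2],[24]], [[21]], [[22]], [[9],[21,24]], [[20,21,21],[23]], [[14],[21,21,24]], [[14,20],[18],[20,21,21,24],[23,24]], [[1]], [[1,21],[3],[25]], [[1,22],[3,20],[15]], [[1,9],[1,21,24],[3,24],[4],[26]], [[1,20,21,21],[1,21,22],[1,23],[3,20,21],[3,22],[15,21],[19]], [[1,9,21],[1,14],[3,9],[4,21],[7]], [[1,9,22],[1,14,20],[1,18],[1,20,21,21,24],[1,21,22,24],[1,23,24],[3,9,20],[3,20,21,24],[3,22,24],[4,22],[7,20],[13],[15,21,24],[19,24]], [[1,9,20,21,21],[1,9,21,22],[1,9,23],[1,14,20,21],[1,14,22],[1,18,21],[3,9,20,21],[3,9,22],[3,18],[4,20,21,21],[4,21,22],[4,23],[7,20,21],[7,22],[13,21],[16]], [[1,1,20,21,21],[1,1,23],[3,3,20],[8]], [[1,1,14],[1,1,21,21,24],[2,3,3],[3,3,24],[5],[24,25,25],[27]],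 [[1,1,14,20],[1,1,18],[1,1,20,21,21,24],[1,1,23,24],[2,3,3,20],[3,3,20,24],[5,20],[6],[8,24]], [[1,1,9,20,21,21],[1,1,9,21,22],[1,1,9,23],[1,1,14,20,21],[1,1,14,22],[1,1,18,21],[1,3,9,20,21],[1,3,9,22],[1,3,18],[1,4,20,21,21],[1,4,21,22],[1,4,23],[1,9,15,21],[1,9,22,25],[1,14,15],[1,14,20,25],[1,18,25],[1,20,21,21,24,25],[1,20,21,21,26],[1,21,22,24,25],[1,21,22,26],[1,23,24,25],[1,23,26],[2,3,3,20,21],[2,3,3,22],[3,4,20,21],[3,4,22],[3,9,15],[3,9,20,25],[3,20,21,24,25],[3,20,21,26],[3,22,24,25],[3,22,26],[4,15,21],[4,22,25],[5,20,21],[5,22],[6,21],[7,15],[7,20,25],[8,9],[10],[13,25],[15,21,24,25],[15,21,26],[19,24,25],[19,26]], [[1,1,14,23],[1,1,18,21,21],[2,3,3,23],[3,3,18],[5,23],[6,21,21],[8,14],[12]], [[1,1,14,20,20,21,21],[1,1,14,20,23],[1,1,14,22,22],[1,1,18,20,21,21],[1,1,18,23],[1,1,20,20,21,21,21,21,24],[1,1,21,21,22,22,24],[1,1,23,23,24],[2,3,3,20,20,21,21],[2,3,3,20,23],[2,3,3,22,22],[3,3,18,20],[3,3,20,20,21,21,24],[3,3,22,22,24],[5,20,20,21,21],[5,20,23],[5,22,22],[6,20,21,21],[6,23],[8,14,20],[8,18],[12,20],[14,15,15],[15,15,21,21,24],[17],[19,19,24]],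 [[1,1,9,9,20,21,21],[1,1,9,9,23],[1,1,14,14,20],[1,1,14,18],[1,1,14,23,24],[1,1,18,21,21,24],[2,3,3,18],[2,3,3,23,24],[3,3,9,9,20],[3,3,18,24],[4,4,20,21,21],[4,4,23],[5,18],[5,23,24],[6,14],[6,21,21,24],[7,7,20],[8,14,24],[11],[12,24]]]

theorem nfT2 : digF4.tbl.collectNF 100000 (wPc ++ lS 34 26 36 42 24) = some LT2 := by decide +kernel

/-- Data of the collector. -/
def LT3 : List PP := [[[0]], [[20]], [[2]], [[21]], [[22]], [[9]], [[20,21,21],[23]], [[14]], [[14,20],[18]], [[1]], [[1,21],[3]], [[1,22],[3,20],[15]], [[1,9],[4]], [[1,20,21,21],[1,21,22],[1,23],[3,20,21],[3,22],[15,21],[19]], [[1,9,21],[1,14],[3,9],[4,21],[7],[25]], [[1,9,22],[1,14,20],[1,18],[3,9,20],[4,22],[7,20],[13]], [[1,9,20,21,21],[1,9,21,22],[1,9,23],[1,14,20,21],[1,14,22],[1,18,21],[3,9,20,21],[3,9,22],[3,18],[4,20,21,21],[4,21,22],[4,23],[7,20,21],[7,22],[13,21],[16]],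 [[1,1,20,21,21],[1,1,23],[3,3,20],[8]], [[1,1,14],[2,3,3],[5]], [[1,1,14,20],[1,1,18],[2,3,3,20],[5,20],[6],[24]], [[1,1,9,20,21,21],[1,1,9,21,22],[1,1,9,23],[1,1,14,20,21],[1,1,14,22],[1,1,18,21],[1,3,9,20,21],[1,3,9,22],[1,3,18],[1,4,20,21,21],[1,4,21,22],[1,4,23],[1,9,15,21],[1,14,15],[2,3,3,20,21],[2,3,3,22],[3,4,20,21],[3,4,22],[3,9,15],[4,15,21],[5,20,21],[5,22],[6,21],[7,15],[8,9],[10]], [[1,1,14,23],[1,1,18,21,21],[2,3,3,23],[3,3,18],[5,23],[6,21,21],[8,14],[12]], [[1,1,14,20,20,21,21],[1,1,14,20,23],[1,1,14,22,22],[1,1,18,20,21,21],[1,1,18,23],[2,3,3,20,20,21,21],[2,3,3,20,23],[2,3,3,22,22],[3,3,18,20],[5,20,20,21,21],[5,20,23],[5,22,22],[6,20,21,21],[6,23],[8,14,20],[8,18],[12,20],[14,15,15],[17]], [[1,1,9,9,20,21,21],[1,1,9,9,23],[1,1,14,14,20],[1,1,14,18],[2,3,3,18],[3,3,9,9,20],[4,4,20,21,21],[4,4,23],[5,18],[6,14],[7,7,20],[11]]]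

theorem nfT3 : digF4.tbl.collectNF 100000 (wPc ++ lP 38 43 24) = some LT3 := by decide +kernel

/-- Data of the collector. -/
def LT4 : List PP := [[[0]], [[20]], [[2]], [[21]], [[22]], [[9],[25]], [[20,21,21],[23]], [[14]], [[14,20],[18]], [[1]], [[1,21],[3]], [[1,22],[3,20],[15]], [[1,9],[1,25],[4]], [[1,20,21,21],[1,21,22],[1,23],[3,20,21],[3,22],[15,21],[19]], [[1,9,21],[1,14],[1,21,25],[3,9],[3,25],[4,21],[7]], [[1,9,22],[1,14,20],[1,18],[1,22,25],[3,9,20],[3,20,25],[4,22],[7,20],[13],[15,25]], [[1,9,20,21,21],[1,9,21,22],[1,9,23],[1,14,20,21],[1,14,22],[1,18,21],[1,20,21,21,25],[1,21,22,25],[1,23,25],[3,9,20,21],[3,9,22],[3,18],[3,20,21,25],[3,22,25],[4,20,21,21],[4,21,22],[4,23],[7,20,21],[7,22],[13,21],[15,21,25],[16],[19,25]], [[1,1,20,21,21],[1,1,23],[3,3,20],[8],[24]], [[1,1,14],[2,3,3],[5]], [[1,1,14,20],[1,1,18],[2,3,3,20],[5,20],[6]],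 [[1,1,9,20,21,21],[1,1,9,21,22],[1,1,9,23],[1,1,14,20,21],[1,1,14,22],[1,1,18,21],[1,1,20,21,21,25],[1,1,21,22,25],[1,1,23,25],[1,3,9,20,21],[1,3,9,22],[1,3,18],[1,3,20,21,25],[1,3,22,25],[1,4,20,21,21],[1,4,21,22],[1,4,23],[1,9,15,21],[1,14,15],[1,15,21,25],[2,3,3,20,21],[2,3,3,22],[3,4,20,21],[3,4,22],[3,9,15],[3,15,25],[4,15,21],[5,20,21],[5,22],[6,21],[7,15],[8,9],[8,25],[10],[24,25],[26]], [[1,1,14,23],[1,1,18,21,21],[2,3,3,23],[3,3,18],[5,23],[6,21,21],[8,14],[12]], [[1,1,14,20,20,21,21],[1,1,14,20,23],[1,1,14,22,22],[1,1,18,20,21,21],[1,1,18,23],[2,3,3,20,20,21,21],[2,3,3,20,23],[2,3,3,22,22],[3,3,18,20],[5,20,20,21,21],[5,20,23],[5,22,22],[6,20,21,21],[6,23],[8,14,20],[8,18],[12,20],[14,15,15],[17]], [[1,1,9,9,20,21,21],[1,1,9,9,23],[1,1,14,14,20],[1,1,14,18],[1,1,20,21,21,25,25],[1,1,23,25,25],[2,3,3,18],[3,3,9,9,20],[3,3,20,25,25],[4,4,20,21,21],[4,4,23],[5,18],[6,14],[7,7,20],[8,25,25],[11],[27]]]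

theorem nfT4 : digF4.tbl.collectNF 100000 (wPc ++ lS 29 41 44 47 24) = some LT4 := by decide +kernel

/-- Data of the collector. -/
def LT5 : List PP := [[[0]], [[20]], [[2]], [[21]], [[22]], [[9]], [[20,21,21],[23]], [[14]], [[14,20],[18]], [[1]], [[1,21],[3]], [[1,22],[3,20],[15]], [[1,9],[4]], [[1,20,21,21],[1,21,22],[1,23],[3,20,21],[3,22],[15,21],[19]], [[1,9,21],[1,14],[3,9],[4,21],[7]], [[1,9,22],[1,14,20],[1,18],[3,9,20],[4,22],[7,20],[13],[25]], [[1,9,20,21,21],[1,9,21,22],[1,9,23],[1,14,20,21],[1,14,22],[1,18,21],[3,9,20,21],[3,9,22],[3,18],[4,20,21,21],[4,21,22],[4,23],[7,20,21],[7,22],[13,21],[16]], [[1,1,20,21,21],[1,1,23],[3,3,20],[8]], [[1,1,14],[2,3,3],[5]], [[1,1,14,20],[1,1,18],[2,3,3,20],[5,20],[6]], [[1,1,9,20,21,21],[1,1,9,21,22],[1,1,9,23],[1,1,14,20,21],[1,1,14,22],[1,1,18,21],[1,3,9,20,21],[1,3,9,22],[1,3,18],[1,4,20,21,21],[1,4,21,22],[1,4,23],[1,9,15,21],[1,14,15],[2,3,3,20,21],[2,3,3,22],[3,4,20,21],[3,4,22],[3,9,15],[4,15,21],[5,20,21],[5,22],[6,21],[7,15],[8,9],[10]],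 [[1,1,14,23],[1,1,18,21,21],[2,3,3,23],[3,3,18],[5,23],[6,21,21],[8,14],[12],[24]], [[1,1,14,20,20,21,21],[1,1,14,20,23],[1,1,14,22,22],[1,1,18,20,21,21],[1,1,18,23],[2,3,3,20,20,21,21],[2,3,3,20,23],[2,3,3,22,22],[3,3,18,20],[5,20,20,21,21],[5,20,23],[5,22,22],[6,20,21,21],[6,23],[8,14,20],[8,18],[12,20],[14,15,15],[17]], [[1,1,9,9,20,21,21],[1,1,9,9,23],[1,1,14,14,20],[1,1,14,18],[2,3,3,18],[3,3,9,9,20],[4,4,20,21,21],[4,4,23],[5,18],[6,14],[7,7,20],[11]]]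

theorem nfT5 : digF4.tbl.collectNF 100000 (wPc ++ lP 39 45 24) = some LT5 := by decide +kernel

/-- Data of the collector. -/
def LT6 : List PP := [[[0]], [[20]], [[2]], [[21]], [[22]], [[9]], [[20,21,21],[23]], [[14],[24]], [[14,20],[18]], [[1]], [[1,21],[3]], [[1,22],[3,20],[15],[25]], [[1,9],[4]], [[1,20,21,21],[1,21,22],[1,23],[3,20,21],[3,22],[15,21],[19]], [[1,9,21],[1,14],[1,24],[3,9],[4,21],[7]], [[1,9,22],[1,14,20],[1,18],[3,9,20],[4,22],[7,20],[13]], [[1,9,20,21,21],[1,9,21,22],[1,9,23],[1,14,20,21],[1,14,22],[1,18,21],[1,22,24],[3,9,20,21],[3,9,22],[3,18],[3,20,24],[4,20,21,21],[4,21,22],[4,23],[7,20,21],[7,22],[13,21],[15,24],[16],[26]], [[1,1,20,21,21],[1,1,23],[3,3,20],[8]], [[1,1,14],[1,1,24],[2,3,3],[5]], [[1,1,14,20],[1,1,18],[2,3,3,20],[5,20],[6]], [[1,1,9,20,21,21],[1,1,9,21,22],[1,1,9,23],[1,1,14,20,21],[1,1,14,22],[1,1,18,21],[1,1,22,24],[1,3,9,20,21],[1,3,9,22],[1,3,18],[1,3,20,24],[1,4,20,21,21],[1,4,21,22],[1,4,23],[1,9,15,21],[1,9,21,25],[1,14,15],[1,14,25],[1,15,24],[1,24,25],[2,3,3,20,21],[2,3,3,22],[3,4,20,21],[3,4,22],[3,9,15],[3,9,25],[4,15,21],[4,21,25],[5,20,21],[5,22],[6,21],[7,15],[7,25],[8,9],[10]],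 [[1,1,14,23],[1,1,18,21,21],[1,1,20,21,21,24],[1,1,23,24],[2,3,3,23],[3,3,18],[3,3,20,24],[5,23],[6,21,21],[8,14],[8,24],[12]], [[1,1,14,20,20,21,21],[1,1,14,20,23],[1,1,14,22,22],[1,1,18,20,21,21],[1,1,18,23],[1,1,22,22,24],[2,3,3,20,20,21,21],[2,3,3,20,23],[2,3,3,22,22],[3,3,18,20],[3,3,20,20,24],[5,20,20,21,21],[5,20,23],[5,22,22],[6,20,21,21],[6,23],[8,14,20],[8,18],[12,20],[14,15,15],[15,15,24],[17],[24,25,25],[27]], [[1,1,9,9,20,21,21],[1,1,9,9,23],[1,1,14,14,20],[1,1,14,18],[1,1,14,20,24],[1,1,18,24],[2,3,3,18],[2,3,3,20,24],[3,3,9,9,20],[4,4,20,21,21],[4,4,23],[5,18],[5,20,24],[6,14],[6,24],[7,7,20],[11]]]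

theorem nfT6 : digF4.tbl.collectNF 100000 (wPc ++ lS 35 31 40 46 24) = some LT6 := by decide +kernel

/-- Data of the collector. -/
def LT7 : List PP := [[[0]], [[20]], [[2]], [[21]], [[22]], [[9]], [[20,21,21],[23]], [[14]], [[14,20],[18],[24]], [[1]], [[1,21],[3]], [[1,22],[3,20],[15]], [[1,9],[4]], [[1,20,21,21],[1,21,22],[1,23],[3,20,21],[3,22],[15,21],[19],[25]], [[1,9,21],[1,14],[3,9],[4,21],[7]], [[1,9,22],[1,14,20],[1,18],[1,24],[3,9,20],[4,22],[7,20],[13]], [[1,9,20,21,21],[1,9,21,22],[1,9,23],[1,14,20,21],[1,14,22],[1,18,21],[1,21,24],[3,9,20,21],[3,9,22],[3,18],[3,24],[4,20,21,21],[4,21,22],[4,23],[7,20,21],[7,22],[13,21],[16]], [[1,1,20,21,21],[1,1,23],[3,3,20],[8]], [[1,1,14],[2,3,3],[5]], [[1,1,14,20],[1,1,18],[1,1,24],[2,3,3,20],[5,20],[6]], [[1,1,9,20,21,21],[1,1,9,21,22],[1,1,9,23],[1,1,14,20,21],[1,1,14,22],[1,1,18,21],[1,1,21,24],[1,3,9,20,21],[1,3,9,22],[1,3,18],[1,3,24],[1,4,20,21,21],[1,4,21,22],[1,4,23],[1,9,15,21],[1,14,15],[2,3,3,20,21],[2,3,3,22],[3,4,20,21],[3,4,22],[3,9,15],[4,15,21],[5,20,21],[5,22],[6,21],[7,15],[8,9],[10]],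 [[1,1,14,23],[1,1,18,21,21],[1,1,21,21,24],[2,3,3,23],[3,3,18],[3,3,24],[5,23],[6,21,21],[8,14],[12]], [[1,1,14,20,20,21,21],[1,1,14,20,23],[1,1,14,22,22],[1,1,18,20,21,21],[1,1,18,23],[1,1,20,21,21,24],[1,1,23,24],[2,3,3,20,20,21,21],[2,3,3,20,23],[2,3,3,22,22],[3,3,18,20],[3,3,20,24],[5,20,20,21,21],[5,20,23],[5,22,22],[6,20,21,21],[6,23],[8,14,20],[8,18],[8,24],[12,20],[14,15,15],[17]], [[1,1,9,9,20,21,21],[1,1,9,9,23],[1,1,14,14,20],[1,1,14,18],[1,1,14,24],[2,3,3,18],[2,3,3,24],[3,3,9,9,20],[4,4,20,21,21],[4,4,23],[5,18],[5,24],[6,14],[7,7,20],[11]]]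

theorem nfT7 : digF4.tbl.collectNF 100000 (wPc ++ lP 37 32 24) = some LT7 := by decide +kernel

/-- Data of the collector. -/
def LT8 : List PP := [[[0]], [[20],[24]], [[2]], [[21],[25]], [[21,24],[22],[26]], [[9]], [[20,21,21],[21,21,24],[23],[24,25,25],[27]], [[14]], [[14,20],[14,24],[18]], [[1]], [[1,21],[1,25],[3]], [[1,21,24],[1,22],[1,26],[3,20],[3,24],[15]], [[1,9],[4]], [[1,20,21,21],[1,21,22],[1,21,24,25],[1,21,26],[1,22,25],[1,23],[1,24,25,25],[1,25,26],[1,27],[3,20,21],[3,20,25],[3,22],[3,24,25],[3,26],[15,21],[15,25],[19]], [[1,9,21],[1,9,25],[1,14],[3,9],[4,21],[4,25],[7]], [[1,9,21,24],[1,9,22],[1,9,26],[1,14,20],[1,14,24],[1,18],[3,9,20],[3,9,24],[4,21,24],[4,22],[4,26],[7,20],[7,24],[13]], [[1,9,20,21,21],[1,9,21,22],[1,9,21,24,25],[1,9,21,26],[1,9,22,25],[1,9,23],[1,9,24,25,25],[1,9,25,26],[1,9,27],[1,14,20,21],[1,14,20,25],[1,14,22],[1,14,24,25],[1,14,26],[1,18,21],[1,18,25],[3,9,20,21],[3,9,20,25],[3,9,22],[3,9,24,25],[3,9,26],[3,18],[4,20,21,21],[4,21,22],[4,21,24,25],[4,21,26],[4,22,25],[4,23],[4,24,25,25],[4,25,26],[4,27],[7,20,21],[7,20,25],[7,22],[7,24,25],[7,26],[13,21],[13,25],[16]],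 [[1,1,20,21,21],[1,1,21,21,24],[1,1,23],[1,1,24,25,25],[1,1,27],[3,3,20],[3,3,24],[8]], [[1,1,14],[2,3,3],[5]], [[1,1,14,20],[1,1,14,24],[1,1,18],[2,3,3,20],[2,3,3,24],[5,20],[5,24],[6]], [[1,1,9,20,21,21],[1,1,9,21,22],[1,1,9,21,24,25],[1,1,9,21,26],[1,1,9,22,25],[1,1,9,23],[1,1,9,24,25,25],[1,1,9,25,26],[1,1,9,27],[1,1,14,20,21],[1,1,14,20,25],[1,1,14,22],[1,1,14,24,25],[1,1,14,26],[1,1,18,21],[1,1,18,25],[1,3,9,20,21],[1,3,9,20,25],[1,3,9,22],[1,3,9,24,25],[1,3,9,26],[1,3,18],[1,4,20,21,21],[1,4,21,22],[1,4,21,24,25],[1,4,21,26],[1,4,22,25],[1,4,23],[1,4,24,25,25],[1,4,25,26],[1,4,27],[1,9,15,21],[1,9,15,25],[1,14,15],[2,3,3,20,21],[2,3,3,20,25],[2,3,3,22],[2,3,3,24,25],[2,3,3,26],[3,4,20,21],[3,4,20,25],[3,4,22],[3,4,24,25],[3,4,26],[3,9,15],[4,15,21],[4,15,25],[5,20,21],[5,20,25],[5,22],[5,24,25],[5,26],[6,21],[6,25],[7,15],[8,9],[10]],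 [[1,1,14,20,25,25],[1,1,14,23],[1,1,14,27],[1,1,18,21,21],[1,1,18,25,25],[2,3,3,20,25,25],[2,3,3,23],[2,3,3,27],[3,3,18],[5,20,25,25],[5,23],[5,27],[6,21,21],[6,25,25],[8,14],[12]], [[1,1,14,20,20,21,21],[1,1,14,20,23],[1,1,14,20,24,25,25],[1,1,14,20,27],[1,1,14,22,22],[1,1,14,23,24],[1,1,14,24,24,25,25],[1,1,14,24,27],[1,1,14,26,26],[1,1,18,20,21,21],[1,1,18,21,21,24],[1,1,18,23],[1,1,18,24,25,25],[1,1,18,27],[2,3,3,20,20,21,21],[2,3,3,20,23],[2,3,3,20,24,25,25],[2,3,3,20,27],[2,3,3,22,22],[2,3,3,23,24],[2,3,3,24,24,25,25],[2,3,3,24,27],[2,3,3,26,26],[3,3,18,20],[3,3,18,24],[5,20,20,21,21],[5,20,23],[5,20,24,25,25],[5,20,27],[5,22,22],[5,23,24],[5,24,24,25,25],[5,24,27],[5,26,26],[6,20,21,21],[6,21,21,24],[6,23],[6,24,25,25],[6,27],[8,14,20],[8,14,24],[8,18],[12,20],[12,24],[14,15,15],[17]], [[1,1,9,9,20,21,21],[1,1,9,9,21,21,24],[1,1,9,9,23],[1,1,9,9,24,25,25],[1,1,9,9,27],[1,1,14,14,20],[1,1,14,14,24],[1,1,14,18],[2,3,3,18],[3,3,9,9,20],[3,3,9,9,24],[4,4,20,21,21],[4,4,21,21,24],[4,4,23],[4,4,24,25,25],[4,4,27],[5,18],[6,14],[7,7,20],[7,7,24],[11]]]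

theorem nfT8 : digF4.tbl.collectNF 100000 (wPc ++ lS 27 25 28 30 24) = some LT8 := by decide +kernel

end Coll

section

/-- The identity of the prime field. -/
def phiZ : ZMod 2 ≃+* ZMod 2 := RingEquiv.refl _

lemma hperfZ : ∀ x : ZMod 2, ∃ y : ZMod 2, y ^ 2 = x := by decide

lemma hphiZ : ∀ x : ZMod 2, phiZ (phiZ (x ^ 2)) = x := by
  intro x
  show x ^ 2 = x
  revert x
  decide

/-- The chain coordinates with the given sum. -/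
def psiR (x : GL chevF4.Idx (ZMod 2)) (e : ZMod 2) : Prop :=
  ∃ a1 a2 b2 a3 a4 b4 a5 a6 b6 a7 a8 b8 : ZMod 2,
    x = good3F4.toGood2.gW (wval (vPF phiZ a1 a2 b2 a3 a4 b4 a5 a6 b6 a7 a8 b8 []) wPc) ∧ a2 + a4 + a6 + a8 = e

lemma psiR_unique {x : GL chevF4.Idx (ZMod 2)} {e e' : ZMod 2} (h : psiR x e) (h' : psiR x e') : e = e' := by
  obtain ⟨a1, a2, b2, a3, a4, b4, a5, a6, b6, a7, a8, b8, rfl, rfl⟩ := h
  obtain ⟨q1, q2, r2, q3, q4, r4, q5, q6, r6, q7, q8, r8, e1, rfl⟩ := h'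
  have c1 : a8 * 1 + 0 = q8 * 1 + 0 := good3F4.toGood2.coords _ _ nfTP nfTP e1 1 (by decide)
  have c2 : a2 * 1 + 0 = q2 * 1 + 0 := good3F4.toGood2.coords _ _ nfTP nfTP e1 2 (by decide)
  have c5 : a4 * 1 + 0 = q4 * 1 + 0 := good3F4.toGood2.coords _ _ nfTP nfTP e1 5 (by decide)
  have c7 : a6 * 1 + 0 = q6 * 1 + 0 := good3F4.toGood2.coords _ _ nfTP nfTP e1 7 (by decide)
  simp only [mul_one, add_zero] at c1 c2 c5 c7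
  rw [c1, c2, c5, c7]

lemma psiR_exists {x : GL chevF4.Idx (ZMod 2)} (hx : x ∈ UF4 hperfZ phiZ) : ∃ e, psiR x e := by
  obtain ⟨a1, a2, b2, a3, a4, b4, a5, a6, b6, a7, a8, b8, e⟩ := chainP_full hperfZ phiZ hphiZ hx
  exact ⟨_, a1, a2, b2, a3, a4, b4, a5, a6, b6, a7, a8, b8, e, rfl⟩

lemma psiR_one : psiR 1 0 := by
  refine ⟨0, 0, 0, 0, 0, 0, 0, 0, 0, 0, 0, 0, ?_, by decide⟩
  rw [chain_expandF]
  simp only [pLet_zero, sLet_zero_zero, one_mul, mul_one]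

/-- Multiplying by the letter of the chain. -/
theorem psiT_1 {x : GL chevF4.Idx (ZMod 2)} {e : ZMod 2} (hx : x ∈ UF4 hperfZ phiZ) (h : psiR x e) (c : ZMod 2) :
    x * pLet phiZ 33 24 c ∈ UF4 hperfZ phiZ ∧ psiR (x * pLet phiZ 33 24 c) (e) := by
  obtain ⟨a1, a2, b2, a3, a4, b4, a5, a6, b6, a7, a8, b8, rfl, rfl⟩ := h
  have hU : good3F4.toGood2.gW (wval (vPF phiZ a1 a2 b2 a3 a4 b4 a5 a6 b6 a7 a8 b8 []) wPc) * pLet phiZ 33 24 c ∈ UF4 hperfZ phiZ :=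
    Subgroup.mul_mem _ hx (pLet_mem hphiZ (isP1 hphiZ) c)
  refine ⟨hU, ?_⟩
  obtain ⟨q1, q2, r2, q3, q4, r4, q5, q6, r6, q7, q8, r8, e'⟩ := chainP_full hperfZ phiZ hphiZ hU
  refine ⟨q1, q2, r2, q3, q4, r4, q5, q6, r6, q7, q8, r8, e', ?_⟩
  have hmain : good3F4.toGood2.gW (wval (vPF phiZ a1 a2 b2 a3 a4 b4 a5 a6 b6 a7 a8 b8 [c, phiZ c]) (wPc ++ lP 33 24 24)) =
      good3F4.toGood2.gW (wval (vPF phiZ q1 q2 r2 q3 q4 r4 q5 q6 r6 q7 q8 r8 [c, phiZ c]) wPc) := by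
    rw [gW_wval_append, gW_lP phiZ _ 33 24 (a := c) rfl rfl, gW_vPF_X phiZ _ _ _ _ _ _ _ _ _ _ _ _ [c, phiZ c] [],
      gW_vPF_X phiZ _ _ _ _ _ _ _ _ _ _ _ _ [c, phiZ c] [], ← e']
    rfl
  have c1 : a8 * 1 + 0 = q8 * 1 + 0 := good3F4.toGood2.coords _ _ nfT1 nfTP hmain 1 (by decide)
  have c2 : a2 * 1 + (a8 * (c * 1) + 0) = q2 * 1 + 0 := good3F4.toGood2.coords _ _ nfT1 nfTP hmain 2 (by decide)
  have c5 : a4 * 1 + (b8 * (c * 1) + 0) = q4 * 1 + 0 := good3F4.toGood2.coords _ _ nfT1 nfTP hmain 5 (by decide)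
  have c7 : a6 * 1 + (a8 * (a8 * (a8 * (c * 1))) + ((b8 ^ 2) * (c * 1) + 0)) = q6 * 1 + 0 := good3F4.toGood2.coords _ _ nfT1 nfTP hmain 7 (by decide)
  have key : ∀ a2 a4 a6 a8 b8 c q2 q4 q6 q8 : ZMod 2, a8 * 1 + 0 = q8 * 1 + 0 → a2 * 1 + (a8 * (c * 1) + 0) = q2 * 1 + 0 → a4 * 1 + (b8 * (c * 1) + 0) = q4 * 1 + 0 → a6 * 1 + (a8 * (a8 * (a8 * (c * 1))) + ((b8 ^ 2) * (c * 1) + 0)) = q6 * 1 + 0 → q2 + q4 + q6 + q8 = a2 + a4 + a6 + a8 := by decide +kernel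
  exact key _ _ _ _ _ _ _ _ _ _ c1 c2 c5 c7

/-- Multiplying by the letter of the chain. -/
theorem psiT_2 {x : GL chevF4.Idx (ZMod 2)} {e : ZMod 2} (hx : x ∈ UF4 hperfZ phiZ) (h : psiR x e) (c d : ZMod 2) :
    x * sLet phiZ 34 26 36 42 c d ∈ UF4 hperfZ phiZ ∧ psiR (x * sLet phiZ 34 26 36 42 c d) (e + c) := by
  obtain ⟨a1, a2, b2, a3, a4, b4, a5, a6, b6, a7, a8, b8, rfl, rfl⟩ := h
  have hU : good3F4.toGood2.gW (wval (vPF phiZ a1 a2 b2 a3 a4 b4 a5 a6 b6 a7 a8 b8 []) wPc) * sLet phiZ 34 26 36 42 c d ∈ UF4 hperfZ phiZ :=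
    Subgroup.mul_mem _ hx (sLet_mem hphiZ (isS2 hphiZ) c d)
  refine ⟨hU, ?_⟩
  obtain ⟨q1, q2, r2, q3, q4, r4, q5, q6, r6, q7, q8, r8, e'⟩ := chainP_full hperfZ phiZ hphiZ hU
  refine ⟨q1, q2, r2, q3, q4, r4, q5, q6, r6, q7, q8, r8, e', ?_⟩
  have hmain : good3F4.toGood2.gW (wval (vPF phiZ a1 a2 b2 a3 a4 b4 a5 a6 b6 a7 a8 b8 [c, phiZ c, d, phiZ (d ^ 2)]) (wPc ++ lS 34 26 36 42 24)) =
      good3F4.toGood2.gW (wval (vPF phiZ q1 q2 r2 q3 q4 r4 q5 q6 r6 q7 q8 r8 [c, phiZ c, d, phiZ (d ^ 2)]) wPc) := by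
    rw [gW_wval_append, gW_lS phiZ _ 34 26 36 42 (a := c) (b := d) rfl rfl rfl rfl, gW_vPF_X phiZ _ _ _ _ _ _ _ _ _ _ _ _ [c, phiZ c, d, phiZ (d ^ 2)] [],
      gW_vPF_X phiZ _ _ _ _ _ _ _ _ _ _ _ _ [c, phiZ c, d, phiZ (d ^ 2)] [], ← e']
    rfl
  have c1 : a8 * 1 + 0 = q8 * 1 + 0 := good3F4.toGood2.coords _ _ nfT2 nfTP hmain 1 (by decide)
  have c2 : a2 * 1 + (c * 1 + 0) = q2 * 1 + 0 := good3F4.toGood2.coords _ _ nfT2 nfTP hmain 2 (by decide)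
  have c5 : a4 * 1 + (a8 * (c * 1) + 0) = q4 * 1 + 0 := good3F4.toGood2.coords _ _ nfT2 nfTP hmain 5 (by decide)
  have c7 : a6 * 1 + (a8 * (a8 * (c * 1)) + 0) = q6 * 1 + 0 := good3F4.toGood2.coords _ _ nfT2 nfTP hmain 7 (by decide)
  have key : ∀ a2 a4 a6 a8 c q2 q4 q6 q8 : ZMod 2, a8 * 1 + 0 = q8 * 1 + 0 → a2 * 1 + (c * 1 + 0) = q2 * 1 + 0 → a4 * 1 + (a8 * (c * 1) + 0) = q4 * 1 + 0 → a6 * 1 + (a8 * (a8 * (c * 1)) + 0) = q6 * 1 + 0 → q2 + q4 + q6 + q8 = a2 + a4 + a6 + a8 + c := by decide +kernel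
  exact key _ _ _ _ _ _ _ _ _ c1 c2 c5 c7

/-- Multiplying by the letter of the chain. -/
theorem psiT_3 {x : GL chevF4.Idx (ZMod 2)} {e : ZMod 2} (hx : x ∈ UF4 hperfZ phiZ) (h : psiR x e) (c : ZMod 2) :
    x * pLet phiZ 38 43 c ∈ UF4 hperfZ phiZ ∧ psiR (x * pLet phiZ 38 43 c) (e) := by
  obtain ⟨a1, a2, b2, a3, a4, b4, a5, a6, b6, a7, a8, b8, rfl, rfl⟩ := h
  have hU : good3F4.toGood2.gW (wval (vPF phiZ a1 a2 b2 a3 a4 b4 a5 a6 b6 a7 a8 b8 []) wPc) * pLet phiZ 38 43 c ∈ UF4 hperfZ phiZ :=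
    Subgroup.mul_mem _ hx (pLet_mem hphiZ (isP3 hphiZ) c)
  refine ⟨hU, ?_⟩
  obtain ⟨q1, q2, r2, q3, q4, r4, q5, q6, r6, q7, q8, r8, e'⟩ := chainP_full hperfZ phiZ hphiZ hU
  refine ⟨q1, q2, r2, q3, q4, r4, q5, q6, r6, q7, q8, r8, e', ?_⟩
  have hmain : good3F4.toGood2.gW (wval (vPF phiZ a1 a2 b2 a3 a4 b4 a5 a6 b6 a7 a8 b8 [c, phiZ c]) (wPc ++ lP 38 43 24)) =
      good3F4.toGood2.gW (wval (vPF phiZ q1 q2 r2 q3 q4 r4 q5 q6 r6 q7 q8 r8 [c, phiZ c]) wPc) := by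
    rw [gW_wval_append, gW_lP phiZ _ 38 43 (a := c) rfl rfl, gW_vPF_X phiZ _ _ _ _ _ _ _ _ _ _ _ _ [c, phiZ c] [],
      gW_vPF_X phiZ _ _ _ _ _ _ _ _ _ _ _ _ [c, phiZ c] [], ← e']
    rfl
  have c1 : a8 * 1 + 0 = q8 * 1 + 0 := good3F4.toGood2.coords _ _ nfT3 nfTP hmain 1 (by decide)
  have c2 : a2 * 1 + 0 = q2 * 1 + 0 := good3F4.toGood2.coords _ _ nfT3 nfTP hmain 2 (by decide)
  have c5 : a4 * 1 + 0 = q4 * 1 + 0 := good3F4.toGood2.coords _ _ nfT3 nfTP hmain 5 (by decide)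
  have c7 : a6 * 1 + 0 = q6 * 1 + 0 := good3F4.toGood2.coords _ _ nfT3 nfTP hmain 7 (by decide)
  have key : ∀ a2 a4 a6 a8 q2 q4 q6 q8 : ZMod 2, a8 * 1 + 0 = q8 * 1 + 0 → a2 * 1 + 0 = q2 * 1 + 0 → a4 * 1 + 0 = q4 * 1 + 0 → a6 * 1 + 0 = q6 * 1 + 0 → q2 + q4 + q6 + q8 = a2 + a4 + a6 + a8 := by decide +kernel
  exact key _ _ _ _ _ _ _ _ c1 c2 c5 c7

/-- Multiplying by the letter of the chain. -/
theorem psiT_4 {x : GL chevF4.Idx (ZMod 2)} {e : ZMod 2} (hx : x ∈ UF4 hperfZ phiZ) (h : psiR x e) (c d : ZMod 2) :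
    x * sLet phiZ 29 41 44 47 c d ∈ UF4 hperfZ phiZ ∧ psiR (x * sLet phiZ 29 41 44 47 c d) (e + c) := by
  obtain ⟨a1, a2, b2, a3, a4, b4, a5, a6, b6, a7, a8, b8, rfl, rfl⟩ := h
  have hU : good3F4.toGood2.gW (wval (vPF phiZ a1 a2 b2 a3 a4 b4 a5 a6 b6 a7 a8 b8 []) wPc) * sLet phiZ 29 41 44 47 c d ∈ UF4 hperfZ phiZ :=
    Subgroup.mul_mem _ hx (sLet_mem hphiZ (isS4 hphiZ) c d)
  refine ⟨hU, ?_⟩
  obtain ⟨q1, q2, r2, q3, q4, r4, q5, q6, r6, q7, q8, r8, e'⟩ := chainP_full hperfZ phiZ hphiZ hU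
  refine ⟨q1, q2, r2, q3, q4, r4, q5, q6, r6, q7, q8, r8, e', ?_⟩
  have hmain : good3F4.toGood2.gW (wval (vPF phiZ a1 a2 b2 a3 a4 b4 a5 a6 b6 a7 a8 b8 [c, phiZ c, d, phiZ (d ^ 2)]) (wPc ++ lS 29 41 44 47 24)) =
      good3F4.toGood2.gW (wval (vPF phiZ q1 q2 r2 q3 q4 r4 q5 q6 r6 q7 q8 r8 [c, phiZ c, d, phiZ (d ^ 2)]) wPc) := by
    rw [gW_wval_append, gW_lS phiZ _ 29 41 44 47 (a := c) (b := d) rfl rfl rfl rfl, gW_vPF_X phiZ _ _ _ _ _ _ _ _ _ _ _ _ [c, phiZ c, d, phiZ (d ^ 2)] [],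
      gW_vPF_X phiZ _ _ _ _ _ _ _ _ _ _ _ _ [c, phiZ c, d, phiZ (d ^ 2)] [], ← e']
    rfl
  have c1 : a8 * 1 + 0 = q8 * 1 + 0 := good3F4.toGood2.coords _ _ nfT4 nfTP hmain 1 (by decide)
  have c2 : a2 * 1 + 0 = q2 * 1 + 0 := good3F4.toGood2.coords _ _ nfT4 nfTP hmain 2 (by decide)
  have c5 : a4 * 1 + (c * 1 + 0) = q4 * 1 + 0 := good3F4.toGood2.coords _ _ nfT4 nfTP hmain 5 (by decide)
  have c7 : a6 * 1 + 0 = q6 * 1 + 0 := good3F4.toGood2.coords _ _ nfT4 nfTP hmain 7 (by decide)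
  have key : ∀ a2 a4 a6 a8 c q2 q4 q6 q8 : ZMod 2, a8 * 1 + 0 = q8 * 1 + 0 → a2 * 1 + 0 = q2 * 1 + 0 → a4 * 1 + (c * 1 + 0) = q4 * 1 + 0 → a6 * 1 + 0 = q6 * 1 + 0 → q2 + q4 + q6 + q8 = a2 + a4 + a6 + a8 + c := by decide +kernel
  exact key _ _ _ _ _ _ _ _ _ c1 c2 c5 c7

/-- Multiplying by the letter of the chain. -/
theorem psiT_5 {x : GL chevF4.Idx (ZMod 2)} {e : ZMod 2} (hx : x ∈ UF4 hperfZ phiZ) (h : psiR x e) (c : ZMod 2) :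
    x * pLet phiZ 39 45 c ∈ UF4 hperfZ phiZ ∧ psiR (x * pLet phiZ 39 45 c) (e) := by
  obtain ⟨a1, a2, b2, a3, a4, b4, a5, a6, b6, a7, a8, b8, rfl, rfl⟩ := h
  have hU : good3F4.toGood2.gW (wval (vPF phiZ a1 a2 b2 a3 a4 b4 a5 a6 b6 a7 a8 b8 []) wPc) * pLet phiZ 39 45 c ∈ UF4 hperfZ phiZ :=
    Subgroup.mul_mem _ hx (pLet_mem hphiZ (isP5 hphiZ) c)
  refine ⟨hU, ?_⟩
  obtain ⟨q1, q2, r2, q3, q4, r4, q5, q6, r6, q7, q8, r8, e'⟩ := chainP_full hperfZ phiZ hphiZ hU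
  refine ⟨q1, q2, r2, q3, q4, r4, q5, q6, r6, q7, q8, r8, e', ?_⟩
  have hmain : good3F4.toGood2.gW (wval (vPF phiZ a1 a2 b2 a3 a4 b4 a5 a6 b6 a7 a8 b8 [c, phiZ c]) (wPc ++ lP 39 45 24)) =
      good3F4.toGood2.gW (wval (vPF phiZ q1 q2 r2 q3 q4 r4 q5 q6 r6 q7 q8 r8 [c, phiZ c]) wPc) := by
    rw [gW_wval_append, gW_lP phiZ _ 39 45 (a := c) rfl rfl, gW_vPF_X phiZ _ _ _ _ _ _ _ _ _ _ _ _ [c, phiZ c] [],
      gW_vPF_X phiZ _ _ _ _ _ _ _ _ _ _ _ _ [c, phiZ c] [], ← e']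
    rfl
  have c1 : a8 * 1 + 0 = q8 * 1 + 0 := good3F4.toGood2.coords _ _ nfT5 nfTP hmain 1 (by decide)
  have c2 : a2 * 1 + 0 = q2 * 1 + 0 := good3F4.toGood2.coords _ _ nfT5 nfTP hmain 2 (by decide)
  have c5 : a4 * 1 + 0 = q4 * 1 + 0 := good3F4.toGood2.coords _ _ nfT5 nfTP hmain 5 (by decide)
  have c7 : a6 * 1 + 0 = q6 * 1 + 0 := good3F4.toGood2.coords _ _ nfT5 nfTP hmain 7 (by decide)
  have key : ∀ a2 a4 a6 a8 q2 q4 q6 q8 : ZMod 2, a8 * 1 + 0 = q8 * 1 + 0 → a2 * 1 + 0 = q2 * 1 + 0 → a4 * 1 + 0 = q4 * 1 + 0 → a6 * 1 + 0 = q6 * 1 + 0 → q2 + q4 + q6 + q8 = a2 + a4 + a6 + a8 := by decide +kernel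
  exact key _ _ _ _ _ _ _ _ c1 c2 c5 c7

/-- Multiplying by the letter of the chain. -/
theorem psiT_6 {x : GL chevF4.Idx (ZMod 2)} {e : ZMod 2} (hx : x ∈ UF4 hperfZ phiZ) (h : psiR x e) (c d : ZMod 2) :
    x * sLet phiZ 35 31 40 46 c d ∈ UF4 hperfZ phiZ ∧ psiR (x * sLet phiZ 35 31 40 46 c d) (e + c) := by
  obtain ⟨a1, a2, b2, a3, a4, b4, a5, a6, b6, a7, a8, b8, rfl, rfl⟩ := h
  have hU : good3F4.toGood2.gW (wval (vPF phiZ a1 a2 b2 a3 a4 b4 a5 a6 b6 a7 a8 b8 []) wPc) * sLet phiZ 35 31 40 46 c d ∈ UF4 hperfZ phiZ :=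
    Subgroup.mul_mem _ hx (sLet_mem hphiZ (isS6 hphiZ) c d)
  refine ⟨hU, ?_⟩
  obtain ⟨q1, q2, r2, q3, q4, r4, q5, q6, r6, q7, q8, r8, e'⟩ := chainP_full hperfZ phiZ hphiZ hU
  refine ⟨q1, q2, r2, q3, q4, r4, q5, q6, r6, q7, q8, r8, e', ?_⟩
  have hmain : good3F4.toGood2.gW (wval (vPF phiZ a1 a2 b2 a3 a4 b4 a5 a6 b6 a7 a8 b8 [c, phiZ c, d, phiZ (d ^ 2)]) (wPc ++ lS 35 31 40 46 24)) =
      good3F4.toGood2.gW (wval (vPF phiZ q1 q2 r2 q3 q4 r4 q5 q6 r6 q7 q8 r8 [c, phiZ c, d, phiZ (d ^ 2)]) wPc) := by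
    rw [gW_wval_append, gW_lS phiZ _ 35 31 40 46 (a := c) (b := d) rfl rfl rfl rfl, gW_vPF_X phiZ _ _ _ _ _ _ _ _ _ _ _ _ [c, phiZ c, d, phiZ (d ^ 2)] [],
      gW_vPF_X phiZ _ _ _ _ _ _ _ _ _ _ _ _ [c, phiZ c, d, phiZ (d ^ 2)] [], ← e']
    rfl
  have c1 : a8 * 1 + 0 = q8 * 1 + 0 := good3F4.toGood2.coords _ _ nfT6 nfTP hmain 1 (by decide)
  have c2 : a2 * 1 + 0 = q2 * 1 + 0 := good3F4.toGood2.coords _ _ nfT6 nfTP hmain 2 (by decide)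
  have c5 : a4 * 1 + 0 = q4 * 1 + 0 := good3F4.toGood2.coords _ _ nfT6 nfTP hmain 5 (by decide)
  have c7 : a6 * 1 + (c * 1 + 0) = q6 * 1 + 0 := good3F4.toGood2.coords _ _ nfT6 nfTP hmain 7 (by decide)
  have key : ∀ a2 a4 a6 a8 c q2 q4 q6 q8 : ZMod 2, a8 * 1 + 0 = q8 * 1 + 0 → a2 * 1 + 0 = q2 * 1 + 0 → a4 * 1 + 0 = q4 * 1 + 0 → a6 * 1 + (c * 1 + 0) = q6 * 1 + 0 → q2 + q4 + q6 + q8 = a2 + a4 + a6 + a8 + c := by decide +kernel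
  exact key _ _ _ _ _ _ _ _ _ c1 c2 c5 c7

/-- Multiplying by the letter of the chain. -/
theorem psiT_7 {x : GL chevF4.Idx (ZMod 2)} {e : ZMod 2} (hx : x ∈ UF4 hperfZ phiZ) (h : psiR x e) (c : ZMod 2) :
    x * pLet phiZ 37 32 c ∈ UF4 hperfZ phiZ ∧ psiR (x * pLet phiZ 37 32 c) (e) := by
  obtain ⟨a1, a2, b2, a3, a4, b4, a5, a6, b6, a7, a8, b8, rfl, rfl⟩ := h
  have hU : good3F4.toGood2.gW (wval (vPF phiZ a1 a2 b2 a3 a4 b4 a5 a6 b6 a7 a8 b8 []) wPc) * pLet phiZ 37 32 c ∈ UF4 hperfZ phiZ :=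
    Subgroup.mul_mem _ hx (pLet_mem hphiZ (isP7 hphiZ) c)
  refine ⟨hU, ?_⟩
  obtain ⟨q1, q2, r2, q3, q4, r4, q5, q6, r6, q7, q8, r8, e'⟩ := chainP_full hperfZ phiZ hphiZ hU
  refine ⟨q1, q2, r2, q3, q4, r4, q5, q6, r6, q7, q8, r8, e', ?_⟩
  have hmain : good3F4.toGood2.gW (wval (vPF phiZ a1 a2 b2 a3 a4 b4 a5 a6 b6 a7 a8 b8 [c, phiZ c]) (wPc ++ lP 37 32 24)) =
      good3F4.toGood2.gW (wval (vPF phiZ q1 q2 r2 q3 q4 r4 q5 q6 r6 q7 q8 r8 [c, phiZ c]) wPc) := by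
    rw [gW_wval_append, gW_lP phiZ _ 37 32 (a := c) rfl rfl, gW_vPF_X phiZ _ _ _ _ _ _ _ _ _ _ _ _ [c, phiZ c] [],
      gW_vPF_X phiZ _ _ _ _ _ _ _ _ _ _ _ _ [c, phiZ c] [], ← e']
    rfl
  have c1 : a8 * 1 + 0 = q8 * 1 + 0 := good3F4.toGood2.coords _ _ nfT7 nfTP hmain 1 (by decide)
  have c2 : a2 * 1 + 0 = q2 * 1 + 0 := good3F4.toGood2.coords _ _ nfT7 nfTP hmain 2 (by decide)
  have c5 : a4 * 1 + 0 = q4 * 1 + 0 := good3F4.toGood2.coords _ _ nfT7 nfTP hmain 5 (by decide)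
  have c7 : a6 * 1 + 0 = q6 * 1 + 0 := good3F4.toGood2.coords _ _ nfT7 nfTP hmain 7 (by decide)
  have key : ∀ a2 a4 a6 a8 q2 q4 q6 q8 : ZMod 2, a8 * 1 + 0 = q8 * 1 + 0 → a2 * 1 + 0 = q2 * 1 + 0 → a4 * 1 + 0 = q4 * 1 + 0 → a6 * 1 + 0 = q6 * 1 + 0 → q2 + q4 + q6 + q8 = a2 + a4 + a6 + a8 := by decide +kernel
  exact key _ _ _ _ _ _ _ _ c1 c2 c5 c7

/-- Multiplying by the letter of the chain. -/
theorem psiT_8 {x : GL chevF4.Idx (ZMod 2)} {e : ZMod 2} (hx : x ∈ UF4 hperfZ phiZ) (h : psiR x e) (c d : ZMod 2) :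
    x * sLet phiZ 27 25 28 30 c d ∈ UF4 hperfZ phiZ ∧ psiR (x * sLet phiZ 27 25 28 30 c d) (e + c) := by
  obtain ⟨a1, a2, b2, a3, a4, b4, a5, a6, b6, a7, a8, b8, rfl, rfl⟩ := h
  have hU : good3F4.toGood2.gW (wval (vPF phiZ a1 a2 b2 a3 a4 b4 a5 a6 b6 a7 a8 b8 []) wPc) * sLet phiZ 27 25 28 30 c d ∈ UF4 hperfZ phiZ :=
    Subgroup.mul_mem _ hx (sLet_mem hphiZ (isS8 hphiZ) c d)
  refine ⟨hU, ?_⟩
  obtain ⟨q1, q2, r2, q3, q4, r4, q5, q6, r6, q7, q8, r8, e'⟩ := chainP_full hperfZ phiZ hphiZ hU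
  refine ⟨q1, q2, r2, q3, q4, r4, q5, q6, r6, q7, q8, r8, e', ?_⟩
  have hmain : good3F4.toGood2.gW (wval (vPF phiZ a1 a2 b2 a3 a4 b4 a5 a6 b6 a7 a8 b8 [c, phiZ c, d, phiZ (d ^ 2)]) (wPc ++ lS 27 25 28 30 24)) =
      good3F4.toGood2.gW (wval (vPF phiZ q1 q2 r2 q3 q4 r4 q5 q6 r6 q7 q8 r8 [c, phiZ c, d, phiZ (d ^ 2)]) wPc) := by
    rw [gW_wval_append, gW_lS phiZ _ 27 25 28 30 (a := c) (b := d) rfl rfl rfl rfl, gW_vPF_X phiZ _ _ _ _ _ _ _ _ _ _ _ _ [c, phiZ c, d, phiZ (d ^ 2)] [],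
      gW_vPF_X phiZ _ _ _ _ _ _ _ _ _ _ _ _ [c, phiZ c, d, phiZ (d ^ 2)] [], ← e']
    rfl
  have c1 : a8 * 1 + (c * 1 + 0) = q8 * 1 + 0 := good3F4.toGood2.coords _ _ nfT8 nfTP hmain 1 (by decide)
  have c2 : a2 * 1 + 0 = q2 * 1 + 0 := good3F4.toGood2.coords _ _ nfT8 nfTP hmain 2 (by decide)
  have c5 : a4 * 1 + 0 = q4 * 1 + 0 := good3F4.toGood2.coords _ _ nfT8 nfTP hmain 5 (by decide)
  have c7 : a6 * 1 + 0 = q6 * 1 + 0 := good3F4.toGood2.coords _ _ nfT8 nfTP hmain 7 (by decide)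
  have key : ∀ a2 a4 a6 a8 c q2 q4 q6 q8 : ZMod 2, a8 * 1 + (c * 1 + 0) = q8 * 1 + 0 → a2 * 1 + 0 = q2 * 1 + 0 → a4 * 1 + 0 = q4 * 1 + 0 → a6 * 1 + 0 = q6 * 1 + 0 → q2 + q4 + q6 + q8 = a2 + a4 + a6 + a8 + c := by decide +kernel
  exact key _ _ _ _ _ _ _ _ _ c1 c2 c5 c7

theorem psiR_mul {x y : GL chevF4.Idx (ZMod 2)} {e f : ZMod 2} (hx : x ∈ UF4 hperfZ phiZ) (h1 : psiR x e) (h2 : psiR y f) :
    psiR (x * y) (e + f) := by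
  obtain ⟨a1, a2, b2, a3, a4, b4, a5, a6, b6, a7, a8, b8, rfl, rfl⟩ := h2
  rw [chain_expandF]
  obtain ⟨u1, r1⟩ := psiT_1 hx h1 a1
  obtain ⟨u2, r2⟩ := psiT_2 u1 r1 a2 b2
  obtain ⟨u3, r3⟩ := psiT_3 u2 r2 a3
  obtain ⟨u4, r4⟩ := psiT_4 u3 r3 a4 b4
  obtain ⟨u5, r5⟩ := psiT_5 u4 r4 a5
  obtain ⟨u6, r6⟩ := psiT_6 u5 r5 a6 b6
  obtain ⟨u7, r7⟩ := psiT_7 u6 r6 a7
  obtain ⟨_, r8⟩ := psiT_8 u7 r7 a8 b8
  have e9 : e + (a2 + a4 + a6 + a8) = e + a2 + a4 + a6 + a8 := by ring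
  rw [e9]
  simpa only [mul_assoc] using r8

theorem psiR_inv {x : GL chevF4.Idx (ZMod 2)} {e : ZMod 2} (hx : x ∈ UF4 hperfZ phiZ) (h : psiR x e) : psiR x⁻¹ e := by
  obtain ⟨e', h'⟩ := psiR_exists (Subgroup.inv_mem _ hx)
  have h1 := psiR_mul hx h h'
  rw [mul_inv_cancel] at h1
  have h2 : e + e' = 0 := psiR_unique h1 psiR_one
  have h3 : ∀ a b : ZMod 2, a + b = 0 → b = a := by decide
  rw [← h3 e e' h2]
  exact h'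

theorem psiR_conj {b y : GL chevF4.Idx (ZMod 2)} {e : ZMod 2} (hb : b ∈ UF4 hperfZ phiZ) (hy : y ∈ UF4 hperfZ phiZ) (h : psiR y e) :
    psiR (b * y * b⁻¹) e := by
  obtain ⟨f, hf⟩ := psiR_exists hb
  have h1 := psiR_mul hb hf h
  have h2 := psiR_mul (Subgroup.mul_mem _ hb hy) h1 (psiR_inv hb hf)
  have h3 : ∀ a b : ZMod 2, a + b + a = b := by decide
  rwa [h3] at h2

/-- The chain starting with the long orbit as a product of letters. -/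
theorem chain_expandS {K : Type*} [Field K] [CharP K 2] (φ : K ≃+* K) (a1 b1 a2 a3 b3 a4 a5 b5 a6 a7 b7 a8 : K) (X : List K) :
    good3F4.toGood2.gW (wval (vSF φ a1 b1 a2 a3 b3 a4 a5 b5 a6 a7 b7 a8 X) wSc) =
      sLet φ 27 25 28 30 a1 b1 * (pLet φ 37 32 a2 * (sLet φ 35 31 40 46 a3 b3 * (pLet φ 39 45 a4 * (sLet φ 29 41 44 47 a5 b5 *
        (pLet φ 38 43 a6 * (sLet φ 34 26 36 42 a7 b7 * pLet φ 33 24 a8)))))) := by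
  simp only [wSc, gW_wval_append]
  rw [gW_lS φ (vSF φ a1 b1 a2 a3 b3 a4 a5 b5 a6 a7 b7 a8 X) (i := 0) 27 25 28 30 (a := a1) (b := b1) rfl rfl rfl rfl,
    gW_lP φ (vSF φ a1 b1 a2 a3 b3 a4 a5 b5 a6 a7 b7 a8 X) (i := 4) 37 32 (a := a2) rfl rfl,
    gW_lS φ (vSF φ a1 b1 a2 a3 b3 a4 a5 b5 a6 a7 b7 a8 X) (i := 6) 35 31 40 46 (a := a3) (b := b3) rfl rfl rfl rfl,
    gW_lP φ (vSF φ a1 b1 a2 a3 b3 a4 a5 b5 a6 a7 b7 a8 X) (i := 10) 39 45 (a := a4) rfl rfl,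
    gW_lS φ (vSF φ a1 b1 a2 a3 b3 a4 a5 b5 a6 a7 b7 a8 X) (i := 12) 29 41 44 47 (a := a5) (b := b5) rfl rfl rfl rfl,
    gW_lP φ (vSF φ a1 b1 a2 a3 b3 a4 a5 b5 a6 a7 b7 a8 X) (i := 16) 38 43 (a := a6) rfl rfl,
    gW_lS φ (vSF φ a1 b1 a2 a3 b3 a4 a5 b5 a6 a7 b7 a8 X) (i := 18) 34 26 36 42 (a := a7) (b := b7) rfl rfl rfl rfl,
    gW_lP φ (vSF φ a1 b1 a2 a3 b3 a4 a5 b5 a6 a7 b7 a8 X) (i := 22) 33 24 (a := a8) rfl rfl]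
  simp only [mul_assoc, pLet, sLet]

theorem psiR_S (a1 b1 a2 a3 b3 a4 a5 b5 a6 a7 b7 a8 : ZMod 2) :
    psiR (good3F4.toGood2.gW (wval (vSF phiZ a1 b1 a2 a3 b3 a4 a5 b5 a6 a7 b7 a8 []) wSc)) (a1 + a3 + a5 + a7) := by
  rw [chain_expandS]
  obtain ⟨u1, r1⟩ := psiT_8 (Subgroup.one_mem _) psiR_one a1 b1
  obtain ⟨u2, r2⟩ := psiT_7 u1 r1 a2
  obtain ⟨u3, r3⟩ := psiT_6 u2 r2 a3 b3
  obtain ⟨u4, r4⟩ := psiT_5 u3 r3 a4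
  obtain ⟨u5, r5⟩ := psiT_4 u4 r4 a5 b5
  obtain ⟨u6, r6⟩ := psiT_3 u5 r5 a6
  obtain ⟨u7, r7⟩ := psiT_2 u6 r6 a7 b7
  obtain ⟨_, r8⟩ := psiT_1 u7 r7 a8
  have e9 : a1 + a3 + a5 + a7 = 0 + a1 + a3 + a5 + a7 := by ring
  rw [e9]
  simpa only [one_mul, mul_assoc] using r8

end

end Cfsg.Agent.Lib.Chev
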