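/-
The group ²F₄(2): the homomorphism from the fixed points of `U` is invariant under fusion.
-/
import Cfsg.Agent.Lib.Coll.TitsA

set_option autoImplicit false
set_option maxRecDepth 100000

namespace Cfsg.Agent.Lib.Chev

open Cfsg.Lie Coll

section

/-- The alternating list starting with the short orbit. -/
def fullP : List ℕ := [0, 1, 0, 1, 0, 1, 0, 1]

/-- The alternating list starting with the long orbit. -/
def fullS : List ℕ := [1, 0, 1, 0, 1, 0, 1, 0]

/-- The word of a prefix. -/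
def preOf (L : List ℕ) (k : ℕ) : List ℕ := ((L.take k).map wJF4).flatten

/-- The prefixes. -/
def pairsT : List (List ℕ × ℕ) := ((List.range 9).map fun k => (fullP, k)) ++ ((List.range 9).map fun k => (fullS, k))

theorem pairsT_check : ∀ e ∈ pairsT, (e.1 = fullP ∨ e.1 = fullS) ∧ (∀ i ∈ preOf e.1 e.2, i < chevF4.rank) ∧
    (∀ l ∈ (e.1.take e.2).map wJF4, l = [0, 3] ∨ l = [1, 2, 1, 2]) ∧ (∃ L' ∈ [fullP, fullS], L' = e.1.drop e.2 ++ L'.drop (8 - e.2)) := by
  decide +kernel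

theorem pairsT_step : ∀ e ∈ pairsT, ∀ j, j < 2 → ∃ e' ∈ pairsT, ∀ r, r < 48 →
    wperm digF4.tbl (wJF4 j ++ preOf e.1 e.2) r = wperm digF4.tbl (preOf e'.1 e'.2) r := by
  decide +kernel

theorem wJF4_lt2 : ∀ j, j < 2 → ∀ i ∈ wJF4 j, i < chevF4.rank := by decide +kernel

/-- The value of a chain. -/
def psiSum : List ℕ → List (ZMod 2 × ZMod 2) → ZMod 2
  | [], _ => 0
  | _ :: _, [] => 0
  | j :: L, e :: ps => (if j = 0 then 0 else e.1) + psiSum L ps

lemma psiSum_zeros (A post : List ℕ) (ps : List (ZMod 2 × ZMod 2)) :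
    psiSum (A ++ post) ((A.map fun _ => ((0 : ZMod 2), (0 : ZMod 2))) ++ ps) = psiSum post ps := by
  induction A with
  | nil => rfl
  | cons j A ih =>
    show (if j = 0 then 0 else (0 : ZMod 2)) + psiSum (A ++ post) ((A.map fun _ => ((0 : ZMod 2), (0 : ZMod 2))) ++ ps) = _
    rw [ih]
    split_ifs <;> simp

lemma psiSum_allzero (A : List ℕ) : psiSum A (A.map fun _ => ((0 : ZMod 2), (0 : ZMod 2))) = 0 := by
  have h := psiSum_zeros A [] []
  simpa [psiSum] using h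

lemma psiSum_trail (post rest : List ℕ) (ps : List (ZMod 2 × ZMod 2)) (h : ps.length = post.length) :
    psiSum (post ++ rest) (ps ++ rest.map fun _ => ((0 : ZMod 2), (0 : ZMod 2))) = psiSum post ps := by
  induction post generalizing ps with
  | nil =>
    have : ps = [] := List.length_eq_zero_iff.1 h
    subst this
    simpa [psiSum] using psiSum_allzero rest
  | cons j post ih =>
    match ps, h with
    | e :: ps, h =>
      show (if j = 0 then 0 else e.1) + psiSum (post ++ rest) (ps ++ rest.map fun _ => ((0 : ZMod 2), (0 : ZMod 2))) = (if j = 0 then 0 else e.1) + psiSum post ps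
      rw [ih ps (by simpa using h)]

lemma lett_zeroT (j : ℕ) (pre : List ℕ) : lettF4 phiZ j pre (0 : ZMod 2) 0 = 1 := by
  unfold lettF4
  split_ifs
  · rw [parU_zero phiZ, mul_one, mul_inv_cancel]
  · rw [suzU_zero phiZ, mul_one, mul_inv_cancel]

lemma prodF4_zerosT (A post pre0 : List ℕ) (ps : List (ZMod 2 × ZMod 2)) :
    prodF4 phiZ (A ++ post) pre0 ((A.map fun _ => ((0 : ZMod 2), (0 : ZMod 2))) ++ ps) = prodF4 phiZ post (pre0 ++ (A.map wJF4).flatten) ps := by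
  induction A generalizing pre0 with
  | nil => simp
  | cons j A ih =>
    show lettF4 phiZ j pre0 (0 : ZMod 2) 0 * prodF4 phiZ (A ++ post) (pre0 ++ wJF4 j) ((A.map fun _ => ((0 : ZMod 2), (0 : ZMod 2))) ++ ps) = _
    rw [lett_zeroT, one_mul, ih, List.map_cons, List.flatten_cons, List.append_assoc]

lemma prodF4_allzeroT (A pre0 : List ℕ) : prodF4 phiZ A pre0 (A.map fun _ => ((0 : ZMod 2), (0 : ZMod 2))) = 1 := by
  induction A generalizing pre0 with
  | nil => rfl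
  | cons j A ih =>
    show lettF4 phiZ j pre0 (0 : ZMod 2) 0 * prodF4 phiZ A (pre0 ++ wJF4 j) (A.map fun _ => ((0 : ZMod 2), (0 : ZMod 2))) = 1
    rw [lett_zeroT, one_mul, ih]

lemma prodF4_trailT (post rest pre0 : List ℕ) (ps : List (ZMod 2 × ZMod 2)) (h : ps.length = post.length) :
    prodF4 phiZ (post ++ rest) pre0 (ps ++ rest.map fun _ => ((0 : ZMod 2), (0 : ZMod 2))) = prodF4 phiZ post pre0 ps := by
  induction post generalizing ps pre0 with
  | nil =>
    have : ps = [] := List.length_eq_zero_iff.1 h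
    subst this
    simpa [prodF4] using prodF4_allzeroT rest pre0
  | cons j post ih =>
    match ps, h with
    | e :: ps, h =>
      show lettF4 phiZ j pre0 e.1 e.2 * prodF4 phiZ (post ++ rest) (pre0 ++ wJF4 j) (ps ++ rest.map fun _ => ((0 : ZMod 2), (0 : ZMod 2))) =
        lettF4 phiZ j pre0 e.1 e.2 * prodF4 phiZ post (pre0 ++ wJF4 j) ps
      rw [ih _ ps (by simpa using h)]

lemma prodF4_conjT (post pre pre2 : List ℕ) (ps : List (ZMod 2 × ZMod 2)) :
    (good3F4.toGood2.nProd pre)⁻¹ * prodF4 phiZ post (pre ++ pre2) ps * good3F4.toGood2.nProd pre = prodF4 phiZ post pre2 ps := by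
  induction post generalizing pre2 ps with
  | nil =>
    show (good3F4.toGood2.nProd pre)⁻¹ * 1 * good3F4.toGood2.nProd pre = 1
    group
  | cons j post ih =>
    match ps with
    | [] =>
      show (good3F4.toGood2.nProd pre)⁻¹ * 1 * good3F4.toGood2.nProd pre = 1
      group
    | e :: ps =>
      show (good3F4.toGood2.nProd pre)⁻¹ * (lettF4 phiZ j (pre ++ pre2) e.1 e.2 * prodF4 phiZ post (pre ++ pre2 ++ wJF4 j) ps) * good3F4.toGood2.nProd pre =
        lettF4 phiZ j pre2 e.1 e.2 * prodF4 phiZ post (pre2 ++ wJF4 j) ps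
      rw [← ih (pre2 ++ wJF4 j) ps, List.append_assoc]
      unfold lettF4
      rw [good3F4.toGood2.nProd_append]
      generalize good3F4.toGood2.nProd (F := ZMod 2) pre = m1
      generalize good3F4.toGood2.nProd (F := ZMod 2) pre2 = m2
      generalize (if j = 0 then parU phiZ e.1 else suzU phiZ e.1 e.2) = X
      generalize prodF4 phiZ post (pre ++ (pre2 ++ wJF4 j)) ps = Y
      group

/-- The value on the full chains. -/
lemma psiR_prodL {L : List ℕ} (hL : L = fullP ∨ L = fullS) (ps : List (ZMod 2 × ZMod 2)) (h : ps.length = 8) :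
    psiR (prodF4 phiZ L [] ps) (psiSum L ps) := by
  match ps, h with
  | [p1, p2, p3, p4, p5, p6, p7, p8], _ =>
    rcases hL with rfl | rfl
    · refine ⟨p1.1, p2.1, p2.2, p3.1, p4.1, p4.2, p5.1, p6.1, p6.2, p7.1, p8.1, p8.2, prodP phiZ p1 p2 p3 p4 p5 p6 p7 p8 [], ?_⟩
      simp [psiSum, fullP, add_assoc]
    · have h1 := psiR_S p1.1 p1.2 p2.1 p3.1 p3.2 p4.1 p5.1 p5.2 p6.1 p7.1 p7.2 p8.1
      rw [← prodS phiZ p1 p2 p3 p4 p5 p6 p7 p8 []] at h1
      have e : psiSum fullS [p1, p2, p3, p4, p5, p6, p7, p8] = p1.1 + p3.1 + p5.1 + p7.1 := by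
        simp [psiSum, fullS, add_assoc]
      rw [e]
      exact h1

lemma chainOK_dropT : ∀ (k : ℕ) (L pre : List ℕ), chainOK digF4.tbl chevF4 orbF4 pre L →
    chainOK digF4.tbl chevF4 orbF4 (pre ++ ((L.take k).map wJF4).flatten) (L.drop k)
  | 0, L, pre, h => by simpa using h
  | k + 1, [], pre, h => by simpa using h
  | k + 1, j :: L, pre, h => by
    have h2 : chainOK digF4.tbl chevF4 orbF4 (pre ++ wJF4 j) L := h.2.2
    have h3 := chainOK_dropT k L _ h2
    rw [List.take_succ_cons, List.map_cons, List.flatten_cons, List.drop_succ_cons, ← List.append_assoc]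
    exact h3

lemma chainOK_fullT {L : List ℕ} (hL : L = fullP ∨ L = fullS) : chainOK digF4.tbl chevF4 orbF4 [] L := by
  rcases hL with rfl | rfl
  · exact chainF4'
  · exact chainF4S

/-- Conjugating the elements of the chain. -/
theorem psi_chainT {e : List ℕ × ℕ} (he : e ∈ pairsT) {x : GL chevF4.Idx (ZMod 2)}
    (hx : x ∈ (twF4 hperfZ phiZ).UF (good3F4.toGood2.nProd (preOf e.1 e.2))) :
    ∃ f, psiR x f ∧ psiR ((good3F4.toGood2.nProd (preOf e.1 e.2))⁻¹ * x * good3F4.toGood2.nProd (preOf e.1 e.2)) f := by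
  obtain ⟨hL, hpre, hl, L', hL', hL'e⟩ := pairsT_check e he
  have hm : (good3F4.toGood2.nProd (preOf e.1 e.2) : GL chevF4.Idx (ZMod 2)) ∈ (twF4 hperfZ phiZ).fix :=
    nProd_n0n1_fix hperfZ phiZ hphiZ _ hl
  have hch : chainOK digF4.tbl chevF4 orbF4 (preOf e.1 e.2) (e.1.drop e.2) := by
    have := chainOK_dropT e.2 e.1 [] (chainOK_fullT hL)
    rw [List.nil_append] at this
    exact this
  obtain ⟨ps, hlen, hxe⟩ := chain_form hperfZ phiZ hphiZ (e.1.drop e.2) (preOf e.1 e.2) hpre hm hch hx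
  have hlen8 : e.1.length = 8 := by
    rcases hL with h | h <;> rw [h] <;> rfl
  set A := e.1.take e.2 with hA
  set post := e.1.drop e.2 with hpost
  have hApost : A ++ post = e.1 := List.take_append_drop _ _
  refine ⟨psiSum post ps, ?_, ?_⟩
  · have h1 := psiR_prodL hL ((A.map fun _ => ((0 : ZMod 2), (0 : ZMod 2))) ++ ps) (by
      rw [List.length_append, List.length_map, hlen, ← List.length_append, hApost, hlen8])
    rw [← hApost, psiSum_zeros, prodF4_zerosT, List.nil_append] at h1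
    rw [hxe]
    exact h1
  · have e1 := prodF4_conjT post (preOf e.1 e.2) [] ps
    rw [List.append_nil] at e1
    rw [hxe, e1]
    have hL'' : L' = fullP ∨ L' = fullS := by simpa using hL'
    set rest := L'.drop (8 - e.2) with hrest
    have hL8 : L'.length = 8 := by
      rcases hL'' with h | h <;> rw [h] <;> rfl
    have h1 := psiR_prodL hL'' (ps ++ rest.map fun _ => ((0 : ZMod 2), (0 : ZMod 2))) (by
      rw [List.length_append, List.length_map, hlen, ← List.length_append, ← hL'e, hL8])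
    rw [hL'e, psiSum_trail _ _ _ hlen, prodF4_trailT _ _ _ _ hlen] at h1
    exact h1

/-- The diagonal fixed points are trivial. -/
lemma H_fix_trivT {g : GL chevF4.Idx (ZMod 2)} (hg : g ∈ chevF4.diagonalSubgroup (ZMod 2) ⊓ (twF4 hperfZ phiZ).fix) : g = 1 := by
  have h := cardHF4 hperfZ phiZ (m := 0) (K := ZMod 2) (by simp [ZMod.card]) hphiZ
  have h1 : Nat.card ↥(chevF4.diagonalSubgroup (ZMod 2) ⊓ (twF4 hperfZ phiZ).fix) = 1 := by
    rw [h]
    norm_num
  have h2 : (⟨g, hg⟩ : ↥(chevF4.diagonalSubgroup (ZMod 2) ⊓ (twF4 hperfZ phiZ).fix)) = 1 := by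
    have := (Nat.card_eq_one_iff_unique.1 h1).1
    exact Subsingleton.elim _ _
  exact congrArg Subtype.val h2

/-- The BN-pair of the group. -/
noncomputable abbrev bnT : Cfsg.BNPair ↥(twF4 hperfZ phiZ).fix := (twnF4 hperfZ phiZ hphiZ).bn

lemma BN_fix_trivT {t : ↥(twF4 hperfZ phiZ).fix} (ht : t ∈ bnT.B ⊓ bnT.N) : t = 1 := by
  have h1 : (t : GL chevF4.Idx (ZMod 2)) ∈ chevF4.borelSubgroup (ZMod 2) ⊓ chevF4.monomialSubgroup (ZMod 2) :=
    ⟨Subgroup.mem_subgroupOf.1 ht.1, Subgroup.mem_subgroupOf.1 ht.2⟩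
  rw [good3F4.toGood2.B_inf_N] at h1
  exact Subtype.ext (H_fix_trivT ⟨h1, t.2⟩)

/-- The property of permuting the words. -/
def QwT (g : GL chevF4.Idx (ZMod 2)) : Prop :=
  ∀ e ∈ pairsT, ∃ e' ∈ pairsT, g * good3F4.toGood2.nProd (preOf e.1 e.2) = good3F4.toGood2.nProd (preOf e'.1 e'.2)

lemma nProd_preOf_memT {e : List ℕ × ℕ} (he : e ∈ pairsT) :
    (good3F4.toGood2.nProd (preOf e.1 e.2) : GL chevF4.Idx (ZMod 2)) ∈ (twF4 hperfZ phiZ).fix :=
  nProd_n0n1_fix hperfZ phiZ hphiZ _ (pairsT_check e he).2.2.1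

lemma QwT_gen {j : ℕ} (hj : j < 2) : QwT (good3F4.toGood2.nProd (wJF4 j)) := by
  intro e he
  obtain ⟨e', he', hr⟩ := pairsT_step e he j hj
  refine ⟨e', he', ?_⟩
  have hpre := (pairsT_check e he).2.1
  have hpre' := (pairsT_check e' he').2.1
  have hw : ∀ i ∈ wJF4 j ++ preOf e.1 e.2, i < chevF4.rank := by
    intro i hi
    rcases List.mem_append.1 hi with h | h
    · exact wJF4_lt2 j hj i h
    · exact hpre i h
  rw [← good3F4.toGood2.nProd_append]
  have ha := good3F4.toGood2.nProd_mem_N (F := ZMod 2) hw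
  have hb := good3F4.toGood2.nProd_mem_N (F := ZMod 2) hpre'
  have hmul : (good3F4.toGood2.nProd (preOf e'.1 e'.2))⁻¹ * good3F4.toGood2.nProd (wJF4 j ++ preOf e.1 e.2) ∈ chevF4.monomialSubgroup (ZMod 2) :=
    Subgroup.mul_mem _ (Subgroup.inv_mem _ hb) ha
  have hH := good3F4.toGood2.mem_H_of_permN (n := ⟨_, hmul⟩) (by
    have e1 : (⟨_, hmul⟩ : ↥(chevF4.monomialSubgroup (ZMod 2))) = (⟨_, hb⟩ : ↥(chevF4.monomialSubgroup (ZMod 2)))⁻¹ * ⟨_, ha⟩ := rfl
    rw [e1, map_mul, map_inv, inv_mul_eq_one]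
    ext r
    rw [good3F4.toGood2.permN_nProd hpre', good3F4.toGood2.permN_nProd hw]
    exact (hr r r.2).symm)
  have hf : (good3F4.toGood2.nProd (preOf e'.1 e'.2))⁻¹ * good3F4.toGood2.nProd (wJF4 j ++ preOf e.1 e.2) ∈ (twF4 hperfZ phiZ).fix := by
    refine Subgroup.mul_mem _ (Subgroup.inv_mem _ (nProd_preOf_memT he')) ?_
    rw [good3F4.toGood2.nProd_append]
    refine Subgroup.mul_mem _ ((twnF4 hperfZ phiZ hphiZ).fix j hj) (nProd_preOf_memT he)
  have h1 := H_fix_trivT ⟨hH, hf⟩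
  exact (inv_mul_eq_one.1 h1).symm

/-- Every element of `N` is the inverse of a word. -/
theorem N_wordsT {n : ↥(twF4 hperfZ phiZ).fix} (hn : n ∈ bnT.N) : ∃ e ∈ pairsT, (n : GL chevF4.Idx (ZMod 2))⁻¹ = good3F4.toGood2.nProd (preOf e.1 e.2) := by
  have hN : bnT.N = Subgroup.closure bnT.S := by
    rw [← bnT.closure_sup]
    have h0 : bnT.B ⊓ bnT.N = ⊥ := by
      rw [eq_bot_iff]
      intro t ht
      exact Subgroup.mem_bot.2 (BN_fix_trivT ht)
    rw [h0, sup_bot_eq]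
  have key : ∀ g ∈ Subgroup.closure bnT.S, QwT (g : GL chevF4.Idx (ZMod 2)) ∧ QwT ((g : GL chevF4.Idx (ZMod 2))⁻¹) := by
    intro g hg
    induction hg using Subgroup.closure_induction with
    | mem s hs =>
      obtain ⟨j, hj, hsj⟩ := hs
      have hj' : j < 2 := hj
      have h1 : QwT (s : GL chevF4.Idx (ZMod 2)) := by
        rw [hsj]
        exact QwT_gen hj'
      refine ⟨h1, ?_⟩
      have hss : s * s = 1 := BN_fix_trivT ⟨bnT.sq_mem s ⟨j, hj, hsj⟩, Subgroup.mul_mem _ (bnT.subset ⟨j, hj, hsj⟩) (bnT.subset ⟨j, hj, hsj⟩)⟩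
      have e1 : ((s : GL chevF4.Idx (ZMod 2)))⁻¹ = s := by
        have := congrArg Subtype.val hss
        exact inv_eq_of_mul_eq_one_left this
      rw [e1]
      exact h1
    | one =>
      constructor <;>
      · intro e he
        exact ⟨e, he, by simp⟩
    | mul a b _ _ ha hb =>
      constructor
      · intro e he
        obtain ⟨e1, he1, h1⟩ := hb.1 e he
        obtain ⟨e2, he2, h2⟩ := ha.1 e1 he1
        refine ⟨e2, he2, ?_⟩
        rw [← h2, ← h1, Subgroup.coe_mul, mul_assoc]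
      · intro e he
        obtain ⟨e1, he1, h1⟩ := ha.2 e he
        obtain ⟨e2, he2, h2⟩ := hb.2 e1 he1
        refine ⟨e2, he2, ?_⟩
        rw [← h2, ← h1, Subgroup.coe_mul, mul_inv_rev, mul_assoc]
    | inv a _ ha =>
      refine ⟨?_, ?_⟩
      · rw [Subgroup.coe_inv]
        exact ha.2
      · rw [Subgroup.coe_inv, inv_inv]
        exact ha.1
  have hn' : n⁻¹ ∈ Subgroup.closure bnT.S := by
    rw [← hN]
    exact Subgroup.inv_mem _ hn
  have h0 : (fullP, 0) ∈ pairsT := by decide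
  obtain ⟨e, he, h⟩ := (key _ hn').1 _ h0
  refine ⟨e, he, ?_⟩
  rw [← h]
  show ((n⁻¹ : ↥(twF4 hperfZ phiZ).fix) : GL chevF4.Idx (ZMod 2)) = _ * 1
  rw [mul_one, Subgroup.coe_inv]

/-- `B` is the fixed points of `U`. -/
theorem B_le_UT {b : ↥(twF4 hperfZ phiZ).fix} (hb : b ∈ bnT.B) : (b : GL chevF4.Idx (ZMod 2)) ∈ UF4 hperfZ phiZ := by
  have hK : Fintype.card (ZMod 2) = 2 ^ (2 * 0 + 1) := by simp [ZMod.card]
  have hle : u1F4 hperfZ phiZ ≤ bnT.B := fun x hx => Subgroup.mem_subgroupOf.2 (Tbl.Good2.le_borel_U (Subgroup.mem_subgroupOf.1 hx))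
  have hcB : Nat.card ↥(bnT.B) = Nat.card ↥(chevF4.borelSubgroup (ZMod 2) ⊓ (twF4 hperfZ phiZ).fix) := by
    refine Nat.card_congr
      { toFun := fun x => ⟨x.1.1, Subgroup.mem_inf.2 ⟨x.2, x.1.2⟩⟩
        invFun := fun x => ⟨⟨x.1, (Subgroup.mem_inf.1 x.2).2⟩, (Subgroup.mem_inf.1 x.2).1⟩
        left_inv := fun _ => rfl
        right_inv := fun _ => rfl }
  have hc : Nat.card ↥(bnT.B) ≤ Nat.card ↥(u1F4 hperfZ phiZ) := by
    rw [hcB, TwN.card_B_fix, cardHF4 hperfZ phiZ hK hphiZ, card_u1F4]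
    simp
  have he := Subgroup.eq_of_le_of_card_ge hle hc
  have h2 : b ∈ u1F4 hperfZ phiZ := by
    rw [he]
    exact hb
  exact ⟨Subgroup.mem_subgroupOf.1 h2, b.2⟩

/-- Fusion. -/
theorem fusionT {g x : GL chevF4.Idx (ZMod 2)} (hg : g ∈ (twF4 hperfZ phiZ).fix) (hx : x ∈ UF4 hperfZ phiZ)
    (hc : g * x * g⁻¹ ∈ UF4 hperfZ phiZ) {e : ZMod 2} (h : psiR x e) : psiR (g * x * g⁻¹) e := by
  obtain ⟨n, hn, hC⟩ := Cfsg.Agent.Lib.BN.exists_mem_C (P := bnT) (⟨g, hg⟩ : ↥(twF4 hperfZ phiZ).fix)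
  obtain ⟨b1, hb1, b2, hb2, e4⟩ := Cfsg.Agent.Lib.BN.mem_C.1 hC
  have hb1U := B_le_UT hb1
  have hb2U := B_le_UT hb2
  have e5 : g = (b1 : GL chevF4.Idx (ZMod 2)) * n * b2 := congrArg Subtype.val e4
  have hx' := Subgroup.mul_mem _ (Subgroup.mul_mem _ hb2U hx) (Subgroup.inv_mem _ hb2U)
  have h1 := psiR_conj hb2U hx h
  obtain ⟨p, hp, hpe⟩ := N_wordsT hn
  have e6 : (n : GL chevF4.Idx (ZMod 2)) * ((b2 : GL chevF4.Idx (ZMod 2)) * x * (b2 : GL chevF4.Idx (ZMod 2))⁻¹) * (n : GL chevF4.Idx (ZMod 2))⁻¹ =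
      (b1 : GL chevF4.Idx (ZMod 2))⁻¹ * (g * x * g⁻¹) * b1 := by
    rw [e5]
    group
  have hy : (n : GL chevF4.Idx (ZMod 2)) * ((b2 : GL chevF4.Idx (ZMod 2)) * x * (b2 : GL chevF4.Idx (ZMod 2))⁻¹) * (n : GL chevF4.Idx (ZMod 2))⁻¹ ∈ UF4 hperfZ phiZ := by
    rw [e6]
    exact Subgroup.mul_mem _ (Subgroup.mul_mem _ (Subgroup.inv_mem _ hb1U) hc) hb1U
  have hUF : (b2 : GL chevF4.Idx (ZMod 2)) * x * (b2 : GL chevF4.Idx (ZMod 2))⁻¹ ∈ (twF4 hperfZ phiZ).UF (good3F4.toGood2.nProd (preOf p.1 p.2)) := by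
    refine ⟨hx'.1, hx'.2, ?_⟩
    rw [← hpe, inv_inv]
    exact hy.1
  obtain ⟨f, hf1, hf2⟩ := psi_chainT hp hUF
  have hfe : f = e := psiR_unique hf1 h1
  rw [hfe, ← hpe, inv_inv] at hf2
  have h2 := psiR_conj hb1U hy hf2
  have e7 : g * x * g⁻¹ = (b1 : GL chevF4.Idx (ZMod 2)) * ((n : GL chevF4.Idx (ZMod 2)) * ((b2 : GL chevF4.Idx (ZMod 2)) * x * (b2 : GL chevF4.Idx (ZMod 2))⁻¹) * (n : GL chevF4.Idx (ZMod 2))⁻¹) * (b1 : GL chevF4.Idx (ZMod 2))⁻¹ := by
    rw [e6]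
    group
  rw [e7]
  exact h2

end

end Cfsg.Agent.Lib.Chev
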