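/-
The group ²F₄(2): the commutator subgroup has index two, is simple, and has the expected order.
-/
import Cfsg.Agent.Lib.Coll.TitsB
import Cfsg.Agent.S0080
import Cfsg.Agent.Lib.BN.RankOne

set_option autoImplicit false
set_option maxRecDepth 100000

namespace Cfsg.Agent.Lib.Chev

open Cfsg.Lie Coll
open scoped commutatorElement

section BNNormal

open Cfsg.Agent.Lib.BN

/-- A normal subgroup of a group with an irreducible (B,N)-pair and trivial core of `B` is trivial or supplements `B`. -/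
theorem bn_normal_dich {G : Type*} [Group G] (P : Cfsg.BNPair G) (hirr : P.Irreducible) (hcore : P.B.normalCore = ⊥)
    (K : Subgroup G) (hK : K.Normal) : K = ⊥ ∨ P.B ⊔ K = ⊤ := by
  set M : Subgroup G := P.B ⊔ K with hM
  have hBM : P.B ≤ M := le_sup_left
  have hKM : K ≤ M := le_sup_right
  have hMeq := eq_parabolic hBM
  set J : Set G := P.S ∩ (M : Set G) with hJdef
  have hJ : J ⊆ P.S := Set.inter_subset_left
  -- commuting
  have hcomm : ∀ s ∈ J, ∀ s' ∈ P.S \ J, s * s' * s⁻¹ * s'⁻¹ ∈ P.B := by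
    rintro s ⟨hs, hsM⟩ s' ⟨hs', hs'J⟩
    have hs'M : s' ∉ M := fun h => hs'J ⟨hs', h⟩
    have hne : s ≠ s' := by
      rintro rfl
      exact hs'M hsM
    have hsN := S_mem_N hs
    have hs'N := S_mem_N hs'
    -- `s = b h`
    have hsmem : s ∈ ((P.B ⊔ K : Subgroup G) : Set G) := hsM
    rw [Subgroup.mul_normal] at hsmem
    obtain ⟨b, hb, h, hh, e⟩ := Set.mem_mul.1 hsmem
    have huT : s * s' ∉ T P := by
      intro hu
      apply hne
      apply P.inj s hs s' hs'
      have h0 : s⁻¹ * s' = (s * s)⁻¹ * (s * s') := by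
        rw [mul_inv_rev, mul_assoc, inv_mul_cancel_left]
      rw [h0]
      exact mul_mem (inv_mem (P.sq_mem s hs)) (T_le_B hu)
    have hlen_u : ell P (s * s') = 2 := by
      have h1 := ell_S_mul_le hs'N hs
      have h2 := ell_S_mul_ne hs'N hs
      have h3 := ell_S hs'
      have h4 : ell P (s * s') ≠ 0 := fun h0 =>
        huT ((ell_eq_zero_iff (mul_mem hsN hs'N)).1 h0)
      omega
    have huN : s * s' ∈ P.N := mul_mem hsN hs'N
    have hnN : s' * (s * s') ∈ P.N := mul_mem hs'N huN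
    have h5 := ell_S_mul_ne huN hs'
    have h6 := ell_S_mul_le huN hs'
    have h7 := ell_le_S_mul huN hs'
    by_cases h3 : ell P (s' * (s * s')) = 3
    · -- long case: contradiction with `s' ∉ M`
      exfalso
      apply hs'M
      have h8 : s' * b⁻¹ * s * s' ∈ C P (s' * (s * s')) := by
        have h9 : s * (1 : G) * s' ∈ C P (s * s') :=
          mul_mem_C_of_ell_le hs'N hs P.B.one_mem (by rw [ell_S hs', hlen_u]; omega)
        have h10 : s' * b⁻¹ * (s * s') ∈ C P (s' * (s * s')) :=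
          mul_mem_C_of_ell_le huN hs' (inv_mem hb) (by omega)
        have e2 : s' * b⁻¹ * s * s' = s' * b⁻¹ * (s * s') := by group
        rw [e2]; exact h10
      have hgM : s' * b⁻¹ * s * s' ∈ M := by
        have e3 : s' * b⁻¹ * s * s' = (s' * h * s'⁻¹) * (s' * s') := by
          have : b⁻¹ * s = h := by
            rw [inv_mul_eq_iff_eq_mul]; exact e.symm
          calc s' * b⁻¹ * s * s' = s' * (b⁻¹ * s) * s' := by group
            _ = s' * h * s' := by rw [this]
            _ = (s' * h * s'⁻¹) * (s' * s') := by group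
        rw [e3]
        exact mul_mem (hKM (hK.conj_mem h hh s')) (hBM (P.sq_mem s' hs'))
      obtain ⟨b1, h11, b2, h12, e4⟩ := mem_C.1 h8
      have hnM : s' * (s * s') ∈ M := by
        have e5 : s' * (s * s') = b1⁻¹ * (s' * b⁻¹ * s * s') * b2⁻¹ := by
          rw [e4]; group
        rw [e5]
        exact mul_mem (mul_mem (hBM (inv_mem h11)) hgM) (hBM (inv_mem h12))
      have hlt : ell P (s' * (s' * (s * s'))) < ell P (s' * (s * s')) := by
        have e6 : s' * (s' * (s * s')) = (s' * s') * (s * s') := by group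
        rw [e6, ell_T_mul huN (sq_mem_T hs'), hlen_u, h3]
        omega
      refine S_mem_of_ell_lt hnN hs' hlt hBM ?_
      intro c hc
      exact mul_mem (mul_mem hnM (hBM hc)) (inv_mem hnM)
    · have hlen : ell P (s' * (s * s')) < 2 := by omega
      have hlist : ∀ x ∈ [s, s'], x ∈ P.S := by
        intro x hx
        simp only [List.mem_cons, List.not_mem_nil, or_false] at hx
        rcases hx with rfl | rfl <;> assumption
      have hprod : ([s, s'] : List G).prod = s * s' := by simp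
      obtain ⟨i, hi, t, ht, e5⟩ := exchange [s, s'] hlist (by rw [hprod]; simpa using hlen_u) hs'
        (by rw [hprod]; simpa using hlen)
      rw [hprod] at e5
      have hi2 : i < 2 := by simpa using hi
      interval_cases i
      · -- `s' s s' = s' t`
        exfalso
        simp only [List.eraseIdx_cons_zero, List.prod_cons, List.prod_nil, mul_one] at e5
        apply huT
        have : s * s' = t := by simpa using e5
        rw [this]; exact ht
      · simp only [List.eraseIdx_cons_succ, List.eraseIdx_cons_zero, List.prod_cons,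
          List.prod_nil, mul_one] at e5
        have e6 : s * s' * s⁻¹ * s'⁻¹ = ((s'⁻¹ * s) * t * (s'⁻¹ * s)⁻¹) * (s' * s')⁻¹ := by
          have h1 : s * s' = s'⁻¹ * (s * t) := by rw [← e5]; group
          rw [h1]; group
        rw [e6]
        have hc : s'⁻¹ * s ∈ P.N := mul_mem (inv_mem hs'N) hsN
        exact T_le_B (mul_mem (conj_T hc ht) (inv_mem (sq_mem_T hs')))
  -- use irreducibility
  by_cases hJne : J.Nonempty
  · by_cases hcompl : (P.S \ J).Nonempty
    · exfalso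
      obtain ⟨s, hs, s', hs', hnotin⟩ := hirr J hJ hJne hcompl
      exact hnotin (hcomm s hs s' hs')
    · -- `J = S`, so `M = ⊤`
      right
      rw [Set.not_nonempty_iff_eq_empty, Set.sdiff_eq_empty] at hcompl
      have hJS : J = P.S := Set.Subset.antisymm hJ hcompl
      have hMtop : M = ⊤ := by
        rw [hMeq, hJS]; exact sup_closure_S_eq_top
      exact hMtop
  · -- `J = ∅`, so `K ≤ B`
    left
    rw [Set.not_nonempty_iff_eq_empty] at hJne
    have hMB : M = P.B := by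
      rw [hMeq, hJne]
      simp [BNPair.parabolic]
    have hKB : K ≤ P.B := hMB ▸ hKM
    have := (Subgroup.normal_le_normalCore (H := P.B) (N := K)).2 hKB
    rw [hcore] at this
    exact le_bot_iff.1 this


end BNNormal

section Abs

/-- The quotient by a normal subgroup supplementing a nilpotent subgroup, in a group generated modulo commutators by one element. -/
theorem comm_le_of_nilp {G : Type*} [Group G] [Finite G] (B K : Subgroup G) [hK : K.Normal] (hB : Group.IsNilpotent ↥B)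
    (hBK : B ⊔ K = ⊤) (y : G) (hgen : commutator G ⊔ Subgroup.zpowers y = ⊤) : commutator G ≤ K := by
  have hsurj : Function.Surjective ((QuotientGroup.mk' K).comp B.subtype) := by
    intro q
    induction q using QuotientGroup.induction_on with | _ g => ?_
    have hg : g ∈ ((B ⊔ K : Subgroup G) : Set G) := by
      rw [hBK]
      trivial
    rw [Subgroup.mul_normal] at hg
    obtain ⟨b, hb, h, hh, e⟩ := Set.mem_mul.1 hg
    refine ⟨⟨b, hb⟩, ?_⟩
    simp only [MonoidHom.coe_comp, Function.comp_apply, Subgroup.coe_subtype, QuotientGroup.mk'_apply]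
    rw [QuotientGroup.eq, ← e]
    simpa using hh
  haveI : Group.IsNilpotent (G ⧸ K) := nilpotent_of_surjective _ hsurj
  have hf : Function.Surjective (QuotientGroup.mk' K) := QuotientGroup.mk'_surjective K
  have h1 : Subgroup.zpowers (QuotientGroup.mk' K y) ⊔ commutator (G ⧸ K) = ⊤ := by
    have h2 := congrArg (Subgroup.map (QuotientGroup.mk' K)) hgen
    rw [Subgroup.map_sup, MonoidHom.map_zpowers, ← MonoidHom.range_eq_map, MonoidHom.range_eq_top.2 hf] at h2
    rw [eq_top_iff, ← h2, sup_comm]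
    refine sup_le_sup_left ?_ _
    rw [commutator_def, Subgroup.map_commutator, commutator_def]
    exact Subgroup.commutator_mono le_top le_top
  have h3 := eq_top_of_sup_commutatorF _ h1
  rw [commutator_def, Subgroup.commutator_le]
  intro a _ b _
  rw [← QuotientGroup.eq_one_iff]
  have ha : QuotientGroup.mk' K a ∈ Subgroup.zpowers (QuotientGroup.mk' K y) := by
    rw [h3]
    trivial
  have hb : QuotientGroup.mk' K b ∈ Subgroup.zpowers (QuotientGroup.mk' K y) := by
    rw [h3]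
    trivial
  obtain ⟨i, hi⟩ := Subgroup.mem_zpowers_iff.1 ha
  obtain ⟨j, hj⟩ := Subgroup.mem_zpowers_iff.1 hb
  have hc : Commute (QuotientGroup.mk' K a) (QuotientGroup.mk' K b) := by
    rw [← hi, ← hj]
    exact (Commute.refl _).zpow_zpow i j
  show QuotientGroup.mk' K ⁅a, b⁆ = 1
  rw [commutatorElement_def, map_mul, map_mul, map_mul, map_inv, map_inv, hc.eq]
  group

/-- The abstract argument: a group with a subgroup of index two in which every nontrivial normal subgroup contains it. -/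
theorem tits_abs {G : Type*} [Group G] [Finite G] (y : G) (hgen : commutator G ⊔ Subgroup.zpowers y = ⊤)
    (hy : y ∉ commutator G) (hy2 : y * y ∈ commutator G) (hcard : Nat.card G = 2 ^ 12 * 3 ^ 3 * 5 ^ 2 * 13)
    (hN : ∀ K : Subgroup G, K.Normal → K ≠ ⊥ → commutator G ≤ K) :
    (commutator G).index = 2 ∧ IsSimpleGroup ↥(commutator G) ∧ ¬ IsMulCommutative ↥(commutator G) ∧
      Nat.card ↥(commutator G) = 2 ^ 11 * 3 ^ 3 * 5 ^ 2 * 13 := by
  classical
  obtain ⟨T, hT⟩ : ∃ T, T = commutator G := ⟨_, rfl⟩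
  rw [← hT] at hgen hy hy2 ⊢
  have hN' : ∀ K : Subgroup G, K.Normal → K ≠ ⊥ → T ≤ K := by
    rw [hT]
    exact hN
  haveI hTn : T.Normal := by
    rw [hT]
    infer_instance
  have hparity : ∀ k : ℤ, y ^ k ∈ T ∨ y ^ k * y ∈ T := by
    intro k
    obtain ⟨c, hc | hc⟩ := Int.even_or_odd' k
    · left
      rw [hc, zpow_mul, zpow_two]
      exact Subgroup.zpow_mem _ hy2 c
    · right
      rw [hc, ← zpow_add_one, show 2 * c + 1 + 1 = 2 * (c + 1) by ring, zpow_mul, zpow_two]
      exact Subgroup.zpow_mem _ hy2 _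
  have hstep : ∀ b : G, b ∉ T → b * y ∈ T := by
    intro b hb
    have hb' : b ∈ T ⊔ Subgroup.zpowers y := hgen ▸ Subgroup.mem_top b
    rw [← SetLike.mem_coe, Subgroup.normal_mul] at hb'
    obtain ⟨t, ht, z, hz, rfl⟩ := Set.mem_mul.1 hb'
    obtain ⟨k, rfl⟩ := Subgroup.mem_zpowers_iff.1 hz
    rcases hparity k with h | h
    · exact absurd (T.mul_mem ht h) hb
    · rw [mul_assoc]
      exact T.mul_mem ht h
  have hidx : T.index = 2 := by
    rw [Subgroup.index_eq_two_iff]
    refine ⟨y, fun b => ?_⟩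
    by_cases hb : b ∈ T
    · refine Or.inr ⟨hb, fun h => hy ?_⟩
      have h1 := T.mul_mem (T.inv_mem hb) h
      rwa [inv_mul_cancel_left] at h1
    · exact Or.inl ⟨hstep b hb, hb⟩
  have hcT : Nat.card ↥T = 2 ^ 11 * 3 ^ 3 * 5 ^ 2 * 13 := by
    have h1 := Subgroup.card_mul_index T
    rw [hidx, hcard] at h1
    omega
  -- a criterion for normality
  have hnormal : ∀ A : Subgroup G, (∀ t ∈ T, ∀ a ∈ A, t * a * t⁻¹ ∈ A) → (∀ a ∈ A, y * a * y⁻¹ ∈ A) → A.Normal := by
    intro A h1 h2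
    refine ⟨fun a ha g => ?_⟩
    by_cases hg : g ∈ T
    · exact h1 g hg a ha
    · have h3 := hstep g hg
      have h4 : y⁻¹ * a * y ∈ A := by
        have e : y⁻¹ * a * y = (y * y)⁻¹ * (y * a * y⁻¹) * (y * y) := by group
        rw [e]
        have h5 := h1 _ (T.inv_mem hy2) _ (h2 a ha)
        rwa [inv_inv] at h5
      have e : g * a * g⁻¹ = (g * y) * (y⁻¹ * a * y) * (g * y)⁻¹ := by group
      rw [e]
      exact h1 _ h3 _ h4
  have hsimple : IsSimpleGroup ↥T := by
    haveI : Nontrivial ↥T := Finite.one_lt_card_iff_nontrivial.1 (by rw [hcT]; norm_num)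
    refine ⟨fun N hNn => ?_⟩
    by_cases hN0 : N = ⊥
    · exact Or.inl hN0
    right
    set N1 : Subgroup G := N.map T.subtype with hN1
    set N2 : Subgroup G := N1.map (MulAut.conj y).toMonoidHom with hN2
    have hN1T : N1 ≤ T := by
      rintro _ ⟨x, _, rfl⟩
      exact x.2
    have hmem2 : ∀ a, a ∈ N1 → y * a * y⁻¹ ∈ N2 := fun a ha => ⟨a, ha, rfl⟩
    have hN2T : N2 ≤ T := by
      rintro _ ⟨x, hx, rfl⟩
      exact hTn.conj_mem _ (hN1T hx) y
    have hc1 : ∀ t ∈ T, ∀ a ∈ N1, t * a * t⁻¹ ∈ N1 := by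
      rintro t ht _ ⟨x, hx, rfl⟩
      exact ⟨⟨t, ht⟩ * x * ⟨t, ht⟩⁻¹, hNn.conj_mem x hx _, rfl⟩
    have hc2 : ∀ t ∈ T, ∀ a ∈ N2, t * a * t⁻¹ ∈ N2 := by
      rintro t ht _ ⟨x, hx, rfl⟩
      have ht' : y⁻¹ * t * y ∈ T := by
        have := hTn.conj_mem t ht y⁻¹
        rwa [inv_inv] at this
      have h1 := hc1 _ ht' x hx
      have h2 := hmem2 _ h1
      have e : t * (MulAut.conj y).toMonoidHom x * t⁻¹ = y * (y⁻¹ * t * y * x * (y⁻¹ * t * y)⁻¹) * y⁻¹ := by
        show t * (y * x * y⁻¹) * t⁻¹ = _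
        group
      rw [e]
      exact h2
    have hy12 : ∀ a ∈ N1, y * a * y⁻¹ ∈ N2 := hmem2
    have hy21 : ∀ a ∈ N2, y * a * y⁻¹ ∈ N1 := by
      rintro _ ⟨x, hx, rfl⟩
      have e : y * (MulAut.conj y).toMonoidHom x * y⁻¹ = (y * y) * x * (y * y)⁻¹ := by
        show y * (y * x * y⁻¹) * y⁻¹ = _
        group
      rw [e]
      exact hc1 _ hy2 _ hx
    have hNN1 : N1 ≠ ⊥ := by
      intro h
      apply hN0
      have := (Subgroup.map_eq_bot_iff_of_injective N T.subtype_injective).1 h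
      exact this
    have hfin : ∀ t : ↥T, t.1 ∈ N1 → t ∈ N := by
      rintro t ⟨x, hx, e⟩
      have : x = t := Subtype.ext e
      rwa [← this]
    by_cases hA : N1 ⊓ N2 = ⊥
    · exfalso
      have hBn : (N1 ⊔ N2).Normal := by
        refine hnormal _ ?_ ?_
        · intro t ht a ha
          have : N1 ⊔ N2 ≤ (N1 ⊔ N2).comap (MulAut.conj t).toMonoidHom :=
            sup_le (fun a ha => Subgroup.mem_sup_left (hc1 t ht a ha)) (fun a ha => Subgroup.mem_sup_right (hc2 t ht a ha))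
          exact this ha
        · intro a ha
          have : N1 ⊔ N2 ≤ (N1 ⊔ N2).comap (MulAut.conj y).toMonoidHom :=
            sup_le (fun a ha => Subgroup.mem_sup_right (hy12 a ha)) (fun a ha => Subgroup.mem_sup_left (hy21 a ha))
          exact this ha
      have hBne : N1 ⊔ N2 ≠ ⊥ := fun h => hNN1 (le_bot_iff.1 (h ▸ le_sup_left))
      have hTB := hN' _ hBn hBne
      have hBT : N1 ⊔ N2 = T := le_antisymm (sup_le hN1T hN2T) hTB
      set M : Subgroup ↥T := N2.subgroupOf T with hM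
      have hMmap : M.map T.subtype = N2 := Subgroup.map_subgroupOf_eq_of_le hN2T
      have hdisj : N ⊓ M = ⊥ := by
        rw [eq_bot_iff]
        rintro x ⟨hx1, hx2⟩
        have h1 : x.1 ∈ N1 ⊓ N2 := ⟨⟨x, hx1, rfl⟩, Subgroup.mem_subgroupOf.1 hx2⟩
        rw [hA, Subgroup.mem_bot] at h1
        exact Subgroup.mem_bot.2 (Subtype.ext h1)
      have hsup : N ⊔ M = ⊤ := by
        apply Subgroup.map_injective T.subtype_injective
        rw [Subgroup.map_sup, hMmap, ← hN1, hBT, ← MonoidHom.range_eq_map, Subgroup.range_subtype]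
      have hcomp : Subgroup.IsComplement' N M := by
        refine Subgroup.isComplement'_of_disjoint_and_mul_eq_univ (disjoint_iff.2 hdisj) ?_
        rw [← Subgroup.normal_mul, hsup]
        rfl
      have hc := hcomp.card_mul_card
      have hcM : Nat.card ↥M = Nat.card ↥N := by
        have h1 : Nat.card ↥M = Nat.card ↥N2 := by
          rw [← hMmap]
          exact (Nat.card_congr (Subgroup.equivMapOfInjective M T.subtype T.subtype_injective).toEquiv)
        have h2 : Nat.card ↥N2 = Nat.card ↥N1 :=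
          (Nat.card_congr (Subgroup.equivMapOfInjective N1 _ (MulAut.conj y).injective).toEquiv).symm
        have h3 : Nat.card ↥N1 = Nat.card ↥N :=
          (Nat.card_congr (Subgroup.equivMapOfInjective N T.subtype T.subtype_injective).toEquiv).symm
        rw [h1, h2, h3]
      rw [hcM, hcT] at hc
      generalize Nat.card ↥N = n at hc
      norm_num at hc
      by_cases h : n ≤ 4239
      · nlinarith
      · have : 4240 ≤ n := by omega
        nlinarith
    · have hAn : (N1 ⊓ N2).Normal := by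
        refine hnormal _ ?_ ?_
        · rintro t ht a ⟨h1, h2⟩
          exact ⟨hc1 t ht a h1, hc2 t ht a h2⟩
        · rintro a ⟨h1, h2⟩
          exact ⟨hy21 a h2, hy12 a h1⟩
      have hTA := hN' _ hAn hA
      rw [eq_top_iff]
      intro t _
      exact hfin t (hTA t.2).1
  refine ⟨hidx, hsimple, fun hc => ?_, hcT⟩
  haveI : Fact (Nat.Prime 2) := ⟨Nat.prime_two⟩
  obtain ⟨x, hx⟩ := exists_prime_orderOf_dvd_card' (G := ↥T) 2 (by rw [hcT]; norm_num)
  have hZ : (Subgroup.zpowers x).Normal := by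
    refine ⟨fun n hn g => ?_⟩
    rw [hc.is_comm.comm g n, mul_inv_cancel_right]
    exact hn
  rcases hsimple.eq_bot_or_eq_top_of_normal _ hZ with h | h
  · rw [Subgroup.zpowers_eq_bot] at h
    rw [h, orderOf_one] at hx
    omega
  · have h1 := Nat.card_zpowers x
    rw [h, Nat.card_congr Subgroup.topEquiv.toEquiv, hcT, hx] at h1
    omega

end Abs

section Final

/-- The kernel of the homomorphism on the fixed points of `U`. -/
def kerT : Subgroup ↥(twF4 hperfZ phiZ).fix where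
  carrier := {g | (g : GL chevF4.Idx (ZMod 2)) ∈ UF4 hperfZ phiZ ∧ psiR g 0}
  one_mem' := ⟨Subgroup.one_mem _, psiR_one⟩
  mul_mem' := by
    rintro a b ⟨ha, ha'⟩ ⟨hb, hb'⟩
    refine ⟨Subgroup.mul_mem _ ha hb, ?_⟩
    have := psiR_mul ha ha' hb'
    rwa [add_zero] at this
  inv_mem' := by
    rintro a ⟨ha, ha'⟩
    exact ⟨Subgroup.inv_mem _ ha, psiR_inv ha ha'⟩

lemma cardK2 : Fintype.card (ZMod 2) = 2 ^ (2 * 0 + 1) := by simp [ZMod.card]

lemma h01Z : ∀ x : ZMod 2, x = 0 ∨ x = 1 := by decide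

/-- The focal subgroup lies in the kernel. -/
theorem comm_inf_le_kerT : commutator ↥(twF4 hperfZ phiZ).fix ⊓ u1F4 hperfZ phiZ ≤ kerT := by
  obtain ⟨hp, hi⟩ := U1_sylow hperfZ phiZ cardK2 hphiZ
  have hcop : Nat.Coprime (u1F4 hperfZ phiZ).index (⁅u1F4 hperfZ phiZ, u1F4 hperfZ phiZ⁆.relIndex (u1F4 hperfZ phiZ)) := by
    obtain ⟨n, hn⟩ := IsPGroup.iff_card.1 hp
    have h1 : (⁅u1F4 hperfZ phiZ, u1F4 hperfZ phiZ⁆.relIndex (u1F4 hperfZ phiZ)) ∣ 2 ^ n := by
      rw [← hn]
      exact Subgroup.relIndex_dvd_card _ _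
    exact Nat.Coprime.coprime_dvd_right h1 (Nat.Coprime.pow_right n ((Nat.Prime.coprime_iff_not_dvd Nat.prime_two).2 hi).symm)
  rw [← (Cfsg.Agent.S0080.result _ hcop).1, Subgroup.focalSubgroup_def, Subgroup.closure_le]
  rintro g ⟨hg, x, hx, u, rfl⟩
  have hgU : ((⁅x, u⁆ : ↥(twF4 hperfZ phiZ).fix) : GL chevF4.Idx (ZMod 2)) ∈ UF4 hperfZ phiZ := ⟨Subgroup.mem_subgroupOf.1 hg, Subtype.property _⟩
  refine ⟨hgU, ?_⟩
  have hxU : (x : GL chevF4.Idx (ZMod 2)) ∈ UF4 hperfZ phiZ := ⟨Subgroup.mem_subgroupOf.1 hx, x.2⟩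
  obtain ⟨e, he⟩ := psiR_exists hxU
  have e1 : (u : GL chevF4.Idx (ZMod 2)) * (x : GL chevF4.Idx (ZMod 2))⁻¹ * (u : GL chevF4.Idx (ZMod 2))⁻¹ =
      (x : GL chevF4.Idx (ZMod 2))⁻¹ * ((⁅x, u⁆ : ↥(twF4 hperfZ phiZ).fix) : GL chevF4.Idx (ZMod 2)) := by
    rw [commutatorElement_def]
    simp only [Subgroup.coe_mul, Subgroup.coe_inv]
    group
  have hc : (u : GL chevF4.Idx (ZMod 2)) * (x : GL chevF4.Idx (ZMod 2))⁻¹ * (u : GL chevF4.Idx (ZMod 2))⁻¹ ∈ UF4 hperfZ phiZ := by
    rw [e1]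
    exact Subgroup.mul_mem _ (Subgroup.inv_mem _ hxU) hgU
  have h1 := fusionT u.2 (Subgroup.inv_mem _ hxU) hc (psiR_inv hxU he)
  have h2 := psiR_mul hxU he h1
  have e2 : (x : GL chevF4.Idx (ZMod 2)) * ((u : GL chevF4.Idx (ZMod 2)) * (x : GL chevF4.Idx (ZMod 2))⁻¹ * (u : GL chevF4.Idx (ZMod 2))⁻¹) =
      ((⁅x, u⁆ : ↥(twF4 hperfZ phiZ).fix) : GL chevF4.Idx (ZMod 2)) := by
    rw [e1]
    group
  rw [e2] at h2
  have h3 : ∀ a : ZMod 2, a + a = 0 := by decide
  rwa [h3] at h2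

/-- The element outside the commutator subgroup is in `U` with value one. -/
lemma yF4_eqT : (yF4 hperfZ phiZ hphiZ : GL chevF4.Idx (ZMod 2)) = sLet phiZ 29 41 44 47 1 0 :=
  lett1 phiZ (by decide) (by decide +kernel) (by decide +kernel) (by decide +kernel) (by decide +kernel) 1 0

theorem yF4_not_comm : yF4 hperfZ phiZ hphiZ ∉ commutator ↥(twF4 hperfZ phiZ).fix := by
  intro hc
  obtain ⟨u1, r1⟩ := psiT_4 (Subgroup.one_mem _) psiR_one (1 : ZMod 2) 0
  rw [one_mul] at u1 r1
  have hU : yF4 hperfZ phiZ hphiZ ∈ u1F4 hperfZ phiZ := by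
    rw [Subgroup.mem_subgroupOf, yF4_eqT]
    exact u1.1
  have h1 := comm_inf_le_kerT ⟨hc, hU⟩
  have h2 : psiR (yF4 hperfZ phiZ hphiZ : GL chevF4.Idx (ZMod 2)) 0 := h1.2
  rw [yF4_eqT] at h2
  have h3 := psiR_unique r1 h2
  revert h3
  decide

theorem yF4_sq_comm : yF4 hperfZ phiZ hphiZ * yF4 hperfZ phiZ hphiZ ∈ commutator ↥(twF4 hperfZ phiZ).fix := by
  have hm := nProd_n0n1_fix hperfZ phiZ hphiZ (K := ZMod 2) [[0, 3], [1, 2, 1, 2], [0, 3]] (by simp)
  obtain ⟨h2, h3⟩ := inCF_conj hperfZ phiZ hm (inCF_s01 hperfZ phiZ hphiZ)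
  have e' : ((yF4 hperfZ phiZ hphiZ * yF4 hperfZ phiZ hphiZ : ↥(twF4 hperfZ phiZ).fix) : GL chevF4.Idx (ZMod 2)) =
      good3F4.toGood2.nProd ([[0, 3], [1, 2, 1, 2], [0, 3]] : List (List ℕ)).flatten * suzU phiZ (0 : ZMod 2) 1 *
        (good3F4.toGood2.nProd ([[0, 3], [1, 2, 1, 2], [0, 3]] : List (List ℕ)).flatten)⁻¹ := by
    rw [Subgroup.coe_mul]
    have e0 : ((yF4 hperfZ phiZ hphiZ : ↥(twF4 hperfZ phiZ).fix) : GL chevF4.Idx (ZMod 2)) = lettF4 phiZ 1 [0, 3, 1, 2, 1, 2, 0, 3] (1 : ZMod 2) 0 := rfl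
    rw [e0]
    unfold lettF4
    rw [if_neg (by decide)]
    have e1 := suzU_mul hphiZ (1 : ZMod 2) 0 1 0
    have e2a : (1 + 1 : ZMod 2) = 0 := by decide
    have e2b : (0 + 0 + phiZ 1 * 1 : ZMod 2) = 1 := by decide
    rw [e2a, e2b] at e1
    have e3 : ([[0, 3], [1, 2, 1, 2], [0, 3]] : List (List ℕ)).flatten = [0, 3, 1, 2, 1, 2, 0, 3] := rfl
    rw [e3, ← e1]
    generalize good3F4.toGood2.nProd (F := ZMod 2) [0, 3, 1, 2, 1, 2, 0, 3] = m
    group
  have e : yF4 hperfZ phiZ hphiZ * yF4 hperfZ phiZ hphiZ = ⟨_, h2⟩ := Subtype.ext e'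
  rw [e]
  exact h3

/-- A normal subgroup contains the commutator subgroup. -/
theorem normal_ge_comm (K : Subgroup ↥(twF4 hperfZ phiZ).fix) (hK : K.Normal) (hne : K ≠ ⊥) : commutator ↥(twF4 hperfZ phiZ).fix ≤ K := by
  have hirr : bnT.Irreducible := (twnF4 hperfZ phiZ hphiZ).irreducible (by
    intro j hj
    have hj' : j + 1 < 2 := hj
    obtain rfl : j = 0 := by omega
    exact ⟨33, by decide, show wperm digF4.tbl [0, 3] (wperm digF4.tbl [1, 2, 1, 2] 33) ≠ wperm digF4.tbl [1, 2, 1, 2] (wperm digF4.tbl [0, 3] 33) by decide +kernel⟩)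
  rcases bn_normal_dich bnT hirr (coreF4 hperfZ phiZ hphiZ) K hK with h | h
  · exact absurd h hne
  · haveI : Fact (Nat.Prime 2) := ⟨Nat.prime_two⟩
    have hle : bnT.B ≤ u1F4 hperfZ phiZ := fun b hb => Subgroup.mem_subgroupOf.2 (B_le_UT hb).1
    have hp : IsPGroup 2 ↥(bnT.B) := (U1_sylow hperfZ phiZ cardK2 hphiZ).1.to_le hle
    exact comm_le_of_nilp bnT.B K hp.isNilpotent h _ (gen_yF4 hperfZ phiZ hphiZ h01Z)

/-- The theorem on the fixed points. -/
theorem tits_fix : (commutator ↥(twF4 hperfZ phiZ).fix).index = 2 ∧ IsSimpleGroup ↥(commutator ↥(twF4 hperfZ phiZ).fix) ∧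
    ¬ IsMulCommutative ↥(commutator ↥(twF4 hperfZ phiZ).fix) ∧ Nat.card ↥(commutator ↥(twF4 hperfZ phiZ).fix) = 2 ^ 11 * 3 ^ 3 * 5 ^ 2 * 13 := by
  refine tits_abs (yF4 hperfZ phiZ hphiZ) (gen_yF4 hperfZ phiZ hphiZ h01Z) yF4_not_comm yF4_sq_comm ?_ normal_ge_comm
  rw [orderRee2F4 hperfZ phiZ cardK2 hphiZ]
  norm_num

/-- The statement for the group given by its generators. -/
theorem tits_final : (commutator ↥(twistedF4 (ZMod 2) 1)).index = 2 ∧ IsSimpleGroup ↥(commutator ↥(twistedF4 (ZMod 2) 1)) ∧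
    ¬ IsMulCommutative ↥(commutator ↥(twistedF4 (ZMod 2) 1)) ∧ Nat.card ↥(commutator ↥(twistedF4 (ZMod 2) 1)) = 2 ^ 11 * 3 ^ 3 * 5 ^ 2 * 13 := by
  have he : twistedF4 (ZMod 2) 1 = (twF4 hperfZ phiZ).fix := twistedF4_eq hperfZ phiZ (fun x => (pow_one x).symm) hphiZ
  rw [he]
  exact tits_fix

end Final

end Cfsg.Agent.Lib.Chev
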