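/-
The group ³D₄(q) is generated by two elements.
-/
import Cfsg.Agent.Lib.Tw.D4c
import Cfsg.Agent.Lib.Coll.RegCent

set_option autoImplicit false
set_option maxRecDepth 100000

namespace Cfsg.Agent.Lib.Chev

open Cfsg.Lie

/-- A subgroup of a finite nilpotent group generating it modulo the commutator subgroup is everything. -/
theorem eq_top_of_sup_commutatorD {G : Type*} [Group G] [Finite G] [Group.IsNilpotent G] (W : Subgroup G)
    (h : W ⊔ commutator G = ⊤) : W = ⊤ := by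
  by_contra hW
  obtain ⟨M, hM, hWM⟩ := (eq_top_or_exists_le_coatom W).resolve_left hW
  have hlt : M < ⊤ := lt_top_iff_ne_top.2 hM.1
  have hN : Subgroup.normalizer (M : Set G) = ⊤ := by
    have h1 := normalizerCondition_of_isNilpotent (G := G) M hlt
    exact hM.2 _ h1
  haveI hMn : M.Normal := Subgroup.normalizer_eq_top_iff.1 hN
  obtain ⟨g, hg⟩ : ∃ g, g ∉ M := by
    by_contra hall
    push_neg at hall
    exact hM.1 (eq_top_iff.2 fun x _ => hall x)
  have hsup : Subgroup.zpowers g ⊔ M = ⊤ :=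
    hM.2 _ (lt_of_le_of_ne le_sup_right (fun e => hg (e ▸ Subgroup.mem_sup_left (Subgroup.mem_zpowers g))))
  have hcomm : commutator G ≤ M := by
    rw [commutator_def, Subgroup.commutator_le]
    intro a _ b _
    have hpi : ∀ x : G, ∃ k : ℤ, (QuotientGroup.mk x : G ⧸ M) = (QuotientGroup.mk g : G ⧸ M) ^ k := by
      intro x
      have hx : x ∈ Subgroup.zpowers g ⊔ M := hsup ▸ Subgroup.mem_top x
      rw [← SetLike.mem_coe, Subgroup.mul_normal] at hx
      obtain ⟨z, hz, m, hm, rfl⟩ := Set.mem_mul.1 hx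
      obtain ⟨k, rfl⟩ := Subgroup.mem_zpowers_iff.1 hz
      refine ⟨k, ?_⟩
      have e1 : (QuotientGroup.mk m : G ⧸ M) = 1 := (QuotientGroup.eq_one_iff m).2 hm
      rw [QuotientGroup.mk_mul, e1, mul_one, QuotientGroup.mk_zpow]
    obtain ⟨i, hi⟩ := hpi a
    obtain ⟨j, hj⟩ := hpi b
    rw [← QuotientGroup.eq_one_iff]
    show (QuotientGroup.mk (a * b * a⁻¹ * b⁻¹) : G ⧸ M) = 1
    rw [QuotientGroup.mk_mul, QuotientGroup.mk_mul, QuotientGroup.mk_mul, QuotientGroup.mk_inv, QuotientGroup.mk_inv, hi, hj]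
    have hc : Commute ((QuotientGroup.mk g : G ⧸ M) ^ i) ((QuotientGroup.mk g : G ⧸ M) ^ j) :=
      (Commute.refl _).zpow_zpow i j
    rw [hc.eq]
    group
  apply hM.1
  rw [eq_top_iff, ← h]
  exact sup_le hWM hcomm

/-- The generators of a finite nilpotent group lying in a subgroup modulo commutators. -/
theorem closure_le_of_abel {Γ : Type*} [Group Γ] (X : Set Γ) [Finite ↥(Subgroup.closure X)]
    [Group.IsNilpotent ↥(Subgroup.closure X)] (G1 : Subgroup Γ)
    (h : ∀ (x : Γ) (hx : x ∈ X), Abelianization.of (⟨x, Subgroup.subset_closure hx⟩ : ↥(Subgroup.closure X)) ∈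
      (G1.subgroupOf (Subgroup.closure X)).map (Abelianization.of)) : Subgroup.closure X ≤ G1 := by
  have hS : G1.subgroupOf (Subgroup.closure X) ⊔ commutator ↥(Subgroup.closure X) = ⊤ := by
    rw [eq_top_iff, ← Subgroup.closure_closure_coe_preimage (k := X), Subgroup.closure_le]
    rintro ⟨x, hx'⟩ hxX
    obtain ⟨w, hw, e⟩ := h x hxX
    have e2 : w⁻¹ * ⟨x, hx'⟩ ∈ commutator ↥(Subgroup.closure X) := by
      rw [← Abelianization.ker_of, MonoidHom.mem_ker, map_mul, map_inv]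
      have e3 : Abelianization.of w = Abelianization.of ⟨x, hx'⟩ := e
      rw [e3, inv_mul_cancel]
    have e4 : (⟨x, hx'⟩ : ↥(Subgroup.closure X)) = w * (w⁻¹ * ⟨x, hx'⟩) := by group
    rw [SetLike.mem_coe, e4]
    exact Subgroup.mul_mem _ (Subgroup.mem_sup_left hw) (Subgroup.mem_sup_right e2)
  have hW := eq_top_of_sup_commutatorD _ hS
  intro y hy
  have h1 : (⟨y, hy⟩ : ↥(Subgroup.closure X)) ∈ G1.subgroupOf (Subgroup.closure X) := by
    rw [hW]
    exact Subgroup.mem_top _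
  exact Subgroup.mem_subgroupOf.1 h1

section Generic

variable {F : Type*} [Field F] {D : ChevalleyDatum} {T : Tbl}

/-- The sign of the action of a word on a root element. -/
def wSg (T : Tbl) : List ℕ → ℕ → ℤ
  | [], _ => 1
  | i :: l, r => T.eps i (wperm T l r) * wSg T l r

namespace Tbl.Good2

variable (hG : T.Good2 D)
include hG

lemma nProd_conj_sg {l : List ℕ} (hl : ∀ i ∈ l, i < D.rank) {r : ℕ} (hr : r < D.nroots) (t : F) :
    hG.nProd l * hG.xU hr t * (hG.nProd l)⁻¹ = hG.xU (hG.wperm_lt hl hr) (((wSg T l r : ℤ) : F) * t) := by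
  induction l generalizing t with
  | nil => simp [wSg]
  | cons i l ih =>
    have hl' : ∀ j ∈ l, j < D.rank := fun j hj => hl j (List.mem_cons_of_mem _ hj)
    have hi := hl i (by simp)
    rw [nProd_cons, hG.nE_eq hi]
    have e2 : hG.nU hi * hG.nProd l * hG.xU hr t * (hG.nU hi * hG.nProd l)⁻¹ =
        hG.nU hi * (hG.nProd l * hG.xU hr t * (hG.nProd l)⁻¹) * (hG.nU hi)⁻¹ := by group
    rw [e2, ih hl', hG.nU_conj hi (hG.wperm_lt hl' hr)]
    simp only [wSg, Int.cast_mul, mul_assoc]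
    rfl

lemma nProd_conj_xN {l : List ℕ} (hl : ∀ i ∈ l, i < D.rank) {r : ℕ} (hr : r < D.nroots) (t : F) :
    hG.nProd l * hG.xN r t * (hG.nProd l)⁻¹ = hG.xN (wperm T l r) (((wSg T l r : ℤ) : F) * t) := by
  rw [hG.xN_of_lt hr, hG.xN_of_lt (hG.wperm_lt hl hr)]
  exact hG.nProd_conj_sg hl hr t

lemma nProd_mul_diag {l : List ℕ} (hl : ∀ i ∈ l, i < D.rank) (d : ℕ → F) :
    ((hG.nProd l : GL D.Idx F) : Matrix D.Idx D.Idx F) * diagM D F d =
      diagM D F (fun s => d (wperm T l.reverse s)) * ((hG.nProd l : GL D.Idx F) : Matrix D.Idx D.Idx F) := by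
  induction l generalizing d with
  | nil => simp
  | cons i l ih =>
    have hl' : ∀ j ∈ l, j < D.rank := fun j hj => hl j (List.mem_cons_of_mem _ hj)
    have hi := hl i (by simp)
    rw [nProd_cons, hG.nE_eq hi, Units.val_mul, mul_assoc, ih hl', ← mul_assoc, ← mul_assoc]
    have e := hG.toGood.n_mul_diag (F := F) hi (fun s => d (wperm T l.reverse s))
    rw [show ((hG.nU hi : GL D.Idx F) : Matrix D.Idx D.Idx F) = D.nMat F (D.simple i) 1 from rfl, e]
    congr 2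
    funext s
    simp only [List.reverse_cons, wperm, List.foldr_append, List.foldr_cons, List.foldr_nil]

omit hG in
lemma isChar_list (l : List ℕ) (c : ℕ → F) (hl : ∀ i ∈ l, i < D.rank) (hc : ∀ i, i < D.rank → c i ≠ 0)
    (hG : T.Good2 D) : IsChar D (fun s => (l.map fun i => c i ^ D.cartan i s).prod) := by
  induction l with
  | nil =>
    constructor
    · intro r _
      simp
    · intro r s _ _ q _
      simp
  | cons i l ih =>
    have hi := hl i (by simp)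
    simp only [List.map_cons, List.prod_cons]
    exact (isChar_zpow (hG.addF_cart hi) (hc i hi)).mulC (ih fun j hj => hl j (List.mem_cons_of_mem _ hj))

end Tbl.Good2

end Generic

section D4

variable {K : Type*} [Field K] [Fintype K]

/-- The longest word. -/
def l0D4 : List ℕ := [1, 0, 2, 3, 1, 0, 2, 3, 1, 0, 2, 3]

lemma l0D4_lt : ∀ i ∈ l0D4, i < chevD4.rank := by decide +kernel

lemma l0D4_neg : ∀ r, r < chevD4.nroots → wperm digD4.tbl l0D4.reverse r = chevD4.neg r := by decide +kernel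

lemma l0D4_neg' : ∀ r, r < chevD4.nroots → wperm digD4.tbl l0D4 r = chevD4.neg r := by decide +kernel

lemma l0D4_sg : wSg digD4.tbl l0D4 d4p3 = wSg digD4.tbl l0D4 d4p1 ∧ wSg digD4.tbl l0D4 d4p4 = wSg digD4.tbl l0D4 d4p1 ∧
    (wSg digD4.tbl l0D4 d4p1 = 1 ∨ wSg digD4.tbl l0D4 d4p1 = -1) ∧ (wSg digD4.tbl l0D4 d4p2 = 1 ∨ wSg digD4.tbl l0D4 d4p2 = -1) := by
  decide +kernel

/-- The words of the short simple orbit. -/
noncomputable abbrev xaD (φ : K ≃+* K) (t : K) : GL chevD4.Idx K := good3D4.toGood2.gW (wordR φ ((orbD4.wJ 1).map chevD4.simple) t)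

/-- The long simple root element. -/
noncomputable abbrev xbD (φ : K ≃+* K) (t : K) : GL chevD4.Idx K := good3D4.toGood2.gW (wordR φ ((orbD4.wJ 0).map chevD4.simple) t)

/-- The longest element. -/
noncomputable abbrev n0D (K : Type*) [Field K] : GL chevD4.Idx K := good3D4.toGood2.nProd l0D4

omit [Fintype K] in
lemma xaD_eq (φ : K ≃+* K) (t : K) : xaD φ t = good3D4.toGood2.xN d4p1 t * (good3D4.toGood2.xN d4p3 (φ t) * good3D4.toGood2.xN d4p4 (φ (φ t))) := by
  show good3D4.toGood2.gW [(d4p1, t), (d4p3, φ t), (d4p4, φ (φ t))] = _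
  simp only [Tbl.Good2.gW_cons, Tbl.Good2.gW_nil, mul_one]

omit [Fintype K] in
lemma xbD_eq (φ : K ≃+* K) (t : K) : xbD φ t = good3D4.toGood2.xN d4p2 t := by
  show good3D4.toGood2.gW [(d4p2, t)] = _
  simp only [Tbl.Good2.gW_cons, Tbl.Good2.gW_nil, mul_one]

omit [Fintype K] in
lemma xaD_add (φ : K ≃+* K) (a b : K) : xaD φ a * xaD φ b = xaD φ (a + b) :=
  gW_wordR_mul good3D4.toGood2 φ (fun r hr => by
    obtain ⟨i, hi, rfl⟩ := List.mem_map.1 hr
    exact good3D4.toGood2.simple_lt (orbD4.wJ_lt 1 (show 1 < 2 by decide) i hi)) ((stD4 φ).pw (j := 1) (show 1 < 2 by decide)) a b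

omit [Fintype K] in
lemma xbD_add (φ : K ≃+* K) (a b : K) : xbD φ a * xbD φ b = xbD φ (a + b) :=
  gW_wordR_mul good3D4.toGood2 φ (fun r hr => by
    obtain ⟨i, hi, rfl⟩ := List.mem_map.1 hr
    exact good3D4.toGood2.simple_lt (orbD4.wJ_lt 0 (show 0 < 2 by decide) i hi)) ((stD4 φ).pw (j := 0) (show 0 < 2 by decide)) a b

omit [Fintype K] in
lemma xaD_zero (φ : K ≃+* K) : xaD φ 0 = 1 := by
  rw [xaD_eq]
  simp [Tbl.Good2.xN_zero]

omit [Fintype K] in
lemma xbD_zero (φ : K ≃+* K) : xbD φ 0 = 1 := by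
  rw [xbD_eq, Tbl.Good2.xN_zero]

omit [Fintype K] in
lemma xaD_mem_U (φ : K ≃+* K) (t : K) : xaD φ t ∈ chevD4.posUnipotent K := by
  rw [xaD_eq, Tbl.Good2.xN_of_lt good3D4.toGood2 (by decide), Tbl.Good2.xN_of_lt good3D4.toGood2 (by decide), Tbl.Good2.xN_of_lt good3D4.toGood2 (by decide)]
  exact Subgroup.mul_mem _ (good3D4.toGood2.xU_mem_U _ (by decide) _)
    (Subgroup.mul_mem _ (good3D4.toGood2.xU_mem_U _ (by decide) _) (good3D4.toGood2.xU_mem_U _ (by decide) _))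

omit [Fintype K] in
lemma xbD_mem_U (φ : K ≃+* K) (t : K) : xbD φ t ∈ chevD4.posUnipotent K := by
  rw [xbD_eq, Tbl.Good2.xN_of_lt good3D4.toGood2 (by decide)]
  exact good3D4.toGood2.xU_mem_U _ (by decide) _

omit [Fintype K] in
lemma n0D_fix (φ : K ≃+* K) : n0D K ∈ (twD4 φ).fix := by
  have hj : ∀ j, j < 2 → good3D4.toGood2.nProd (F := K) (orbD4.wJ j) ∈ (twD4 φ).fix := by
    intro j hj
    rw [(stD4 φ).nProd_trip hj]
    exact Subgroup.mul_mem _ (Subgroup.mul_mem _ ((stD4 φ).word_fix hj (iter_one φ _)) ((stD4 φ).nword_fix hj (iter_neg_one φ _)))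
      ((stD4 φ).word_fix hj (iter_one φ _))
  have e : l0D4 = orbD4.wJ 0 ++ (orbD4.wJ 1 ++ (orbD4.wJ 0 ++ (orbD4.wJ 1 ++ (orbD4.wJ 0 ++ orbD4.wJ 1)))) := rfl
  rw [n0D, e]
  simp only [Tbl.Good2.nProd_append]
  have h0 := hj 0 (by decide)
  have h1 := hj 1 (by decide)
  exact Subgroup.mul_mem _ h0 (Subgroup.mul_mem _ h1 (Subgroup.mul_mem _ h0 (Subgroup.mul_mem _ h1 (Subgroup.mul_mem _ h0 h1))))

/-- Elements of `H` with prescribed values on the simple roots. -/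
theorem exists_zD4 (φ : K ≃+* K) (hφ : ∀ x, φ (φ (φ x)) = x) (s l : Kˣ) (hl : φ (l : K) = l) :
    ∃ z ∈ chevD4.diagonalSubgroup K ⊓ (twD4 φ).fix, ∃ χ : ℕ → K, IsChar chevD4 χ ∧ (z : Matrix chevD4.Idx chevD4.Idx K) = diagM chevD4 K χ ∧
      χ d4p1 = s ∧ χ d4p3 = φ s ∧ χ d4p4 = φ (φ s) ∧ χ d4p2 = l := by
  classical
  set A := cartA digD4.tbl chevD4.rank with hA
  have hact : ∀ c : Fin chevD4.rank → Kˣ, c ∈ tFix φ rhofD4 → actZ A c ∈ tFix φ rhofD4 := by
    intro c hc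
    have hc' : tSig φ rhofD4 c = c := hc
    show tSig φ rhofD4 (actZ A c) = actZ A c
    funext i
    obtain ⟨j, rfl⟩ := rhofD4.surjective i
    have h1 := actZ_tSig φ rhofD4 hcartD4 c j
    rw [hc'] at h1
    rw [tSig_apply]
    exact h1.symm
  let f : ↥(tFix φ rhofD4) → ↥(tFix φ rhofD4) := fun c => ⟨actZ A c.1, hact c.1 c.2⟩
  have hinj : Function.Injective f := by
    intro a b hab
    have h1 : actZ A a.1 = actZ A b.1 := congrArg Subtype.val hab
    have h2 : a.1 * b.1⁻¹ ∈ tFix φ rhofD4 ⊓ (actZHom A).ker := by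
      refine ⟨Subgroup.mul_mem _ a.2 (Subgroup.inv_mem _ b.2), ?_⟩
      show actZHom A (a.1 * b.1⁻¹) = 1
      rw [map_mul, map_inv]
      show actZ A a.1 * (actZ A b.1)⁻¹ = 1
      rw [h1, mul_inv_cancel]
    rw [tKerD4, Subgroup.mem_bot] at h2
    exact Subtype.ext (mul_inv_eq_one.1 h2)
  have hsurj := Finite.injective_iff_surjective.1 hinj
  let τ : Fin chevD4.rank → Kˣ := fun i => (![s, l, Units.map (φ : K →* K) s, Units.map (φ : K →* K) (Units.map (φ : K →* K) s)] : Fin 4 → Kˣ) i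
  have hτ : τ ∈ tFix φ rhofD4 := by
    show tSig φ rhofD4 τ = τ
    funext i
    obtain ⟨j, rfl⟩ := rhofD4.surjective i
    rw [tSig_apply]
    apply Units.ext
    rw [Units.coe_map]
    obtain ⟨j, hj'⟩ := j
    have hj : j < 4 := hj'
    interval_cases j
    · rfl
    · exact hl
    · rfl
    · exact hφ _

  obtain ⟨⟨c, hc⟩, hcτ⟩ := hsurj ⟨τ, hτ⟩
  have hcτ' : actZ A c = τ := congrArg Subtype.val hcτ
  have hc' : tSig φ rhofD4 c = c := hc
  have hG := good3D4.toGood2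
  have hc0 := StOrb.cN_ne (D := chevD4) (F := K) c
  have hcρ := StOrb.cN_rho (D := chevD4) (F := K) (φ := φ) (ρ := rhoD4) rhofD4 (fun _ => rfl) hc'
  obtain ⟨z, hz, e⟩ := (stD4 φ).exists_H_fix hpartD4 (StOrb.cN c) hc0 hcρ
  have hval : ∀ j : Fin chevD4.rank, ((List.range chevD4.rank).map fun i => StOrb.cN (D := chevD4) (F := K) c i ^ chevD4.cartan i (digD4.tbl.simple j.val)).prod = (τ j : K) := by
    intro j
    have hs : digD4.tbl.simple j.val < chevD4.nroots := by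
      rw [hG.correct.simple_eq j.val j.2]
      exact hG.simple_lt j.2
    rw [StOrb.cN_prod hG c hs, ← hcτ']
    rfl
  refine ⟨z, hz, _, Tbl.Good2.isChar_list _ _ (fun i hi => List.mem_range.1 hi) hc0 hG, e, ?_, ?_, ?_, ?_⟩
  · exact hval ⟨0, by decide⟩
  · exact hval ⟨2, by decide⟩
  · exact hval ⟨3, by decide⟩
  · exact hval ⟨1, by decide⟩

omit [Fintype K] in
lemma conj_xbD (φ : K ≃+* K) {z : GL chevD4.Idx K} {χ : ℕ → K} (hχ : IsChar chevD4 χ)
    (hzM : (z : Matrix chevD4.Idx chevD4.Idx K) = diagM chevD4 K χ) (m : K) :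
    z * xbD φ m * z⁻¹ = xbD φ (χ d4p2 * m) := by
  rw [xbD_eq, xbD_eq, Tbl.Good2.xN_of_lt good3D4.toGood2 (show d4p2 < chevD4.nroots by decide),
    Tbl.Good2.xN_of_lt good3D4.toGood2 (show d4p2 < chevD4.nroots by decide)]
  exact Tbl.Good2.reg_conj good3D4.toGood2 hχ hzM _ m

omit [Fintype K] in
lemma n0D_conj_b (φ : K ≃+* K) (t : K) (ht : φ t = t) :
    ∃ u, φ u = u ∧ n0D K * xbD φ u * (n0D K)⁻¹ = good3D4.toGood2.gW [(d4m2, t)] := by
  obtain ⟨-, -, -, h2⟩ := l0D4_sg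
  have hp : wperm digD4.tbl l0D4 d4p2 = d4m2 := by decide +kernel
  set ε : K := ((wSg digD4.tbl l0D4 d4p2 : ℤ) : K) with hε
  have hε2 : ε * ε = 1 := by
    rcases h2 with h | h <;> simp [hε, h]
  have hφε : φ ε = ε := map_intCast φ _
  refine ⟨ε * t, by rw [map_mul, hφε, ht], ?_⟩
  rw [xbD_eq]
  have e := good3D4.toGood2.nProd_conj_xN l0D4_lt (show d4p2 < chevD4.nroots by decide) (ε * t)
  rw [hp, ← hε, ← mul_assoc, hε2, one_mul] at e
  show good3D4.toGood2.nProd l0D4 * _ * _ = _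
  rw [e]
  simp only [Tbl.Good2.gW_cons, Tbl.Good2.gW_nil, mul_one]

omit [Fintype K] in
lemma n0D_conj_a (φ : K ≃+* K) (t : K) :
    ∃ u, n0D K * xaD φ u * (n0D K)⁻¹ = good3D4.toGood2.gW [(d4m1, t), (d4m3, φ t), (d4m4, φ (φ t))] := by
  obtain ⟨h3, h4, h1, -⟩ := l0D4_sg
  have hp1 : wperm digD4.tbl l0D4 d4p1 = d4m1 := by decide +kernel
  have hp3 : wperm digD4.tbl l0D4 d4p3 = d4m3 := by decide +kernel
  have hp4 : wperm digD4.tbl l0D4 d4p4 = d4m4 := by decide +kernel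
  set ε : K := ((wSg digD4.tbl l0D4 d4p1 : ℤ) : K) with hε
  have hε2 : ε * ε = 1 := by
    rcases h1 with h | h <;> simp [hε, h]
  have hφε : φ ε = ε := map_intCast φ _
  refine ⟨ε * t, ?_⟩
  rw [xaD_eq]
  have e1 := good3D4.toGood2.nProd_conj_xN l0D4_lt (show d4p1 < chevD4.nroots by decide) (ε * t)
  have e3 := good3D4.toGood2.nProd_conj_xN l0D4_lt (show d4p3 < chevD4.nroots by decide) (φ (ε * t))
  have e4 := good3D4.toGood2.nProd_conj_xN l0D4_lt (show d4p4 < chevD4.nroots by decide) (φ (φ (ε * t)))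
  rw [hp1, ← hε, ← mul_assoc, hε2, one_mul] at e1
  rw [hp3, h3, ← hε, map_mul, hφε, ← mul_assoc, hε2, one_mul] at e3
  rw [hp4, h4, ← hε, map_mul, map_mul, hφε, hφε, ← mul_assoc, hε2, one_mul] at e4
  show good3D4.toGood2.nProd (F := K) l0D4 * _ * (good3D4.toGood2.nProd (F := K) l0D4)⁻¹ = _
  simp only [Tbl.Good2.gW_cons, Tbl.Good2.gW_nil, mul_one]
  rw [← e1, ← e3, ← e4]
  have e5 : φ (ε * t) = ε * φ t := by rw [map_mul, hφε]
  have e6 : φ (φ (ε * t)) = ε * φ (φ t) := by rw [e5, map_mul, hφε]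
  rw [e6, e5]
  generalize good3D4.toGood2.nProd (F := K) l0D4 = n
  group

/-- The core of the generation argument. -/
theorem two_gen_coreD4 (φ : K ≃+* K) (hφ : ∀ x, φ (φ (φ x)) = x) (s l : Kˣ) (hl : φ (l : K) = l)
    (hs : ∀ u : Kˣ, ∃ i : ℕ, u = s ^ i) {q' : ℕ} (hlq : l ^ q' = 1) (hsq : s ^ q' ≠ 1) (hs1 : s ≠ 1)
    {z : GL chevD4.Idx K} {χ : ℕ → K} (hχ : IsChar chevD4 χ)
    (hzM : (z : Matrix chevD4.Idx chevD4.Idx K) = diagM chevD4 K χ)
    (h1 : χ d4p1 = s) (h3 : χ d4p3 = φ s) (h4 : χ d4p4 = φ (φ s)) (h2 : χ d4p2 = l)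
    {G1 : Subgroup (GL chevD4.Idx K)} (hz : z ∈ G1) (hy : xaD φ 1 * xbD φ 1 * n0D K ∈ G1)
    (hb : ∀ m : K, φ m = m → m ≠ 0 → (∃ i : ℕ, m = (1 - (l : K)⁻¹) * (l : K) ^ i) ∨ xbD φ m ∈ G1) :
    (twD4 φ).fix ≤ G1 := by
  classical
  have hG := good3D4.toGood2
  have hs0 : (s : K) ≠ 0 := s.ne_zero
  have hl0 : (l : K) ≠ 0 := l.ne_zero
  have hzx : ∀ {r : ℕ} (_ : r < chevD4.nroots) (t : K), z * hG.xN r t * z⁻¹ = hG.xN r (χ r * t) := by
    intro r hr t
    rw [hG.xN_of_lt hr, hG.xN_of_lt hr]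
    exact hG.reg_conj hχ hzM hr t
  have hza : ∀ t, z * xaD φ t * z⁻¹ = xaD φ (s * t) := by
    intro t
    rw [xaD_eq, xaD_eq]
    generalize hA : hG.xN d4p1 t = A
    generalize hB : hG.xN d4p3 (φ t) = B
    generalize hC : hG.xN d4p4 (φ (φ t)) = C
    have e : z * (A * (B * C)) * z⁻¹ = (z * A * z⁻¹) * ((z * B * z⁻¹) * (z * C * z⁻¹)) := by group
    rw [e, ← hA, ← hB, ← hC, hzx (by decide), hzx (by decide), hzx (by decide), h1, h3, h4, map_mul, map_mul]
  have hzb : ∀ m, z * xbD φ m * z⁻¹ = xbD φ (l * m) := by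
    intro m
    rw [xbD_eq, xbD_eq, hzx (by decide), h2]
  have hzai : ∀ t, z⁻¹ * xaD φ t * z = xaD φ ((s : K)⁻¹ * t) := by
    intro t
    have e := hza ((s : K)⁻¹ * t)
    rw [mul_inv_cancel_left₀ hs0] at e
    rw [← e]
    group
  have hzbi : ∀ m, z⁻¹ * xbD φ m * z = xbD φ ((l : K)⁻¹ * m) := by
    intro m
    have e := hzb ((l : K)⁻¹ * m)
    rw [mul_inv_cancel_left₀ hl0] at e
    rw [← e]
    group
  -- the long element inverts `z`
  have hn0 : n0D K * z * (n0D K)⁻¹ = z⁻¹ := by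
    have e : z * (n0D K * z) = n0D K := by
      apply Units.ext
      rw [Units.val_mul, Units.val_mul, hzM, hG.nProd_mul_diag l0D4_lt χ, ← mul_assoc, diagM_mul]
      have e2 : diagM chevD4 K (fun s => χ s * χ (wperm digD4.tbl l0D4.reverse s)) = 1 := by
        rw [← diagM_one]
        refine Tbl.Good2.diagM_congr fun s hs => ?_
        rw [l0D4_neg s hs, mul_comm]
        exact hχ.neg s hs
      rw [e2, one_mul]
    apply eq_inv_of_mul_eq_one_right
    calc z * (n0D K * z * (n0D K)⁻¹) = z * (n0D K * z) * (n0D K)⁻¹ := by group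
      _ = 1 := by rw [e, mul_inv_cancel]
  -- the element of `U` obtained from the generators
  let w : K → K → GL chevD4.Idx K := fun t m => xaD φ t * xbD φ m * xbD φ (-((l : K)⁻¹ * m)) * xaD φ (-((s : K)⁻¹ * t))
  have hinva : ∀ t, (xaD φ t)⁻¹ = xaD φ (-t) := fun t => inv_eq_of_mul_eq_one_right (by rw [xaD_add, add_neg_cancel, xaD_zero])
  have hinvb : ∀ t, (xbD φ t)⁻¹ = xbD φ (-t) := fun t => inv_eq_of_mul_eq_one_right (by rw [xbD_add, add_neg_cancel, xbD_zero])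
  have hw0 : w 1 1 = (xaD φ 1 * xbD φ 1 * n0D K) * z * (xaD φ 1 * xbD φ 1 * n0D K)⁻¹ * z := by
    have e : (xaD φ 1 * xbD φ 1 * n0D K) * z * (xaD φ 1 * xbD φ 1 * n0D K)⁻¹ * z =
        xaD φ 1 * xbD φ 1 * (n0D K * z * (n0D K)⁻¹) * ((xbD φ 1)⁻¹ * (xaD φ 1)⁻¹) * z := by group
    rw [e, hn0, hinva, hinvb]
    have e2 : xaD φ 1 * xbD φ 1 * z⁻¹ * (xbD φ (-1) * xaD φ (-1)) * z =
        xaD φ 1 * xbD φ 1 * (z⁻¹ * xbD φ (-1) * z) * (z⁻¹ * xaD φ (-1) * z) := by group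
    rw [e2, hzbi, hzai]
    show xaD φ 1 * xbD φ 1 * xbD φ (-((l : K)⁻¹ * 1)) * xaD φ (-((s : K)⁻¹ * 1)) = _
    rw [mul_neg, mul_neg]
  have hwc : ∀ t m, z * w t m * z⁻¹ = w (s * t) (l * m) := by
    intro t m
    have e : z * w t m * z⁻¹ = (z * xaD φ t * z⁻¹) * (z * xbD φ m * z⁻¹) * (z * xbD φ (-((l : K)⁻¹ * m)) * z⁻¹) *
        (z * xaD φ (-((s : K)⁻¹ * t)) * z⁻¹) := by
      show z * (xaD φ t * xbD φ m * xbD φ (-((l : K)⁻¹ * m)) * xaD φ (-((s : K)⁻¹ * t))) * z⁻¹ = _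
      group
    rw [e, hza, hzb, hzb, hza]
    show _ = xaD φ (s * t) * xbD φ (l * m) * xbD φ (-((l : K)⁻¹ * (l * m))) * xaD φ (-((s : K)⁻¹ * (s * t)))
    congr 3
    · congr 1
      field_simp
    · congr 1
      field_simp
  have hw : ∀ i : ℕ, w ((s : K) ^ i) ((l : K) ^ i) ∈ G1 := by
    intro i
    induction i with
    | zero =>
      rw [pow_zero, pow_zero, hw0]
      exact Subgroup.mul_mem _ (Subgroup.mul_mem _ (Subgroup.mul_mem _ hy hz) (Subgroup.inv_mem _ hy)) hz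
    | succ i ih =>
      rw [pow_succ', pow_succ', ← hwc]
      exact Subgroup.mul_mem _ (Subgroup.mul_mem _ hz ih) (Subgroup.inv_mem _ hz)
  -- the generators of the unipotent part
  let X : Set (GL chevD4.Idx K) := Set.range (xaD φ) ∪ {g | ∃ m, φ m = m ∧ g = xbD φ m}
  have hXU : Subgroup.closure X ≤ chevD4.posUnipotent K := by
    refine (Subgroup.closure_le _).2 ?_
    rintro g (⟨t, rfl⟩ | ⟨m, _, rfl⟩)
    · exact xaD_mem_U φ t
    · exact xbD_mem_U φ m
  haveI : Finite ↥(Subgroup.closure X) := inferInstance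
  haveI : Group.IsNilpotent ↥(Subgroup.closure X) :=
    nilpotent_of_le_utFil Tbl.Good2.ordC_lt (le_trans hXU hG.posUnipotent_le)
  let xaU : K → ↥(Subgroup.closure X) := fun t => ⟨xaD φ t, Subgroup.subset_closure (Or.inl ⟨t, rfl⟩)⟩
  let xbU : (m : K) → φ m = m → ↥(Subgroup.closure X) := fun m hm => ⟨xbD φ m, Subgroup.subset_closure (Or.inr ⟨m, hm, rfl⟩)⟩
  set Wb := (G1.subgroupOf (Subgroup.closure X)).map (Abelianization.of) with hWb
  have hmemW : ∀ x : ↥(Subgroup.closure X), x.1 ∈ G1 → Abelianization.of x ∈ Wb := fun x hx => ⟨x, hx, rfl⟩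
  have hff : ∀ a b, Abelianization.of (xaU a) * Abelianization.of (xaU b) = Abelianization.of (xaU (a + b)) := by
    intro a b
    rw [← map_mul]
    exact congrArg _ (Subtype.ext (xaD_add φ a b))
  have hgg : ∀ a b (ha : φ a = a) (hb : φ b = b) (hab : φ (a + b) = a + b),
      Abelianization.of (xbU a ha) * Abelianization.of (xbU b hb) = Abelianization.of (xbU (a + b) hab) := by
    intro a b ha hb hab
    rw [← map_mul]
    exact congrArg _ (Subtype.ext (xbD_add φ a b))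
  have hlinv : φ ((l : K)⁻¹) = (l : K)⁻¹ := by rw [map_inv₀, hl]
  have hfix1 : ∀ m, φ m = m → φ ((1 - (l : K)⁻¹) * m) = (1 - (l : K)⁻¹) * m := by
    intro m hm
    rw [map_mul, map_sub, map_one, hlinv, hm]
  have hfixl : ∀ i : ℕ, φ ((l : K) ^ i) = (l : K) ^ i := by
    intro i
    rw [map_pow, hl]
  have hff' : ∀ a b c, a + b = c → Abelianization.of (xaU a) * Abelianization.of (xaU b) = Abelianization.of (xaU c) := by
    rintro a b c rfl
    exact hff a b
  have hgg' : ∀ a b c (ha : φ a = a) (hb : φ b = b) (hc : φ c = c), a + b = c →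
      Abelianization.of (xbU a ha) * Abelianization.of (xbU b hb) = Abelianization.of (xbU c hc) := by
    rintro a b c ha hb hc rfl
    exact hgg a b ha hb hc
  have hP : ∀ i : ℕ, Abelianization.of (xaU ((1 - (s : K)⁻¹) * (s : K) ^ i)) *
      Abelianization.of (xbU ((1 - (l : K)⁻¹) * (l : K) ^ i) (hfix1 _ (hfixl i))) ∈ Wb := by
    intro i
    have hm := hfixl i
    have hm2 : φ (-((l : K)⁻¹ * (l : K) ^ i)) = -((l : K)⁻¹ * (l : K) ^ i) := by
      rw [map_neg, map_mul, hlinv, hm]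
    have h5 : Abelianization.of (xaU ((s : K) ^ i) * xbU _ hm * xbU _ hm2 * xaU (-((s : K)⁻¹ * (s : K) ^ i))) ∈ Wb :=
      hmemW (xaU ((s : K) ^ i) * xbU _ hm * xbU _ hm2 * xaU (-((s : K)⁻¹ * (s : K) ^ i))) (hw i)
    rw [map_mul, map_mul, map_mul] at h5
    have e7 := hff' ((s : K) ^ i) (-((s : K)⁻¹ * (s : K) ^ i)) ((1 - (s : K)⁻¹) * (s : K) ^ i) (by ring)
    have e8 := hgg' _ _ ((1 - (l : K)⁻¹) * (l : K) ^ i) hm hm2 (hfix1 _ (hfixl i)) (by ring)
    rw [← e7, ← e8]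
    have e9 : ∀ A B C D : Abelianization ↥(Subgroup.closure X), A * B * C * D = A * D * (B * C) := by
      intro A B C D
      rw [mul_assoc A B C, mul_comm (A * (B * C)) D, ← mul_assoc, mul_comm D A]
    rw [← e9]
    exact h5
  -- the first family lies in the image
  have hinvA : ∀ a, (Abelianization.of (xaU a))⁻¹ = Abelianization.of (xaU (-a)) := by
    intro a
    apply inv_eq_of_mul_eq_one_right
    rw [hff' a (-a) 0 (by ring)]
    have : xaU 0 = 1 := Subtype.ext (xaD_zero φ)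
    rw [this, map_one]
  have hv0 : (1 - (s : K)⁻¹) * ((s : K) ^ q' - 1) ≠ 0 := by
    refine mul_ne_zero ?_ ?_
    · intro h
      have h' : (s : K)⁻¹ = 1 := (sub_eq_zero.1 h).symm
      exact hs1 (Units.ext (by simpa using inv_eq_one.1 h'))
    · intro h
      exact hsq (Units.ext (by simpa using sub_eq_zero.1 h))
  have hV : ∀ i : ℕ, Abelianization.of (xaU ((1 - (s : K)⁻¹) * ((s : K) ^ q' - 1) * (s : K) ^ i)) ∈ Wb := by
    intro i
    have h1' := hP (i + q')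
    have h2' := hP i
    have e1 : xbU ((1 - (l : K)⁻¹) * (l : K) ^ (i + q')) (hfix1 _ (hfixl (i + q'))) =
        xbU ((1 - (l : K)⁻¹) * (l : K) ^ i) (hfix1 _ (hfixl i)) := by
      apply Subtype.ext
      show xbD φ _ = xbD φ _
      congr 2
      have : (l : K) ^ q' = 1 := by
        have := congrArg Units.val hlq
        simpa using this
      rw [pow_add, this, mul_one]
    rw [e1] at h1'
    have h3' := Subgroup.mul_mem _ h1' (Subgroup.inv_mem _ h2')
    rw [mul_inv_rev, mul_comm _ (Abelianization.of (xaU ((1 - (s : K)⁻¹) * (s : K) ^ i)))⁻¹] at h3'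
    have e2 : ∀ A B C : Abelianization ↥(Subgroup.closure X), A * B * (C⁻¹ * B⁻¹) = A * C⁻¹ := by
      intro A B C
      rw [mul_comm C⁻¹ B⁻¹, mul_assoc, ← mul_assoc B, mul_inv_cancel, one_mul]
    rw [e2, hinvA, hff' _ _ ((1 - (s : K)⁻¹) * ((s : K) ^ q' - 1) * (s : K) ^ i) (by ring)] at h3'
    exact h3'
  have hA : ∀ t, Abelianization.of (xaU t) ∈ Wb := by
    intro t
    by_cases ht : t = 0
    · subst ht
      have : xaU 0 = 1 := Subtype.ext (xaD_zero φ)
      rw [this, map_one]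
      exact Subgroup.one_mem _
    · obtain ⟨i, hi⟩ := hs (Units.mk0 (t / ((1 - (s : K)⁻¹) * ((s : K) ^ q' - 1))) (div_ne_zero ht hv0))
      have hi' : t / ((1 - (s : K)⁻¹) * ((s : K) ^ q' - 1)) = (s : K) ^ i := by
        have := congrArg Units.val hi
        simpa using this
      have e3 : t = (1 - (s : K)⁻¹) * ((s : K) ^ q' - 1) * (s : K) ^ i := by
        rw [← hi', mul_comm]
        exact (div_mul_cancel₀ t hv0).symm
      rw [e3]
      exact hV i
  have hBl : ∀ i : ℕ, Abelianization.of (xbU ((1 - (l : K)⁻¹) * (l : K) ^ i) (hfix1 _ (hfixl i))) ∈ Wb :=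
    fun i => (Subgroup.mul_mem_cancel_left _ (hA _)).1 (hP i)
  have hBall : ∀ m (hm : φ m = m), Abelianization.of (xbU m hm) ∈ Wb := by
    intro m hm
    by_cases hm0 : m = 0
    · subst hm0
      have : xbU 0 hm = 1 := Subtype.ext (xbD_zero φ)
      rw [this, map_one]
      exact Subgroup.one_mem _
    · rcases hb m hm hm0 with ⟨i, hi⟩ | h
      · subst hi
        exact hBl i
      · exact hmemW (xbU m hm) h
  have hX : Subgroup.closure X ≤ G1 := closure_le_of_abel X G1 (by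
    rintro x (⟨t, rfl⟩ | ⟨m, hm, rfl⟩)
    · exact hA t
    · exact hBall m hm)
  have hxa : ∀ t, xaD φ t ∈ G1 := fun t => hX (xaU t).2
  have hxb : ∀ m, φ m = m → xbD φ m ∈ G1 := fun m hm => hX (xbU m hm).2
  have hn0G : n0D K ∈ G1 := by
    have e : n0D K = (xaD φ 1 * xbD φ 1)⁻¹ * (xaD φ 1 * xbD φ 1 * n0D K) := by group
    rw [e]
    exact Subgroup.mul_mem _ (Subgroup.inv_mem _ (Subgroup.mul_mem _ (hxa 1) (hxb 1 (map_one φ)))) hy
  refine (stD4 φ).fix_le_words (hGenD4 φ hφ) chainD4 ?_ ?_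
  · intro j hj t ht
    have hj' : j < 2 := hj
    interval_cases j
    · exact hxb t ht
    · exact hxa t
  · intro j hj t ht
    have hj' : j < 2 := hj
    interval_cases j
    · have ht' : φ t = t := ht
      obtain ⟨u, hu, e⟩ := n0D_conj_b φ t ht'
      show good3D4.toGood2.gW [(d4m2, t)] ∈ G1
      rw [← e]
      exact Subgroup.mul_mem _ (Subgroup.mul_mem _ hn0G (hxb u hu)) (Subgroup.inv_mem _ hn0G)
    · obtain ⟨u, e⟩ := n0D_conj_a φ t
      show good3D4.toGood2.gW [(d4m1, t), (d4m3, φ t), (d4m4, φ (φ t))] ∈ G1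
      rw [← e]
      exact Subgroup.mul_mem _ (Subgroup.mul_mem _ hn0G (hxa u)) (Subgroup.inv_mem _ hn0G)

/-- Two elements generating a subgroup. -/
lemma top_of_twoD {Γ : Type*} [Group Γ] (S : Subgroup Γ) {a b : Γ} (ha : a ∈ S) (hb : b ∈ S)
    (h : ∀ G1 : Subgroup Γ, a ∈ G1 → b ∈ G1 → S ≤ G1) : ∃ a b : ↥S, Subgroup.closure {a, b} = ⊤ := by
  refine ⟨⟨a, ha⟩, ⟨b, hb⟩, ?_⟩
  set C := Subgroup.closure ({⟨a, ha⟩, ⟨b, hb⟩} : Set ↥S) with hC
  have hfix := h (C.map S.subtype) ⟨⟨a, ha⟩, Subgroup.subset_closure (Or.inl rfl), rfl⟩ ⟨⟨b, hb⟩, Subgroup.subset_closure (Or.inr rfl), rfl⟩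
  rw [eq_top_iff]
  intro g _
  obtain ⟨c, hc, e⟩ := hfix g.2
  have : c = g := Subtype.ext e
  rwa [← this]

/-- ³D₄(q) is generated by two elements. -/
theorem two_genD4 {q : ℕ} (hq1 : 1 < q) (hK : Fintype.card K = q ^ 3) :
    ∃ a b : ↥(twistedD4 K q), Subgroup.closure {a, b} = ⊤ := by
  classical
  obtain ⟨φ, hq, hφ, e, -⟩ := setupD4 hK
  rw [e]
  obtain ⟨s, hs⟩ := IsCyclic.exists_generator (α := Kˣ)
  have hord : orderOf s = q ^ 3 - 1 := by
    rw [orderOf_eq_card_of_forall_mem_zpowers hs, Nat.card_eq_fintype_card, Fintype.card_units, hK]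
  have hs' : ∀ u : Kˣ, ∃ i : ℕ, u = s ^ i := by
    intro u
    obtain ⟨i, hi⟩ := (mem_powers_iff_mem_zpowers).2 (hs u)
    exact ⟨i, hi.symm⟩
  obtain ⟨N, hN⟩ : ∃ N, N = q ^ 2 + q + 1 := ⟨_, rfl⟩
  have hq3 : N * (q - 1) = q ^ 3 - 1 := by
    obtain ⟨p, rfl⟩ : ∃ p, q = p + 1 := ⟨q - 1, by omega⟩
    subst hN
    simp only [Nat.add_sub_cancel]
    have : (p + 1) ^ 3 = ((p + 1) ^ 2 + (p + 1) + 1) * p + 1 := by ring
    omega
  have hq3' : N * q = (q ^ 3 - 1) + N := by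
    have e1 : N * q = N * (q - 1) + N := by
      rw [← Nat.mul_succ]
      congr 1
      omega
    rw [e1, hq3]
  have hsord : s ^ (q ^ 3 - 1) = 1 := by
    rw [← hord]
    exact pow_orderOf_eq_one s
  have hq31 : q - 1 < q ^ 3 - 1 := by
    have : q < q ^ 3 := lt_self_pow₀ hq1 (by norm_num)
    omega
  have hlq : (s ^ N) ^ (q - 1) = 1 := by rw [← pow_mul, hq3, hsord]
  have hlφ : φ ((s ^ N : Kˣ) : K) = ((s ^ N : Kˣ) : K) := by
    rw [hq]
    have h1 : (s ^ N) ^ q = s ^ N := by rw [← pow_mul, hq3', pow_add, hsord, one_mul]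
    have h2 := congrArg Units.val h1
    simpa using h2
  have hsq : s ^ (q - 1) ≠ 1 := pow_ne_one_of_lt_orderOf (by omega) (by rw [hord]; exact hq31)
  have hs1 : s ≠ 1 := by
    intro h
    apply hsq
    rw [h, one_pow]
  obtain ⟨z, hz, χ, hχ, hzM, h1, h3, h4, h2⟩ := exists_zD4 φ hφ s (s ^ N) hlφ
  have hyf : xaD φ 1 * xbD φ 1 * n0D K ∈ (twD4 φ).fix :=
    Subgroup.mul_mem _ (Subgroup.mul_mem _ ((stD4 φ).word_fix (j := 1) (show 1 < 2 by decide) (iter_one φ _))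
      ((stD4 φ).word_fix (j := 0) (show 0 < 2 by decide) (iter_one φ _))) (n0D_fix φ)
  by_cases hq2 : q = 2
  · subst hq2
    have hl1 : s ^ N = 1 := by simpa using hlq
    have hx : xbD φ 1 ∈ (twD4 φ).fix := (stD4 φ).word_fix (j := 0) (show 0 < 2 by decide) (iter_one φ _)
    have h2K : (2 : K) = 0 := by
      have h5 : φ (2 : K) = 2 := map_ofNat φ 2
      rw [hq] at h5
      have h6 : (2 : K) * ((2 : K) - 1) = 0 := by linear_combination h5
      rcases mul_eq_zero.1 h6 with h7 | h7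
      · exact h7
      · exfalso
        have h8 : (1 : K) = 0 := by linear_combination h7
        exact one_ne_zero h8
    have hz7 : z ^ 7 = 1 := by
      have h := pow_card_eq_one' (x := (⟨z, hz⟩ : ↥(chevD4.diagonalSubgroup K ⊓ (twD4 φ).fix)))
      rw [cardHD4 φ hq hφ hK, show (2 - 1) * (2 ^ 3 - 1) = 7 by norm_num] at h
      have h' := congrArg Subtype.val h
      simpa using h'
    have hχ2 : χ d4p2 = 1 := by rw [h2, hl1]; rfl
    have hzc : Commute z (xbD φ 1) := by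
      have e1 := conj_xbD φ hχ hzM 1
      rw [hχ2, one_mul] at e1
      exact mul_inv_eq_iff_eq_mul.1 e1
    have hxx : xbD φ 1 * xbD φ 1 = 1 := by
      rw [xbD_add, show (1 + 1 : K) = 0 by linear_combination h2K, xbD_zero]
    have hpow : (z * xbD φ 1) ^ 7 = xbD φ 1 := by
      rw [hzc.mul_pow, hz7, one_mul, show 7 = 2 * 3 + 1 from rfl, pow_succ, pow_mul, pow_two, hxx, one_pow, one_mul]
    refine top_of_twoD _ (Subgroup.mul_mem _ hz.2 hx) hyf ?_
    intro G1 ha hb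
    have hxG : xbD φ 1 ∈ G1 := by
      rw [← hpow]
      exact Subgroup.pow_mem _ ha _
    have hzG : z ∈ G1 := by
      have e1 : z = (z * xbD φ 1) * (xbD φ 1)⁻¹ := by group
      rw [e1]
      exact Subgroup.mul_mem _ ha (Subgroup.inv_mem _ hxG)
    refine two_gen_coreD4 φ hφ s (s ^ N) hlφ hs' hlq hsq hs1 hχ hzM h1 h3 h4 h2 hzG hb ?_
    intro m hm hm0
    right
    have h5 : m ^ 2 = m := by rw [← hq, hm]
    have h6 : m = 1 := by
      have h7 : m * (m - 1) = 0 := by linear_combination h5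
      rcases mul_eq_zero.1 h7 with h8 | h8
      · exact absurd h8 hm0
      · exact sub_eq_zero.1 h8
    rw [h6]
    exact hxG
  · have hq3l : 3 ≤ q := by omega
    have hNlt : N < q ^ 3 - 1 := by
      subst hN
      have : q ^ 3 = q * q ^ 2 := by ring
      have h6 : 3 * q ^ 2 ≤ q * q ^ 2 := Nat.mul_le_mul_right _ hq3l
      have h7 : 3 * q ≤ q ^ 2 := by nlinarith
      omega
    have hl1 : s ^ N ≠ 1 := pow_ne_one_of_lt_orderOf (by subst hN; positivity) (by rw [hord]; exact hNlt)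
    have hw : 1 - (((s ^ N : Kˣ) : K))⁻¹ ≠ 0 := by
      intro h
      have h' : (((s ^ N : Kˣ) : K))⁻¹ = 1 := (sub_eq_zero.1 h).symm
      exact hl1 (Units.ext (by simpa using inv_eq_one.1 h'))
    have hφw : φ (1 - (((s ^ N : Kˣ) : K))⁻¹) = 1 - (((s ^ N : Kˣ) : K))⁻¹ := by
      rw [map_sub, map_one, map_inv₀, hlφ]
    refine top_of_twoD _ hz.2 hyf ?_
    intro G1 ha hb
    refine two_gen_coreD4 φ hφ s (s ^ N) hlφ hs' hlq hsq hs1 hχ hzM h1 h3 h4 h2 ha hb ?_
    intro m hm hm0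
    left
    obtain ⟨j, hj⟩ := hs' (Units.mk0 (m / (1 - (((s ^ N : Kˣ) : K))⁻¹)) (div_ne_zero hm0 hw))
    have hj' : m / (1 - (((s ^ N : Kˣ) : K))⁻¹) = (s : K) ^ j := by
      have := congrArg Units.val hj
      simpa using this
    have hfx : φ (m / (1 - (((s ^ N : Kˣ) : K))⁻¹)) = m / (1 - (((s ^ N : Kˣ) : K))⁻¹) := by
      rw [map_div₀, hm, hφw]
    have h5 : (s ^ j) ^ q = s ^ j := by
      apply Units.ext
      push_cast
      rw [← hj', ← hq, hfx]
    have h6 : s ^ (j * (q - 1)) = 1 := by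
      rw [← pow_mul] at h5
      have e1 : j * q = j * (q - 1) + j := by
        rw [← Nat.mul_succ]
        congr 1
        omega
      rw [e1, pow_add] at h5
      exact mul_eq_right.1 h5
    have h7 := orderOf_dvd_of_pow_eq_one h6
    rw [hord, ← hq3] at h7
    have h8 : N ∣ j := Nat.dvd_of_mul_dvd_mul_right (by omega) h7
    obtain ⟨k, rfl⟩ := h8
    refine ⟨k, ?_⟩
    have e1 : m = (1 - (((s ^ N : Kˣ) : K))⁻¹) * (m / (1 - (((s ^ N : Kˣ) : K))⁻¹)) := by
      rw [mul_comm]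
      exact (div_mul_cancel₀ m hw).symm
    rw [hj', pow_mul] at e1
    rw [e1]
    simp

end D4

end Cfsg.Agent.Lib.Chev
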