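/-
The group ²F₄(q), `q = 2^(2m+1)`, `m ≥ 1`, is generated by two elements.
-/
import Cfsg.Agent.Lib.Coll.TwoF4b

set_option autoImplicit false
set_option maxRecDepth 100000

namespace Cfsg.Agent.Lib.Chev

open Cfsg.Lie Coll

section

variable {K : Type*} [Field K] [CharP K 2] {hperf : ∀ x : K, ∃ y : K, y ^ 2 = x} {φ : K ≃+* K}

/-- The long element inverts the fixed points of the diagonal subgroup. -/
lemma nLong_inv_H (z : ↥(chevF4.diagonalSubgroup K)) (hz : (z : GL chevF4.Idx K) ∈ (twF4 hperf φ).fix)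
    (hn : (nLongF4 : GL chevF4.Idx K) ∈ (twF4 hperf φ).fix) :
    nLongF4 * (z : GL chevF4.Idx K) * nLongF4⁻¹ = (z : GL chevF4.Idx K)⁻¹ := by
  have hH : good3F4.toGood2.nProd longF4 * (z : GL chevF4.Idx K) * (good3F4.toGood2.nProd longF4)⁻¹ ∈ chevF4.diagonalSubgroup K :=
    good3F4.toGood2.N_conj_H (good3F4.toGood2.nProd_mem_N longF4_lt) z.2
  have hf : good3F4.toGood2.nProd longF4 * (z : GL chevF4.Idx K) * (good3F4.toGood2.nProd longF4)⁻¹ ∈ (twF4 hperf φ).fix :=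
    Subgroup.mul_mem _ (Subgroup.mul_mem _ hn hz) (Subgroup.inv_mem _ hn)
  have eP : chP (⟨_, hH⟩ : ↥(chevF4.diagonalSubgroup K)) = chP z⁻¹ := by
    have e1 : wperm digF4.tbl longF4 14 = 33 := by decide +kernel
    have e2 := chi_conj_wperm longF4_lt (by decide) (by decide) e1 z hH
    have e3 := chi_neg' (r := 33) (r' := 14) (by decide) (by decide) (by decide +kernel) z
    rw [map_inv]
    exact e2.trans e3
  have eA : chA (⟨_, hH⟩ : ↥(chevF4.diagonalSubgroup K)) = chA z⁻¹ := by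
    have e1 : wperm digF4.tbl longF4 20 = 27 := by decide +kernel
    have e2 := chi_conj_wperm longF4_lt (by decide) (by decide) e1 z hH
    have e3 := chi_neg' (r := 27) (r' := 20) (by decide) (by decide) (by decide +kernel) z
    rw [map_inv]
    exact e2.trans e3
  have := eq_of_chi_F4 hperf φ (z := ⟨_, hH⟩) (z' := z⁻¹) hf (Subgroup.inv_mem _ hz) eP eA
  exact congrArg Subtype.val this

omit [CharP K 2] in
lemma trickF1 (h2K : (2 : K) = 0) (ρ a t1 : K) (ha1 : a + 1 ≠ 0) :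
    ρ * a * t1 + ρ * t1 + ρ * a / (a + 1) * t1 = ρ * ((a ^ 2 + a + 1) / (a + 1) * t1) := by
  field_simp
  linear_combination (a * ρ * t1) * h2K

omit [CharP K 2] in
lemma trickF2 (h2K : (2 : K) = 0) (ρ a : K) (hρ : ρ ≠ 0) (ha : a ≠ 0) (ha1 : a + 1 ≠ 0) :
    (ρ * a)⁻¹ * (1 + a) + ρ⁻¹ * (1 + a) + (ρ * a / (a + 1))⁻¹ * (1 + a) = 0 := by
  have e : (ρ * a)⁻¹ * (1 + a) + ρ⁻¹ * (1 + a) + (ρ * a / (a + 1))⁻¹ * (1 + a) = (1 + a) * (1 + a) * 2 / (ρ * a) := by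
    rw [inv_div]
    field_simp
    ring
  rw [e, h2K]
  simp

/-- The core of the generation argument. -/
theorem two_gen_coreF4 (hφ : ∀ x, φ (φ (x ^ 2)) = x) [Finite K] (hcard : ∃ n : ℕ, Nat.card K = 2 ^ n)
    (s : Kˣ) (hs : ∀ u : Kˣ, u ∈ Subgroup.zpowers s) (hs1 : (s : K) ≠ 1) (hs3 : (s : K) ^ 2 + s + 1 ≠ 0)
    (z : ↥(chevF4.diagonalSubgroup K)) (hzf : (z : GL chevF4.Idx K) ∈ (twF4 hperf φ).fix)
    (hQ : chQ z = s) (hB : chB z = s⁻¹)
    {G1 : Subgroup (GL chevF4.Idx K)} (hG1 : G1 ≤ (twF4 hperf φ).fix) (h1 : (z : GL chevF4.Idx K) ∈ G1)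
    (h2 : parU φ 1 * suzU φ 1 0 * nLongF4 ∈ G1) : (twF4 hperf φ).fix ≤ G1 := by
  have hs0 : (s : K) ≠ 0 := s.ne_zero
  have h2K := two_eq_zero_K (K := K)
  have hn : (nLongF4 : GL chevF4.Idx K) ∈ (twF4 hperf φ).fix := nLongF4_fix hperf φ hφ
  have ht0 : φ (s : K) ≠ s := by
    intro h
    have h3 : φ (φ ((s : K) ^ 2)) = (s : K) ^ 2 := by
      rw [map_pow, map_pow, h, h]
    rw [hφ] at h3
    have h4 : (s : K) * ((s : K) - 1) = 0 := by linear_combination -h3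
    rcases mul_eq_zero.1 h4 with h5 | h5
    · exact hs0 h5
    · exact hs1 (sub_eq_zero.1 h5)
  have hPm := fun t => parU_mem_U hperf φ hφ t
  have hSm := fun t u => suzU_mem_U hperf φ hφ t u
  -- the additive maps
  have hP0 : tauUF hperf φ (parU φ (0 : K)) = 1 := by
    rw [parU_zero, tauUF_one]
  have hPadd : ∀ a b : K, tauUF hperf φ (parU φ (a + b)) = tauUF hperf φ (parU φ a) * tauUF hperf φ (parU φ b) := by
    intro a b
    rw [← tauUF_mul (hPm _) (hPm _), parU_mul comm_33_24]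
  have hSadd : ∀ a b : K, tauUF hperf φ (suzU φ (a + b) 0) = tauUF hperf φ (suzU φ a 0) * tauUF hperf φ (suzU φ b 0) := by
    intro a b
    simp only [suzU_eq_sLet]
    exact tau_add hφ (isS8 hφ) (tauS8z hφ ht0) a b
  have hS0 : tauUF hperf φ (suzU φ (0 : K) 0) = 1 := by
    rw [suzU_zero, tauUF_one]
  have hPinv : ∀ a : K, (tauUF hperf φ (parU φ a))⁻¹ = tauUF hperf φ (parU φ a) := by
    intro a
    rw [inv_eq_iff_mul_eq_one, ← hPadd, CharTwo.add_self_eq_zero, hP0]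
  have hSinv : ∀ a : K, (tauUF hperf φ (suzU φ a 0))⁻¹ = tauUF hperf φ (suzU φ a 0) := by
    intro a
    rw [inv_eq_iff_mul_eq_one, ← hSadd, CharTwo.add_self_eq_zero, hS0]
  -- the subgroup of the abelianization
  set W : Subgroup ↥(UF4 hperf φ) := G1.subgroupOf (UF4 hperf φ) with hW
  set M : Subgroup (Abelianization ↥(UF4 hperf φ)) := W.map Abelianization.of with hM
  have hMm : ∀ g (hg : g ∈ UF4 hperf φ), g ∈ G1 → tauUF hperf φ g ∈ M := by
    intro g hg hg1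
    rw [tauUF_of hg]
    exact ⟨⟨g, hg⟩, hg1, rfl⟩
  -- the conjugates of the element
  set x : GL chevF4.Idx K := parU φ 1 * suzU φ 1 0 with hx
  have hxU : x ∈ UF4 hperf φ := Subgroup.mul_mem _ (hPm _) (hSm _ _)
  have hzkf : ∀ k : ℤ, (((z ^ k : ↥(chevF4.diagonalSubgroup K))) : GL chevF4.Idx K) ∈ (twF4 hperf φ).fix := by
    intro k
    rw [Subgroup.coe_zpow]
    exact Subgroup.zpow_mem _ hzf k
  have hzkG : ∀ k : ℤ, (((z ^ k : ↥(chevF4.diagonalSubgroup K))) : GL chevF4.Idx K) ∈ G1 := by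
    intro k
    rw [Subgroup.coe_zpow]
    exact Subgroup.zpow_mem _ h1 k
  have hX : ∀ k : ℤ, (((z ^ k : ↥(chevF4.diagonalSubgroup K))) : GL chevF4.Idx K) * x * ((z ^ k : ↥(chevF4.diagonalSubgroup K)) : GL chevF4.Idx K)⁻¹ =
      parU φ ((s ^ k : Kˣ) : K) * suzU φ (((s ^ k)⁻¹ : Kˣ) : K) 0 := by
    intro k
    have e1 := conj_parU hperf φ hφ (z := z ^ k) (hzkf k) 1
    have e2 := conj_suzU hperf φ hφ (z := z ^ k) (hzkf k) 1 0
    rw [mul_one, map_zpow, hQ] at e1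
    rw [mul_one, mul_zero, map_zpow, hB, inv_zpow] at e2
    rw [← e1, ← e2, hx]
    generalize (((z ^ k : ↥(chevF4.diagonalSubgroup K))) : GL chevF4.Idx K) = g
    group
  -- the element of the group
  have hinv := nLong_inv_H (hperf := hperf) (φ := φ) z hzf hn
  have hu : x * (z : GL chevF4.Idx K)⁻¹ * x⁻¹ * (z : GL chevF4.Idx K) ∈ G1 := by
    have e : x * (z : GL chevF4.Idx K)⁻¹ * x⁻¹ * (z : GL chevF4.Idx K) =
        (x * nLongF4) * (z : GL chevF4.Idx K) * (x * nLongF4)⁻¹ * (z : GL chevF4.Idx K) := by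
      rw [← hinv]
      generalize (nLongF4 : GL chevF4.Idx K) = n
      group
    rw [e]
    exact Subgroup.mul_mem _ (Subgroup.mul_mem _ (Subgroup.mul_mem _ h2 h1) (Subgroup.inv_mem _ h2)) h1
  -- the images
  have hE : ∀ r : Kˣ, tauUF hperf φ (parU φ ((r : K) * (1 + ((s⁻¹ : Kˣ) : K)))) * tauUF hperf φ (suzU φ (((r⁻¹ : Kˣ) : K) * (1 + (s : K))) 0) ∈ M := by
    intro r
    obtain ⟨k, hk⟩ := Subgroup.mem_zpowers_iff.1 (hs r)
    set zk : GL chevF4.Idx K := ((z ^ k : ↥(chevF4.diagonalSubgroup K)) : GL chevF4.Idx K) with hzk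
    have hzk1 : ((z ^ (k - 1) : ↥(chevF4.diagonalSubgroup K)) : GL chevF4.Idx K) = zk * (z : GL chevF4.Idx K)⁻¹ := by
      rw [zpow_sub_one]
      rfl
    have e1 := hX k
    have e2 := hX (k - 1)
    rw [hzk1] at e2
    rw [← hzk] at e1
    rw [zpow_sub_one, hk] at e2
    rw [hk] at e1
    have e3 : zk * (x * (z : GL chevF4.Idx K)⁻¹ * x⁻¹ * (z : GL chevF4.Idx K)) * zk⁻¹ =
        (parU φ (r : K) * suzU φ ((r⁻¹ : Kˣ) : K) 0) * (parU φ (((r * s⁻¹ : Kˣ)) : K) * suzU φ (((r * s⁻¹)⁻¹ : Kˣ) : K) 0)⁻¹ := by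
      rw [← e1, ← e2]
      generalize (z : GL chevF4.Idx K) = g
      generalize zk = g2
      group
    have hmemG := Subgroup.mul_mem _ (Subgroup.mul_mem _ (hzkG k) hu) (Subgroup.inv_mem _ (hzkG k))
    rw [← hzk, e3] at hmemG
    have hm1 : parU φ (r : K) * suzU φ ((r⁻¹ : Kˣ) : K) 0 ∈ UF4 hperf φ := Subgroup.mul_mem _ (hPm _) (hSm _ _)
    have hm2 : parU φ (((r * s⁻¹ : Kˣ)) : K) * suzU φ (((r * s⁻¹)⁻¹ : Kˣ) : K) 0 ∈ UF4 hperf φ := Subgroup.mul_mem _ (hPm _) (hSm _ _)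
    have h3 := hMm _ (Subgroup.mul_mem _ hm1 (Subgroup.inv_mem _ hm2)) hmemG
    rw [tauUF_mul hm1 (Subgroup.inv_mem _ hm2), tauUF_inv hm2, tauUF_mul (hPm _) (hSm _ _), tauUF_mul (hPm _) (hSm _ _), mul_inv, hPinv, hSinv] at h3
    have e4 : (r : K) * (1 + ((s⁻¹ : Kˣ) : K)) = (r : K) + ((r * s⁻¹ : Kˣ) : K) := by
      rw [Units.val_mul]
      ring
    have e5 : ((r⁻¹ : Kˣ) : K) * (1 + (s : K)) = ((r⁻¹ : Kˣ) : K) + (((r * s⁻¹)⁻¹ : Kˣ) : K) := by
      rw [mul_inv, inv_inv, Units.val_mul]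
      ring
    rw [e4, e5, hPadd, hSadd]
    rw [mul_mul_mul_comm] at h3
    exact h3
  have hs1' : (s : K) + 1 ≠ 0 := fun h => hs1 (add_eq_zero_charF h)
  have ht1 : 1 + ((s⁻¹ : Kˣ) : K) ≠ 0 := by
    intro h
    have h3 : ((s⁻¹ : Kˣ) : K) = 1 := (add_eq_zero_charF h).symm
    have h4 : s⁻¹ = 1 := Units.ext h3
    exact hs1 (by rw [inv_eq_one.1 h4]; rfl)
  have hs1'' : 1 + (s : K) ≠ 0 := by rwa [add_comm]
  -- the short orbit
  have hPM : ∀ t : K, tauUF hperf φ (parU φ t) ∈ M := by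
    intro t
    by_cases ht : t = 0
    · rw [ht, hP0]
      exact Subgroup.one_mem _
    set a : K := (s : K) with ha
    set t1 : K := 1 + ((s⁻¹ : Kˣ) : K) with ht1d
    set β : K := (a ^ 2 + a + 1) / (a + 1) with hβ
    have hβ0 : β ≠ 0 := div_ne_zero hs3 hs1'
    set ρ : K := t / (β * t1) with hρ
    have hρ0 : ρ ≠ 0 := div_ne_zero ht (mul_ne_zero hβ0 ht1)
    have h3 := Subgroup.mul_mem _ (Subgroup.mul_mem _ (hE (Units.mk0 (ρ * a) (mul_ne_zero hρ0 hs0))) (hE (Units.mk0 ρ hρ0)))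
      (hE (Units.mk0 (ρ * a / (a + 1)) (div_ne_zero (mul_ne_zero hρ0 hs0) hs1')))
    have e1 : ∀ A B C D E F : Abelianization ↥(UF4 hperf φ), A * B * (C * D) * (E * F) = (A * C * E) * (B * D * F) := by
      intro A B C D E F
      ac_rfl
    rw [e1, ← hPadd, ← hPadd, ← hSadd, ← hSadd] at h3
    simp only [Units.val_mk0, Units.val_inv_eq_inv_val] at h3
    have e2 : ρ * a * t1 + ρ * t1 + ρ * a / (a + 1) * t1 = t := by
      rw [trickF1 h2K ρ a t1 hs1', ← hβ, hρ]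
      exact div_mul_cancel₀ _ (mul_ne_zero hβ0 ht1)
    rw [trickF2 h2K ρ a hρ0 hs0 hs1', hS0, mul_one] at h3
    rw [← e2]
    exact h3
  -- the long orbit
  have hSM : ∀ t : K, tauUF hperf φ (suzU φ t 0) ∈ M := by
    intro t
    by_cases ht : t = 0
    · rw [ht, hS0]
      exact Subgroup.one_mem _
    have h3 := hE (Units.mk0 ((1 + (s : K)) / t) (div_ne_zero hs1'' ht))
    have e : (((Units.mk0 ((1 + (s : K)) / t) (div_ne_zero hs1'' ht))⁻¹ : Kˣ) : K) * (1 + (s : K)) = t := by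
      rw [Units.val_inv_eq_inv_val, Units.val_mk0, inv_div]
      field_simp
    rw [e] at h3
    have h4 := Subgroup.mul_mem _ (Subgroup.inv_mem _ (hPM (((Units.mk0 ((1 + (s : K)) / t) (div_ne_zero hs1'' ht) : Kˣ) : K) * (1 + ((s⁻¹ : Kˣ) : K))))) h3
    rwa [inv_mul_cancel_left] at h4
  -- the group is nilpotent
  obtain ⟨n0, hn0⟩ := hcard
  have hcardU : Nat.card ↥(UF4 hperf φ) = 2 ^ (n0 * 12) := by
    rw [cardUF4 hperf φ hφ, hn0, pow_mul]
  haveI : Fact (Nat.Prime 2) := ⟨Nat.prime_two⟩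
  haveI : Finite ↥(UF4 hperf φ) := Nat.finite_of_card_ne_zero (by rw [hcardU]; positivity)
  have hp : IsPGroup 2 ↥(UF4 hperf φ) := IsPGroup.of_card hcardU
  haveI : Group.IsNilpotent ↥(UF4 hperf φ) := hp.isNilpotent
  have hsup : W ⊔ commutator ↥(UF4 hperf φ) = ⊤ := by
    rw [eq_top_iff]
    intro g _
    have hg1 : Abelianization.of g ∈ M := by
      have e : Abelianization.of g = tauUF hperf φ g.1 := (tauUF_of g.2).symm
      rw [e]
      obtain ⟨a, c, e2⟩ := tau_form hφ ht0 g.2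
      rw [e2]
      exact Subgroup.mul_mem _ (hPM a) (hSM c)
    obtain ⟨w, hw, e3⟩ := hg1
    have h4 : w⁻¹ * g ∈ commutator ↥(UF4 hperf φ) := by
      rw [← Abelianization.ker_of, MonoidHom.mem_ker, map_mul, map_inv, ← e3, inv_mul_cancel]
    have e5 : g = w * (w⁻¹ * g) := by group
    rw [e5]
    exact Subgroup.mul_mem _ (Subgroup.mem_sup_left hw) (Subgroup.mem_sup_right h4)
  have hWtop := eq_top_of_sup_commutatorF W hsup
  have hUG : ∀ g, g ∈ UF4 hperf φ → g ∈ G1 := by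
    intro g hg
    have h3 : (⟨g, hg⟩ : ↥(UF4 hperf φ)) ∈ W := hWtop ▸ Subgroup.mem_top _
    exact h3
  -- the representative and the opposite group
  have hn1 : (nLongF4 : GL chevF4.Idx K) ∈ G1 := by
    have e : (nLongF4 : GL chevF4.Idx K) = x⁻¹ * (x * nLongF4) := by group
    rw [e]
    exact Subgroup.mul_mem _ (Subgroup.inv_mem _ (hUG _ hxU)) h2
  have hVG : ∀ v, v ∈ chevF4.negUnipotent K → v ∈ (twF4 hperf φ).fix → v ∈ G1 := by
    intro v hv hvf
    have h3 : nLongF4 * v * nLongF4⁻¹ ∈ UF4 hperf φ := ⟨nLongF4_V hv, Subgroup.mul_mem _ (Subgroup.mul_mem _ hn hvf) (Subgroup.inv_mem _ hn)⟩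
    have h4 := hUG _ h3
    have e : v = nLongF4⁻¹ * (nLongF4 * v * nLongF4⁻¹) * nLongF4 := by group
    rw [e]
    exact Subgroup.mul_mem _ (Subgroup.mul_mem _ (Subgroup.inv_mem _ hn1) h4) hn1
  refine fix_le_F4 hperf φ hφ hG1 (fun t u => hUG _ (hSm t u)) (fun t u => hVG _ ?_ (suzV_fix hperf φ hφ t u)) (fun t => hUG _ (hPm t)) (fun t => hVG _ ?_ (parV_fix hperf φ hφ t))
  · rw [suzV_eq]
    refine gW_neg_memF _ ?_
    intro e he
    simp only [List.mem_cons, List.not_mem_nil, or_false] at he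
    rcases he with rfl | rfl | rfl | rfl <;> show _ < _ <;> norm_num
  · rw [parV_eq]
    refine gW_neg_memF _ ?_
    intro e he
    simp only [List.mem_cons, List.not_mem_nil, or_false] at he
    rcases he with rfl | rfl <;> show _ < _ <;> norm_num

end

section

variable {K : Type*} [Field K] [Fintype K] {m : ℕ}

/-- No root of `x² + x + 1` exists in a field of odd degree over the field with two elements. -/
lemma no_root_F4 [CharP K 2] (hK : Fintype.card K = 2 ^ (2 * m + 1)) (a : K) : a ^ 2 + a + 1 ≠ 0 := by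
  intro h
  have h2K := two_eq_zero_K (K := K)
  have h4 : a ^ 4 = a := by linear_combination (a ^ 2 - a) * h
  have hp : ∀ n : ℕ, a ^ (4 ^ n) = a := by
    intro n
    induction n with
    | zero => simp
    | succ n ih => rw [pow_succ, pow_mul, ih, h4]
  have h5 := FiniteField.pow_card a
  have e : 2 ^ (2 * m + 1) = 4 ^ m * 2 := by
    rw [pow_succ, pow_mul]
    norm_num
  rw [hK, e, pow_mul, hp] at h5
  have h6 : (1 : K) = 0 := by linear_combination h - h5 - a * h2K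
  exact one_ne_zero h6

/-- Two-generation of `²F₄(2^(2m+1))`, `m ≥ 1`. -/
theorem two_genF4 (hm : 1 ≤ m) (hK : Fintype.card K = 2 ^ (2 * m + 1)) :
    ∃ a b : ↥(twistedF4 K (2 ^ m)), Subgroup.closure ({a, b} : Set ↥(twistedF4 K (2 ^ m))) = ⊤ := by
  haveI := charF4 hK
  obtain ⟨hperf, φ, hq, hφ, e⟩ := setupF4 hK
  rw [e]
  obtain ⟨s, hs⟩ := IsCyclic.exists_generator (α := Kˣ)
  have h1phi : ∀ x : K, φ ((φ x) ^ 2) = x := fun x => by
    rw [← map_pow]
    exact hφ x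
  obtain ⟨z0, hz0⟩ := (chiFixF4_bij hperf φ hφ).2 (Units.map (φ : K →* K) s, Units.map (φ : K →* K) s⁻¹)
  rw [chiFixF4_apply, Prod.mk.injEq] at hz0
  let z : ↥(chevF4.diagonalSubgroup K) := ⟨z0.1, z0.2.1⟩
  have hzf : (z : GL chevF4.Idx K) ∈ (twF4 hperf φ).fix := z0.2.2
  have hQ : chQ z = s := by
    apply Units.ext
    rw [chQ_fix hperf φ hzf]
    have e1 : (chP z : K) = φ s := congrArg Units.val hz0.1
    rw [e1, h1phi]
  have hB : chB z = s⁻¹ := by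
    apply Units.ext
    rw [chB_fix hperf φ hzf]
    have e1 : (chA z : K) = φ ((s⁻¹ : Kˣ) : K) := congrArg Units.val hz0.2
    rw [e1, h1phi]
  have hord : orderOf s = 2 ^ (2 * m + 1) - 1 := by
    rw [orderOf_eq_card_of_forall_mem_zpowers hs, Nat.card_units, cardK_F4 hK]
  have h8 : 8 ≤ 2 ^ (2 * m + 1) := by
    calc 8 = 2 ^ 3 := by norm_num
      _ ≤ 2 ^ (2 * m + 1) := Nat.pow_le_pow_right (by norm_num) (by omega)
  have hs2 : s ≠ 1 := by
    rintro rfl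
    rw [orderOf_one] at hord
    omega
  have hs1 : (s : K) ≠ 1 := fun h => hs2 (Units.ext h)
  have hyfix : parU φ 1 * suzU φ 1 0 * nLongF4 ∈ (twF4 hperf φ).fix :=
    Subgroup.mul_mem _ (Subgroup.mul_mem _ (parU_fix hperf φ hφ 1) (suzU_fix hperf φ hφ 1 0)) (nLongF4_fix hperf φ hφ)
  refine ⟨⟨z.1, hzf⟩, ⟨_, hyfix⟩, ?_⟩
  set a : ↥(twF4 hperf φ).fix := ⟨z.1, hzf⟩ with ha
  set b : ↥(twF4 hperf φ).fix := ⟨_, hyfix⟩ with hb
  set C := Subgroup.closure ({a, b} : Set ↥(twF4 hperf φ).fix) with hC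
  have hle : C.map (twF4 hperf φ).fix.subtype ≤ (twF4 hperf φ).fix := by
    rintro _ ⟨x, _, rfl⟩
    exact x.2
  have hfix := two_gen_coreF4 hφ ⟨2 * m + 1, cardK_F4 hK⟩ s hs hs1 (no_root_F4 hK _) z hzf hQ hB hle
    ⟨a, Subgroup.subset_closure (Or.inl rfl), rfl⟩ ⟨b, Subgroup.subset_closure (Or.inr rfl), rfl⟩
  rw [eq_top_iff]
  intro g _
  obtain ⟨c, hc, e⟩ := hfix g.2
  have : c = g := Subtype.ext e
  rwa [← this]

end

end Cfsg.Agent.Lib.Chev
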