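/-
The group ²G₂(q), `q = 3^(2m+1)`, `m ≥ 1`, is generated by two elements: a generator of the fixed points of the
diagonal subgroup, and the product of an element of `U` with the long representative.
-/
import Cfsg.Agent.Lib.Tw.ReeG2h
import Cfsg.Agent.Lib.Tw.ReeG2j

set_option autoImplicit false
set_option maxRecDepth 100000

namespace Cfsg.Agent.Lib.Chev

open Cfsg.Lie

section

variable {K : Type*} [Field K] [CharP K 3] (hperf : ∀ x : K, ∃ y : K, y ^ 3 = x) (φ : K ≃+* K)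

/-- The core of the generation argument. -/
theorem two_gen_coreG2 (hφ : ∀ x, φ (φ (x ^ 3)) = x) (hsq : ∀ s : K, s ≠ 0 → ∃ r : K, r ≠ 0 ∧ (s = r ^ 2 ∨ s = -r ^ 2))
    (s : Kˣ) (hs : ∀ u : Kˣ, u ∈ Subgroup.zpowers s) (hs1 : φ ((s : K) ^ 3) ≠ s) (hs2 : s ≠ 1)
    (z0 : ↥(chevG2.diagonalSubgroup K ⊓ (twG2 hperf φ).fix)) (hz0 : chiFix hperf φ z0 = s)
    {G1 : Subgroup (GL chevG2.Idx K)} (hG1 : G1 ≤ (twG2 hperf φ).fix) (h1 : z0.1 ∈ G1)
    (h2 : reeU φ 1 0 0 * n0G2 ∈ G1) : (twG2 hperf φ).fix ≤ G1 := by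
  have hbij := chiFix_bij hperf φ hφ hsq
  have hmul := reeU_mul hperf φ hφ
  -- the fixed points of the diagonal subgroup
  have hH : ∀ z : ↥(chevG2.diagonalSubgroup K ⊓ (twG2 hperf φ).fix), z.1 ∈ G1 := by
    intro z
    obtain ⟨k, hk⟩ := Subgroup.mem_zpowers_iff.1 (hs (chiFix hperf φ z))
    have e : z = z0 ^ k := hbij.1 (by rw [map_zpow, hz0, hk])
    rw [e, Subgroup.coe_zpow]
    exact Subgroup.zpow_mem _ h1 _
  have hex7 : ∀ r : Kˣ, ∃ z : ↥(chevG2.diagonalSubgroup K ⊓ (twG2 hperf φ).fix), (chi7 ⟨z.1, z.2.1⟩ : K) = r := by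
    intro r
    obtain ⟨z, hz⟩ := hbij.2 r
    refine ⟨z, ?_⟩
    rw [chiFix_apply] at hz
    rw [hz]
  have hconj : ∀ (z : ↥(chevG2.diagonalSubgroup K ⊓ (twG2 hperf φ).fix)) (t u v : K),
      z.1 * reeU φ t u v * z.1⁻¹ = reeU φ (φ ((chi7 ⟨z.1, z.2.1⟩ : K) ^ 3) * t)
        ((chi7 ⟨z.1, z.2.1⟩ : K) ^ 3 * φ ((chi7 ⟨z.1, z.2.1⟩ : K) ^ 3) * u) (chi11 ⟨z.1, z.2.1⟩ * v) := by
    intro z t u v
    have e := conj_reeU hperf φ hφ (z := ⟨z.1, z.2.1⟩) z.2.2 t u v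
    have e6 := chi6_fix hperf φ (z := ⟨z.1, z.2.1⟩) z.2.2
    have e10 := (chi_rel (K := K) ⟨z.1, z.2.1⟩).2.2.1
    rw [e10, e6] at e
    exact e
  have hUf : ∀ g ∈ G1, g ∈ chevG2.posUnipotent K → ∃ t u v, g = reeU φ t u v := fun g hg hU =>
    (mem_U_fix_iff hperf φ hφ).1 ⟨hU, hG1 hg⟩
  have hUm := fun t u v => reeU_mem_U φ (K := K) t u v
  -- an element with nonzero first coordinate
  have hn0 : n0G2 ∈ (twG2 hperf φ).fix := n0G2_fix hperf φ hφ
  obtain ⟨t1, ht1, u1, v1, hw⟩ : ∃ t1 : K, t1 ≠ 0 ∧ ∃ u1 v1, reeU φ t1 u1 v1 ∈ G1 := by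
    let z1 : ↥(chevG2.diagonalSubgroup K ⊓ (twG2 hperf φ).fix) :=
      ⟨n0G2 * z0.1 * n0G2⁻¹, good3G2.toGood2.N_conj_H (n0G2_mem_N (K := K)) z0.2.1,
        Subgroup.mul_mem _ (Subgroup.mul_mem _ hn0 z0.2.2) (Subgroup.inv_mem _ hn0)⟩
    have hz1 : z1.1 = n0G2 * z0.1 * n0G2⁻¹ := rfl
    set c : K := φ ((chi7 ⟨z1.1, z1.2.1⟩ : K) ^ 3) with hc
    have hc1 : c ≠ 1 := by
      intro hc1
      have e1 : ((chi7 ⟨z1.1, z1.2.1⟩ : K)) ^ 3 = 1 := by
        have : φ ((chi7 ⟨z1.1, z1.2.1⟩ : K) ^ 3) = φ 1 := by rw [map_one]; exact hc1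
        exact φ.injective this
      have e2 : (chi7 ⟨z1.1, z1.2.1⟩ : K) = 1 := by
        have : (chi7 ⟨z1.1, z1.2.1⟩ : K) ^ 3 = (1 : K) ^ 3 := by rw [e1, one_pow]
        exact cube_inj this
      have e3 : chiFix hperf φ z1 = 1 := Units.ext e2
      have e4 : z1 = 1 := hbij.1 (by rw [e3, map_one])
      have e5 : n0G2 * z0.1 * n0G2⁻¹ = 1 := by rw [← hz1, e4]; rfl
      have e6 : z0.1 = 1 := by
        have : z0.1 = n0G2⁻¹ * (n0G2 * z0.1 * n0G2⁻¹) * n0G2 := by group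
        rw [this, e5]
        group
      have e7 : z0 = 1 := Subtype.ext e6
      exact hs2 (by rw [← hz0, e7, map_one])
    have hx := hconj z1 1 0 0
    rw [mul_one, mul_zero, mul_zero] at hx
    have hw0 : reeU φ (1 : K) 0 0 * (reeU φ c 0 0)⁻¹ ∈ G1 := by
      have e : reeU φ (1 : K) 0 0 * (reeU φ c 0 0)⁻¹ =
          (reeU φ 1 0 0 * n0G2) * z0.1 * (reeU φ 1 0 0 * n0G2)⁻¹ * z1.1⁻¹ := by
        rw [← hc] at hx
        rw [← hx, hz1]
        generalize reeU φ (1 : K) 0 0 = x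
        generalize (n0G2 : GL chevG2.Idx K) = n
        generalize z0.1 = h
        group
      rw [e]
      exact Subgroup.mul_mem _ (Subgroup.mul_mem _ (Subgroup.mul_mem _ h2 h1) (Subgroup.inv_mem _ h2)) (Subgroup.inv_mem _ (hH z1))
    obtain ⟨t, u, v, e⟩ := hUf _ hw0 (Subgroup.mul_mem _ (hUm _ _ _) (Subgroup.inv_mem _ (hUm _ _ _)))
    have e2 : reeU φ t u v * reeU φ c 0 0 = reeU φ (1 : K) 0 0 := by
      rw [← e]
      group
    rw [hmul] at e2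
    have e3 := (reeU_inj φ e2).1
    refine ⟨t, ?_, u, v, e ▸ hw0⟩
    rintro rfl
    rw [zero_add] at e3
    exact hc1 e3
  -- the first layer
  have hL1 : ∀ t : K, ∃ u v, reeU φ t u v ∈ G1 := by
    intro t
    by_cases ht : t = 0
    · subst ht
      refine ⟨0, 0, ?_⟩
      rw [reeU_zero]
      exact Subgroup.one_mem _
    · obtain ⟨y, hy⟩ := hperf (φ.symm (t / t1))
      have hy0 : y ≠ 0 := by
        rintro rfl
        rw [zero_pow (by norm_num)] at hy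
        have : t / t1 = 0 := by
          have := congrArg φ hy
          simpa using this.symm
        exact (div_ne_zero ht ht1) this
      obtain ⟨z, hz⟩ := hex7 (Units.mk0 y hy0)
      have e := hconj z t1 u1 v1
      rw [hz, Units.val_mk0, hy, RingEquiv.apply_symm_apply, div_mul_cancel₀ _ ht1] at e
      exact ⟨_, _, e ▸ Subgroup.mul_mem _ (Subgroup.mul_mem _ (hH z) hw) (Subgroup.inv_mem _ (hH z))⟩
  -- the commutator of two elements of the first layer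
  have hcomm : ∀ a b t a' b', reeU φ 1 a b ∈ G1 → reeU φ t a' b' ∈ G1 → ∃ v2, reeU φ 0 (t - φ t ^ 3) v2 ∈ G1 := by
    intro a b t a' b' hA hB
    have hC : reeU φ 1 a b * reeU φ t a' b' * (reeU φ t a' b' * reeU φ 1 a b)⁻¹ ∈ G1 :=
      Subgroup.mul_mem _ (Subgroup.mul_mem _ hA hB) (Subgroup.inv_mem _ (Subgroup.mul_mem _ hB hA))
    obtain ⟨t2, u2, v2, e⟩ := hUf _ hC (Subgroup.mul_mem _ (Subgroup.mul_mem _ (hUm _ _ _) (hUm _ _ _))
      (Subgroup.inv_mem _ (Subgroup.mul_mem _ (hUm _ _ _) (hUm _ _ _))))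
    have e2 : reeU φ t2 u2 v2 * (reeU φ t a' b' * reeU φ 1 a b) = reeU φ 1 a b * reeU φ t a' b' := by
      rw [← e]
      group
    rw [hmul, hmul, hmul] at e2
    obtain ⟨e3, e4, -⟩ := reeU_inj φ e2
    have e5 : t2 = 0 := by
      have : t2 + (t + 1) = 1 + t := e3
      linear_combination this
    subst e5
    have e6 : u2 = t - φ t ^ 3 := by
      simp only [map_one, one_pow, zero_mul, neg_zero, zero_add] at e4
      linear_combination e4
    rw [← e6]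
    exact ⟨v2, e ▸ hC⟩
  -- the second layer
  obtain ⟨a1, b1, hA1⟩ := hL1 1
  obtain ⟨a2, b2, hA2⟩ := hL1 (s : K)
  obtain ⟨v2, hv2⟩ := hcomm a1 b1 (s : K) a2 b2 hA1 hA2
  set u2 : K := (s : K) - φ (s : K) ^ 3 with hu2
  have hu20 : u2 ≠ 0 := by
    rw [hu2, sub_ne_zero]
    intro e
    exact hs1 (by rw [map_pow]; exact e.symm)
  have hmul0 : ∀ u v u' v' : K, reeU φ 0 u v * reeU φ 0 u' v' = reeU φ 0 (u + u') (v + v') := by
    intro u v u' v'
    rw [hmul]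
    simp
  have hL2a : ∀ a : K, ∃ v, reeU φ 0 (a ^ 2 * u2) v ∈ G1 := by
    intro a
    by_cases ha : a = 0
    · subst ha
      refine ⟨0, ?_⟩
      rw [zero_pow (by norm_num), zero_mul, reeU_zero]
      exact Subgroup.one_mem _
    · have hφa : φ a ≠ 0 := (map_ne_zero φ).2 ha
      obtain ⟨z, hz⟩ := hex7 (Units.mk0 (a / φ a) (div_ne_zero ha hφa))
      have e := hconj z 0 u2 v2
      rw [hz, Units.val_mk0, mul_zero] at e
      have e2 : (a / φ a) ^ 3 * φ ((a / φ a) ^ 3) = a ^ 2 := by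
        have e3 : φ (φ a) ^ 3 = a := by
          rw [← map_pow, ← map_pow, hφ]
        rw [map_pow, map_div₀, div_pow, div_pow, e3]
        field_simp
      rw [e2] at e
      exact ⟨_, e ▸ Subgroup.mul_mem _ (Subgroup.mul_mem _ (hH z) hv2) (Subgroup.inv_mem _ (hH z))⟩
  have hinv0 : ∀ u v : K, (reeU φ 0 u v)⁻¹ = reeU φ 0 (-u) (-v) := by
    intro u v
    refine inv_eq_of_mul_eq_one_right ?_
    rw [hmul0, add_neg_cancel, add_neg_cancel, reeU_zero]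
  have hL2 : ∀ u : K, ∃ v, reeU φ 0 u v ∈ G1 := by
    intro u
    set x := u / u2 with hx
    obtain ⟨v3, h3⟩ := hL2a (x + 1)
    obtain ⟨v4, h4⟩ := hL2a (x - 1)
    refine ⟨v3 + -v4, ?_⟩
    have e3 : ((3 : K)) = 0 := three_eq_zero
    have e : (x + 1) ^ 2 * u2 + -((x - 1) ^ 2 * u2) = u := by
      have : u = x * u2 := by
        rw [hx]
        field_simp
      rw [this]
      linear_combination (x * u2) * e3
    rw [← e, ← hmul0, ← hinv0]
    exact Subgroup.mul_mem _ h3 (Subgroup.inv_mem _ h4)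
  -- the third layer
  have hL3 : ∀ v : K, reeU φ 0 0 v ∈ G1 := by
    intro u
    obtain ⟨c, hB⟩ := hL2 u
    have hC : reeU φ 1 a1 b1 * reeU φ 0 u c * (reeU φ 0 u c * reeU φ 1 a1 b1)⁻¹ ∈ G1 :=
      Subgroup.mul_mem _ (Subgroup.mul_mem _ hA1 hB) (Subgroup.inv_mem _ (Subgroup.mul_mem _ hB hA1))
    have e : reeU φ 1 a1 b1 * reeU φ 0 u c * (reeU φ 0 u c * reeU φ 1 a1 b1)⁻¹ = reeU φ 0 0 u := by
      rw [mul_inv_eq_iff_eq_mul, hmul, hmul, hmul]
      congr 1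
      · simp
      · simp
        ring
      · simp
        ring
    rwa [e] at hC
  have hL2' : ∀ u v : K, reeU φ 0 u v ∈ G1 := by
    intro u v
    obtain ⟨c, hc⟩ := hL2 u
    have e : reeU φ 0 u v = reeU φ 0 u c * reeU φ 0 0 (v - c) := by
      rw [hmul0]
      simp
    rw [e]
    exact Subgroup.mul_mem _ hc (hL3 _)
  have hU : ∀ t u v : K, reeU φ t u v ∈ G1 := by
    intro t u v
    obtain ⟨a, b, hc⟩ := hL1 t
    have e : reeU φ t u v = reeU φ t a b * reeU φ 0 (u - a) (v - b) := by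
      rw [hmul]
      simp
    rw [e]
    exact Subgroup.mul_mem _ hc (hL2' _ _)
  have hn : n0G2 ∈ G1 := by
    have e : n0G2 = (reeU φ (1 : K) 0 0)⁻¹ * (reeU φ 1 0 0 * n0G2) := by group
    rw [e]
    exact Subgroup.mul_mem _ (Subgroup.inv_mem _ (hU _ _ _)) h2
  refine fix_le_G2 hperf φ hφ hsq hG1 hU ?_
  intro t u v
  exact Subgroup.mul_mem _ (Subgroup.mul_mem _ hn (hU _ _ _)) (Subgroup.inv_mem _ hn)

end

section

variable {K : Type*} [Field K] [Fintype K] {m : ℕ}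

/-- Two-generation of `²G₂(3^(2m+1))`, `m ≥ 1`. -/
theorem two_genG2 (hm : 1 ≤ m) (hK : Fintype.card K = 3 ^ (2 * m + 1)) :
    ∃ a b : ↥(twistedG2 K (3 ^ m)), Subgroup.closure ({a, b} : Set ↥(twistedG2 K (3 ^ m))) = ⊤ := by
  haveI := charG2 hK
  obtain ⟨hperf, φ, hq, hφ, e⟩ := setupG2 hK
  rw [e]
  obtain ⟨s, hs⟩ := IsCyclic.exists_generator (α := Kˣ)
  have hsq := sq_or_neg_sq hK
  obtain ⟨z0, hz0⟩ := (chiFix_bij hperf φ hφ hsq).2 s
  have hord : orderOf s = 3 ^ (2 * m + 1) - 1 := by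
    rw [orderOf_eq_card_of_forall_mem_zpowers hs, Nat.card_units, cardK_G2 hK]
  have hq3 : 3 ^ (2 * m + 1) = 3 * (3 ^ m) ^ 2 := by ring
  have h3m : 3 ≤ 3 ^ m := by
    calc 3 = 3 ^ 1 := by norm_num
      _ ≤ 3 ^ m := Nat.pow_le_pow_right (by norm_num) hm
  have hs2 : s ≠ 1 := by
    rintro rfl
    rw [orderOf_one] at hord
    have : 3 ^ (2 * m + 1) ≥ 3 := by rw [hq3]; nlinarith
    omega
  have hs1 : φ ((s : K) ^ 3) ≠ s := by
    intro h
    rw [hq, ← pow_mul] at h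
    have h2 : s ^ (3 * 3 ^ m) = s := Units.ext (by simpa using h)
    have h3 : s ^ (3 * 3 ^ m - 1) = 1 := by
      have h4 : 3 * 3 ^ m = (3 * 3 ^ m - 1) + 1 := by omega
      rw [h4, pow_succ] at h2
      exact mul_eq_right.1 h2
    have h5 := orderOf_dvd_of_pow_eq_one h3
    rw [hord] at h5
    have h6 := Nat.le_of_dvd (by omega) h5
    rw [hq3] at h6
    generalize 3 ^ m = T at h6 h3m
    have h7 : 3 * T ^ 2 ≥ 9 * T := by nlinarith
    omega
  have hzfix : (z0.1 : GL chevG2.Idx K) ∈ (twG2 hperf φ).fix := z0.2.2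
  have hyfix : reeU φ (1 : K) 0 0 * n0G2 ∈ (twG2 hperf φ).fix :=
    Subgroup.mul_mem _ (reeU_fix hperf φ hφ 1 0 0) (n0G2_fix hperf φ hφ)
  refine ⟨⟨z0.1, hzfix⟩, ⟨_, hyfix⟩, ?_⟩
  set a : ↥(twG2 hperf φ).fix := ⟨z0.1, hzfix⟩ with ha
  set b : ↥(twG2 hperf φ).fix := ⟨_, hyfix⟩ with hb
  set C := Subgroup.closure ({a, b} : Set ↥(twG2 hperf φ).fix) with hC
  have hle : C.map (twG2 hperf φ).fix.subtype ≤ (twG2 hperf φ).fix := by
    rintro _ ⟨x, _, rfl⟩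
    exact x.2
  have hfix := two_gen_coreG2 hperf φ hφ hsq s hs hs1 hs2 z0 hz0 hle
    ⟨a, Subgroup.subset_closure (Or.inl rfl), rfl⟩ ⟨b, Subgroup.subset_closure (Or.inr rfl), rfl⟩
  rw [eq_top_iff]
  intro g _
  obtain ⟨c, hc, e⟩ := hfix g.2
  have : c = g := Subtype.ext e
  rwa [← this]

end

end Cfsg.Agent.Lib.Chev
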